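import Mathlib
import Cfsg.Prelude.Def_Sporadic_a
import Cfsg.Agent.Lib.Helper9.Steiner24Iso
import Cfsg.Agent.S5622
import Cfsg.Agent.S5624

set_option autoImplicit false

namespace Cfsg.Agent.Lib.Helper9

open Cfsg

theorem adL_spec : ∀ m ∈ adL, inCode m = true ∧ popc m = 8 := by decide +kernel

theorem spanL_gB_le_adL : spanL gB ≤ spanL adL := by
  apply Submodule.span_le.mpr
  rintro w ⟨b, hb, rfl⟩
  have hb' : b ∈ adCoef.map (comb adL) := by rw [← gB_eq_comb_adL]; exact hb
  rw [List.mem_map] at hb'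
  obtain ⟨c, _, rfl⟩ := hb'
  exact dec_comb_mem adL c

/-- The code is spanned by its words of weight 8. -/
theorem golay_le_span_octads : golayCode ≤
    Submodule.span (ZMod 2) {w : GolayPt → ZMod 2 | w ∈ golayCode ∧ hammingNorm w = 8} := by
  rw [golay_eq_spanL_genL, spanL_genL_eq]
  refine spanL_gB_le_adL.trans (Submodule.span_le.mpr ?_)
  rintro w ⟨m, hm, rfl⟩
  obtain ⟨h1, h2⟩ := adL_spec m hm
  have h3 : dec m ∈ spanL gB := (mem_spanL_iff gB _).mpr ⟨m, mem_sums_of_inCode h1, rfl⟩
  exact Submodule.subset_span ⟨h3, by rw [hammingNorm_dec, h2]⟩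

/-- Uniqueness of the doubly even self-dual code of length 24 without words of weight 4. -/
theorem golay_unique (C : Submodule (ZMod 2) (Fin 24 → ZMod 2))
    (hdim : Module.finrank (ZMod 2) C = 12) (horth : ∀ v ∈ C, ∀ w ∈ C, ∑ i, v i * w i = 0)
    (h4 : ∀ w ∈ C, 4 ∣ hammingNorm w) (hno4 : ∀ w ∈ C, hammingNorm w ≠ 4) :
    ∃ e : Fin 24 ≃ GolayPt, ∀ w : GolayPt → ZMod 2,
      w ∈ golayCode ↔ (fun i => w (e i)) ∈ C := by
  have hmin : ∀ w ∈ C, w ≠ 0 → 8 ≤ hammingNorm w := by
    intro w hw hw0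
    obtain ⟨k, hk⟩ := h4 w hw
    have h0 : hammingNorm w ≠ 0 := fun h => hw0 (hammingNorm_eq_zero.mp h)
    have := hno4 w hw
    omega
  obtain ⟨-, hS⟩ := Cfsg.Agent.S5622.result C hdim horth hmin
  have hspan := Cfsg.Agent.S5624.result C hdim horth hmin
  obtain ⟨e, he⟩ := exists_iso_octads (by simp) hS
  refine ⟨e, fun w => ⟨fun hw => ?_, fun hw => ?_⟩⟩
  · have hle : golayCode ≤ Submodule.comap (LinearMap.funLeft (ZMod 2) (ZMod 2) e) C := by
      refine golay_le_span_octads.trans (Submodule.span_le.mpr ?_)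
      rintro g ⟨hg, hg8⟩
      have hoct : support₂ g ∈ octads := ⟨⟨g, hg, rfl⟩, hg8⟩
      rw [← he] at hoct
      obtain ⟨b, ⟨⟨c, hc, rfl⟩, -⟩, hbe⟩ := hoct
      have hbe' : (support₂ c).image e = support₂ g := hbe
      have h1 : (fun i => g (e i)) = c := by
        apply support₂_injective
        ext i
        have h2 : e i ∈ support₂ g ↔ i ∈ support₂ c := by
          rw [← hbe', Finset.mem_image]
          constructor
          · rintro ⟨j, hj, hji⟩
            rwa [← e.injective hji]
          · intro hi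
            exact ⟨i, hi, rfl⟩
        rw [mem_support₂] at h2 ⊢
        exact h2
      show (LinearMap.funLeft (ZMod 2) (ZMod 2) e) g ∈ C
      have h3 : (LinearMap.funLeft (ZMod 2) (ZMod 2) e) g = fun i => g (e i) := rfl
      rw [h3, h1]
      exact hc
    exact hle hw
  · have hle : C ≤ Submodule.comap (LinearMap.funLeft (ZMod 2) (ZMod 2) e.symm) golayCode := by
      rw [← hspan]
      refine Submodule.span_le.mpr ?_
      rintro c ⟨hc, hc8⟩
      have hb : support₂ c ∈ wordsOfWeight (C : Set (Fin 24 → ZMod 2)) 8 := ⟨⟨c, hc, rfl⟩, hc8⟩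
      have hoct : (support₂ c).image e ∈ octads := by
        rw [← he]
        exact ⟨_, hb, rfl⟩
      obtain ⟨⟨g, hg, hgs⟩, -⟩ := hoct
      have h1 : (fun p => c (e.symm p)) = g := by
        apply support₂_injective
        ext p
        rw [hgs, mem_support₂, Finset.mem_image]
        constructor
        · intro hp
          exact ⟨e.symm p, (mem_support₂ _ _).mpr hp, e.apply_symm_apply p⟩
        · rintro ⟨j, hj, rfl⟩
          rw [e.symm_apply_apply]
          exact (mem_support₂ _ _).mp hj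
      show (LinearMap.funLeft (ZMod 2) (ZMod 2) e.symm) c ∈ golayCode
      have h3 : (LinearMap.funLeft (ZMod 2) (ZMod 2) e.symm) c = fun p => c (e.symm p) := rfl
      rw [h3, h1]
      exact hg
    have h3 : (LinearMap.funLeft (ZMod 2) (ZMod 2) e.symm) (fun i => w (e i)) ∈ golayCode :=
      hle hw
    have h4 : (LinearMap.funLeft (ZMod 2) (ZMod 2) e.symm) (fun i => w (e i)) = w := by
      funext p
      show w (e (e.symm p)) = w p
      rw [e.apply_symm_apply]
    rwa [h4] at h3

end Cfsg.Agent.Lib.Helper9
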