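import Mathlib

/-!
# Project HE (S5993, helper96), piece UNIPPOW

`(1 + N) ^ p = 1` for an endomorphism `N` with `N ^ 3 = 0` in odd characteristic `p`:
`(1 + X) ^ p = 1 + X ^ p` in `F[X]`, evaluated at `N`, and `N ^ p = 0` as `p ≥ 3`.
-/

set_option autoImplicit false
set_option linter.unusedSectionVars false
set_option linter.unusedVariables false

namespace Cfsg.Agent.Lib.Helper9.He

open Module Polynomial

universe u

section Abstract

variable {F : Type u} [Field F] [Fintype F] {V : Type u} [AddCommGroup V] [Module F V]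
  [FiniteDimensional F V] {B : LinearMap.BilinForm F V}

-- PIECE UNIPPOW
theorem one_add_pow_prime (p : ℕ) [Fact p.Prime] [CharP F p] (hp2 : p ≠ 2)
    (N : Module.End F V) (hN3 : N ^ 3 = 0) : (1 + N) ^ p = 1 := by
  have hp : p.Prime := Fact.out
  have hp3 : 3 ≤ p := by
    have h2 := hp.two_le
    omega
  have h1 : ((1 : F[X]) + X) ^ p = 1 + X ^ p := by
    rw [add_pow_char, one_pow]
  have h2 := congrArg (Polynomial.aeval N) h1
  simp only [map_pow, map_add, map_one, Polynomial.aeval_X] at h2
  rw [h2]
  have h3 : N ^ p = 0 := by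
    rw [show p = 3 + (p - 3) by omega, pow_add, hN3, zero_mul]
  rw [h3, add_zero]

end Abstract

end Cfsg.Agent.Lib.Helper9.He
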