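import Mathlib
import Cfsg.Prelude.Def_GeometricClasses
import Cfsg.Prelude.Def_LieClassical
import Cfsg.Agent.Lib.Helper71.Asch0
import Cfsg.Agent.Lib.Helper71.Asch5
import Cfsg.Agent.Lib.Helper71.AschMain
import Cfsg.Agent.Lib.Helper65.ASF
import Cfsg.Agent.Lib.Helper65.ASSN

/-!
# Project U9 (helper44, S5832), piece SY9 (by helper9)

The symplectic-type branch in dimension 9: adaptation of `Lib/Helper29/SUPU5.lean` (prime
dimension) with `n = 9`, `r = 3`.
-/

set_option autoImplicit false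

namespace Cfsg.Agent.Lib.Helper44.U9

open Matrix Cfsg.Geo Cfsg.Agent.Lib.Helper71.Asch
open scoped Kronecker
open Cfsg.Agent.Lib.Helper82.ASSA (SA)
open Cfsg.Agent.Lib.Helper28.ASSB (SB)
open Cfsg.Agent.Lib.Helper66.ASSC (SC)
open Cfsg.Agent.Lib.Helper65.ASSE (SE)
open Cfsg.Agent.Lib.Helper12.ASSF (SF SR)
open Cfsg.Agent.Lib.Helper75.ASSM (SM)
open Cfsg.Agent.Lib.Helper71.AschMain (SLmain)

variable {n : ℕ} {F : Type*} [Field F] [Fintype F] {q : ℕ}

/-- In dimension 9 the prime `r` of the symplectic-type branch is 3. -/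
theorem SY9_r_eq (H L : Subgroup (GL (Fin 9) F)) (h : SymT H L) (r : ℕ)
    (hr : r.Prime) (hp : ∀ x ∈ L, ∃ j : ℕ, x ^ (r ^ j) = 1) : r = 3 := by
  classical
  obtain ⟨x, hxL, y, hyL, hne⟩ := Cfsg.Agent.Lib.Helper65.ASF.not_abelian h
  obtain ⟨c, hc⟩ : ∃ c : GL (Fin 9) F, c = x * y * x⁻¹ * y⁻¹ := ⟨_, rfl⟩
  have hcs : c ∈ scalars (Fin 9) F := by
    rw [hc]; exact Cfsg.Agent.Lib.Helper65.ASF.comm_mem_scalars h hxL hyL
  have hcL : c ∈ L := by
    rw [hc]
    exact L.mul_mem (L.mul_mem (L.mul_mem hxL hyL) (L.inv_mem hxL)) (L.inv_mem hyL)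
  have hc1 : c ≠ 1 := by
    intro h1
    apply hne
    rw [hc] at h1
    calc x * y = (x * y * x⁻¹ * y⁻¹) * (y * x) := by group
      _ = y * x := by rw [h1, one_mul]
  obtain ⟨ζ, hζ⟩ := (mem_scalars_iff c).1 hcs
  have hn0 : 0 < 9 := by norm_num
  have hζ1 : (ζ : F) ≠ 1 := by
    intro h1
    apply hc1
    apply Units.ext
    rw [hζ, h1, one_smul, Units.val_one]
  have hdet : (c : Matrix (Fin 9) (Fin 9) F).det = 1 := by
    rw [hc, Units.val_mul, Units.val_mul, Units.val_mul, Matrix.det_mul, Matrix.det_mul,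
      Matrix.det_mul]
    have hx1 : (x : Matrix (Fin 9) (Fin 9) F).det *
        ((x⁻¹ : GL (Fin 9) F) : Matrix (Fin 9) (Fin 9) F).det = 1 := by
      rw [← Matrix.det_mul, ← Units.val_mul, mul_inv_cancel, Units.val_one, Matrix.det_one]
    have hy1 : (y : Matrix (Fin 9) (Fin 9) F).det *
        ((y⁻¹ : GL (Fin 9) F) : Matrix (Fin 9) (Fin 9) F).det = 1 := by
      rw [← Matrix.det_mul, ← Units.val_mul, mul_inv_cancel, Units.val_one, Matrix.det_one]
    linear_combination ((y : Matrix (Fin 9) (Fin 9) F).det *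
      ((y⁻¹ : GL (Fin 9) F) : Matrix (Fin 9) (Fin 9) F).det) * hx1 + hy1
  have hζn : (ζ : F) ^ 9 = 1 := by
    rw [hζ, Matrix.det_smul, Matrix.det_one, mul_one, Fintype.card_fin] at hdet
    exact hdet
  obtain ⟨j, hj⟩ := hp c hcL
  have hζr : (ζ : F) ^ (r ^ j) = 1 := by
    have h1 := congrArg (fun g : GL (Fin 9) F => (g : Matrix (Fin 9) (Fin 9) F)) hj
    simp only [Units.val_pow_eq_pow_val, Units.val_one] at h1
    rw [hζ, smul_pow, one_pow] at h1
    have h2 := congrFun (congrFun h1 ⟨0, hn0⟩) ⟨0, hn0⟩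
    simpa using h2
  by_contra hrn
  have h3r : Nat.Coprime 3 r := (Nat.coprime_primes Nat.prime_three hr).2 (fun h => hrn h.symm)
  have h9r : Nat.Coprime 9 r := by
    have h := Nat.Coprime.pow_left 2 h3r
    norm_num at h
    exact h
  have hcop : Nat.Coprime 9 (r ^ j) := Nat.Coprime.pow_right j h9r
  have h3 : (ζ : F) ^ Nat.gcd 9 (r ^ j) = 1 := pow_gcd_eq_one.2 ⟨hζn, hζr⟩
  rw [Nat.Coprime.gcd_eq_one hcop, pow_one] at h3
  exact hζ1 h3

/-- SY9: the symplectic-type branch in dimension 9 (no form involved). -/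
theorem SY9 (H L : Subgroup (GL (Fin 9) F)) (h : SymT H L) :
    (∃ F₁ : Subfield F, F₁ ≠ ⊤ ∧ RealisableOver F₁ (matrixSet L)) ∨
    (∃ p e : ℕ, IsSymplecticTypeGroup 3 L ∧ 3 ≠ p ∧ IsMinimalFieldFor 3 p e F ∧
      Nat.card L = 243 ∧ Nat.card (Subgroup.center L) = 3) := by
  classical
  obtain ⟨r, hr, hx⟩ := SA H L h
  have hp := SC H L h r hr hx
  have hr3 : r = 3 := SY9_r_eq H L h r hr hp
  subst hr3
  have hr0 := SB (by norm_num) H L h 3 hr hx
  have hexp := SE (by norm_num) H L h 3 hr hx hp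
  have hg : Nat.gcd 2 3 = 1 := by decide
  have hz : Nat.card ↥(L ⊓ scalars (Fin 9) F) = 3 := by
    rcases SF (by norm_num) H L h 3 hr hexp with ⟨-, hz⟩ | ⟨hr2, -⟩
    · exact hz
    · omega
  have hroot : ∃ ζ : F, IsPrimitiveRoot ζ 3 := by
    have h1 := SR (by norm_num) L
    rw [hz] at h1
    exact h1
  have hexpz : ∀ x ∈ L, x ^ 3 = 1 := by
    intro x hxL
    have h1 := hexp x hxL
    rw [hg, mul_one] at h1
    exact h1
  obtain ⟨hreal, hcard⟩ := SLmain (by norm_num) H L h 3 hr hx 3 hexpz hr0 hroot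
  rcases SM 3 hroot (by norm_num) with ⟨F₁, hF₁, hF₁z⟩ | ⟨p, e, hmin⟩
  · left
    exact ⟨F₁, hF₁, hreal F₁ hF₁z⟩
  · right
    have hpG : IsPGroup 3 ↥L := Cfsg.Agent.Lib.Helper65.ASSN.isPGroup_L L 3 hr hexp
    have hexpo : Monoid.exponent ↥L = 3 * Nat.gcd 2 3 := by
      have hdvd : Monoid.exponent ↥L ∣ 3 * Nat.gcd 2 3 := by
        apply Monoid.exponent_dvd_of_forall_pow_eq_one
        intro x
        apply Subtype.ext
        exact hexp x.1 x.2
      have hne1 : Monoid.exponent ↥L ≠ 1 := by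
        intro h1
        rw [Monoid.exp_eq_one_iff] at h1
        obtain ⟨x, hx', y, hy, hne⟩ := Cfsg.Agent.Lib.Helper65.ASF.not_abelian h
        apply hne
        have h2 : (⟨x, hx'⟩ : ↥L) = ⟨y, hy⟩ := Subsingleton.elim _ _
        have h3 : x = y := congrArg Subtype.val h2
        rw [h3]
      rw [hg, mul_one] at hdvd ⊢
      rcases (Nat.dvd_prime hr).1 hdvd with h1 | h1
      · exact absurd h1 hne1
      · exact h1
    have hsymp : IsSymplecticTypeGroup 3 L :=
      { prime := hr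
        pGroup := hpG
        cyclic_of_characteristic := fun A hA hAc =>
          Cfsg.Agent.Lib.Helper65.ASSN.cyclic_of_char H L h A hA hAc
        exponent_eq := hexpo }
    have hrp : 3 ≠ p := by
      intro hrp
      have := hmin.2.1
      have h3p : ((p : ℕ) : F) = 0 := CharP.cast_eq_zero F p
      rw [← hrp] at h3p
      exact hr0 h3p
    refine ⟨p, e, hsymp, hrp, hmin, ?_, ?_⟩
    · rw [hcard, hz]
      norm_num
    · rw [Cfsg.Agent.Lib.Helper65.ASSN.card_center H L h, hz]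

end Cfsg.Agent.Lib.Helper44.U9
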