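import Mathlib

set_option autoImplicit false

/-!
# Static coset-enumeration certificates: primitives

Kernel-friendly loops and the bit layout of the certificate tables.
-/

namespace Cfsg.Agent.Lib.Helper9.FC

/-- A bounded universal quantifier, as a loop. -/
def allB (n : ℕ) (f : ℕ → Bool) : Bool := Nat.rec true (fun k ih => Bool.rec false ih (f k)) n

/-- Conjunction of Booleans. -/
def band (a b : Bool) : Bool := Bool.rec false b a

/-- Disjunction of Booleans. -/
def bor (a b : Bool) : Bool := Bool.rec b true a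

/-- Evaluation of the argument before the call. -/
def forceN {α : Type} (x : ℕ) (f : ℕ → α) : α := Nat.rec (f 0) (fun m _ => f (Nat.succ m)) x

theorem allB_succ (n : ℕ) (f : ℕ → Bool) :
    allB (n + 1) f = Bool.rec false (allB n f) (f n) := rfl

theorem allB_iff (n : ℕ) (f : ℕ → Bool) : allB n f = true ↔ ∀ k < n, f k = true := by
  induction n with
  | zero => exact ⟨fun _ k hk => absurd hk (Nat.not_lt_zero k), fun _ => rfl⟩
  | succ n ih =>
    rw [allB_succ]
    constructor
    · intro h k hk
      cases hf : f n with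
      | false =>
        rw [hf] at h
        exact absurd h Bool.false_ne_true
      | true =>
        rw [hf] at h
        rcases Nat.lt_succ_iff_lt_or_eq.mp hk with h1 | rfl
        · exact ih.mp h k h1
        · exact hf
    · intro h
      rw [h n (Nat.lt_succ_self n)]
      exact ih.mpr (fun k hk => h k (Nat.lt_succ_of_lt hk))

theorem band_iff (a b : Bool) : band a b = true ↔ a = true ∧ b = true := by
  cases a <;> cases b <;> decide

theorem bor_iff (a b : Bool) : bor a b = true ↔ a = true ∨ b = true := by
  cases a <;> cases b <;> decide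

theorem forceN_eq {α : Type} (x : ℕ) (f : ℕ → α) : forceN x f = f x := by
  cases x <;> rfl

/-- A two-level loop over `i < a * b`. -/
def allB2 (a b : ℕ) (f : ℕ → Bool) : Bool :=
  allB a (fun i => allB b (fun j => f (Nat.add (Nat.mul i b) j)))

theorem allB2_iff (a b : ℕ) (f : ℕ → Bool) : allB2 a b f = true ↔ ∀ i < a * b, f i = true := by
  unfold allB2
  rw [allB_iff]
  constructor
  · intro h i hi
    have hb : 0 < b := by
      rcases Nat.eq_zero_or_pos b with h0 | h0
      · rw [h0, Nat.mul_zero] at hi
        exact absurd hi (Nat.not_lt_zero i)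
      · exact h0
    have h1 := (allB_iff b _).mp (h (i / b) ((Nat.div_lt_iff_lt_mul hb).mpr hi)) (i % b)
      (Nat.mod_lt i hb)
    have h2 : Nat.add (Nat.mul (i / b) b) (i % b) = i := by
      show i / b * b + i % b = i
      rw [Nat.mul_comm]
      exact Nat.div_add_mod i b
    rw [h2] at h1
    exact h1
  · intro h i hi
    rw [allB_iff]
    intro j hj
    apply h
    show i * b + j < a * b
    calc i * b + j < i * b + b := Nat.add_lt_add_left hj _
      _ = (i + 1) * b := by ring
      _ ≤ a * b := Nat.mul_le_mul_right b hi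

/-- Entry `n` of a list, with a default. -/
def lgetD (l : List ℕ) (n d : ℕ) : ℕ :=
  List.rec (motive := fun _ => ℕ → ℕ) (fun _ => d)
    (fun a _ ih n => Nat.rec a (fun m _ => ih m) n) l n

theorem lgetD_eq (l : List ℕ) (n d : ℕ) : lgetD l n d = l.getD n d := by
  induction l generalizing n with
  | nil => rfl
  | cons a l ih =>
    cases n with
    | zero => rfl
    | succ m =>
      show lgetD l m d = (a :: l).getD (m + 1) d
      rw [ih]
      simp

/-- Entry `n` of a list of lists. -/
def lgetL (l : List (List ℕ)) (n : ℕ) : List ℕ :=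
  List.rec (motive := fun _ => ℕ → List ℕ) (fun _ => [])
    (fun a _ ih n => Nat.rec a (fun m _ => ih m) n) l n

/-- Entry `n` of a list of lists of lists. -/
def lgetLL (l : List (List (List ℕ))) (n : ℕ) : List (List ℕ) :=
  List.rec (motive := fun _ => ℕ → List (List ℕ)) (fun _ => [])
    (fun a _ ih n => Nat.rec a (fun m _ => ih m) n) l n

theorem lgetL_eq (l : List (List ℕ)) (n : ℕ) : lgetL l n = l.getD n [] := by
  induction l generalizing n with
  | nil => rfl
  | cons a l ih =>
    cases n with
    | zero => rfl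
    | succ m =>
      show lgetL l m = (a :: l).getD (m + 1) []
      rw [ih]
      simp

/-! ### The bit layout -/

/-- The target of an entry: the low 19 bits. -/
def tgtE (e : ℕ) : ℕ := Nat.land e 524287

/-- The low 42 bits of an entry. -/
def lowE (e : ℕ) : ℕ := Nat.land e 4398046511103

/-- The rank of a slot entry: bits 19 to 41. -/
def rnkE (e : ℕ) : ℕ := Nat.land (Nat.shiftRight e 19) 8388607

/-- The rank of a link entry. -/
def lrk (l : ℕ) : ℕ := Nat.shiftRight l 19

/-- The comparison bound of a rank. -/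
def RR (r : ℕ) : ℕ := Nat.sub (Nat.mul r 524288) 1

theorem tgtE_eq (e : ℕ) : tgtE e = e % 524288 :=
  Nat.and_two_pow_sub_one_eq_mod e 19

theorem lowE_eq (e : ℕ) : lowE e = e % 4398046511104 :=
  Nat.and_two_pow_sub_one_eq_mod e 42

theorem lrk_eq (l : ℕ) : lrk l = l / 524288 :=
  Nat.shiftRight_eq_div_pow l 19

theorem rnkE_eq (e : ℕ) : rnkE e = e / 524288 % 8388608 := by
  have h1 : rnkE e = Nat.shiftRight e 19 % 8388608 :=
    Nat.and_two_pow_sub_one_eq_mod (Nat.shiftRight e 19) 23
  rw [h1]
  have h2 : Nat.shiftRight e 19 = e / 524288 := Nat.shiftRight_eq_div_pow e 19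
  rw [h2]

theorem RR_eq (r : ℕ) : RR r = r * 524288 - 1 := rfl

theorem rnk_of_le (e r : ℕ) (hr : 1 ≤ r) (h : e ≤ RR r) : rnkE e < r := by
  rw [rnkE_eq]
  rw [RR_eq] at h
  omega

theorem rnk_of_low (e r : ℕ) (hr : 1 ≤ r) (h : lowE e ≤ RR r) : rnkE e < r := by
  rw [rnkE_eq]
  rw [RR_eq, lowE_eq] at h
  omega

theorem lrk_of_le (l r : ℕ) (hr : 1 ≤ r) (h : l ≤ RR r) : lrk l < r := by
  rw [lrk_eq]
  rw [RR_eq] at h
  omega

end Cfsg.Agent.Lib.Helper9.FC
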