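import Mathlib
import Cfsg.Agent.Lib.Helper9.FCBase

set_option autoImplicit false

/-!
# Static coset-enumeration certificates: the upper bound

A recorded Todd–Coxeter run is kept as static tables: every table slot and every
coincidence carries a rank and a justification that refers to facts of smaller rank only.
Checking all of them shows that the cosets of the final nodes cover the group.
-/

namespace Cfsg.Agent.Lib.Helper9.FC

section Crel

variable {G : Type*} [Group G] (H : Subgroup G)

/-- The relation "same right coset". -/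
def crel (a b : G) : Prop := a * b⁻¹ ∈ H

theorem crel_refl (a : G) : crel H a a := by
  unfold crel
  rw [mul_inv_cancel]
  exact H.one_mem

theorem crel_symm {a b : G} (h : crel H a b) : crel H b a := by
  unfold crel at h ⊢
  have := H.inv_mem h
  rwa [mul_inv_rev, inv_inv] at this

theorem crel_trans {a b c : G} (h1 : crel H a b) (h2 : crel H b c) : crel H a c := by
  unfold crel at h1 h2 ⊢
  have := H.mul_mem h1 h2
  rwa [mul_assoc, inv_mul_cancel_left] at this

theorem crel_mul_right {a b : G} (g : G) (h : crel H a b) : crel H (a * g) (b * g) := by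
  unfold crel at h ⊢
  rwa [mul_inv_rev, mul_assoc, mul_inv_cancel_left]

end Crel

section Upper

variable {G : Type*} [Group G] (H : Subgroup G) (val : ℕ → G)
variable (hot cold : ℕ → ℕ → ℕ) (lnk lj tr : ℕ → ℕ) (inv : ℕ → ℕ) (relW : ℕ → List ℕ)
  (subB : ℕ → Bool) (M k : ℕ)

/-- The word of a node, along the tree. -/
noncomputable def Wd (val : ℕ → G) (tr : ℕ → ℕ) (t : ℕ) : G :=
  if h : tr t / 16 < t then Wd val tr (tr t / 16) * val (tr t % 16) else 1
termination_by t
decreasing_by exact h

theorem Wd_zero : Wd val tr 0 = 1 := by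
  rw [Wd]
  exact dif_neg (Nat.not_lt_zero _)

theorem Wd_step (t : ℕ) (h : tr t / 16 < t) :
    Wd val tr t = Wd val tr (tr t / 16) * val (tr t % 16) := by
  rw [Wd]
  exact dif_pos h

/-- One coincidence step, for the rank bound `R`. -/
def canon1 (R t : ℕ) : ℕ := (fun l => Bool.rec t (Nat.land l 524287) (Nat.ble l R)) (lnk t)

/-- Three coincidence steps. -/
def canon (R t : ℕ) : ℕ := canon1 lnk R (canon1 lnk R (canon1 lnk R t))

/-- One step of a walk: the node `M` stands for failure. -/
def stepR (R cur y : ℕ) : ℕ :=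
  (fun e => Bool.rec
    (Bool.rec M (canon lnk R (Nat.land e 524287)) (Nat.ble (Nat.land e 4398046511103) R))
    (Nat.land e 524287) (Nat.ble e R)) (hot cur y)

/-- The walk along the letters after the first `s`. -/
def walkDrop (R : ℕ) (w : List ℕ) (s cur : ℕ) : ℕ :=
  List.rec (motive := fun _ => ℕ → ℕ → ℕ) (fun _ c => c)
    (fun y _ ih s c => Nat.rec (forceN (stepR hot lnk M R c y) (ih 0)) (fun s' _ => ih s' c) s)
    w s cur

/-- The walk along the first `n` letters. -/
def walkTake (R : ℕ) (w : List ℕ) (n cur : ℕ) : ℕ :=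
  List.rec (motive := fun _ => ℕ → ℕ → ℕ) (fun _ c => c)
    (fun y _ ih n c => Nat.rec c (fun n' _ => forceN (stepR hot lnk M R c y) (ih n')) n)
    w n cur

/-! ### The checks of the slots -/

/-- The partner slot holds the converse fact, with a smaller rank. -/
def chkSym (R u y t : ℕ) : Bool :=
  forceN t (fun t' => (fun e' => band (Nat.beq (Nat.land e' 524287) u)
    (Nat.ble (Nat.land e' 4398046511103) R)) (hot t' (inv y)))

/-- A deduction from a relator. -/
def chkDed (R u y t d : ℕ) : Bool :=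
  forceN (Nat.shiftRight d 12) (fun ρ => (fun w p => (fun a =>
    band (Nat.ble (Nat.succ a) k) (band (Nat.beq y (inv a))
      (Nat.beq (walkTake hot lnk M R w p (walkDrop hot lnk M R w (Nat.succ p) u)) t)))
    (lgetD w p k)) (relW ρ) (Nat.land d 4095))

/-- A definition: the target is a child of the node in the tree. -/
def chkDef (u y t : ℕ) : Bool :=
  band (Nat.beq (tr t) (Nat.add (Nat.mul u 16) y)) (Nat.ble (Nat.succ u) t)

/-- A fact moved from a node that died. -/
def chkMove (R u y t d : ℕ) : Bool :=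
  forceN d (fun es => band (Nat.ble (Nat.succ es) M) ((fun e0 =>
    band (Nat.ble (Nat.land e0 4398046511103) R) (band (Nat.beq (canon lnk R es) u)
      (Nat.beq (canon lnk R (Nat.land e0 524287)) t))) (hot es y)))

/-- A generator of the subgroup fixes the first node. -/
def chkSub (u y t : ℕ) : Bool :=
  band (Nat.beq u 0) (band (Nat.beq t 0) (subB y))

/-- A choice among five values. -/
def sel5 (a b c d e : Bool) (n : ℕ) : Bool :=
  Nat.rec a (fun n _ => Nat.rec b (fun n _ => Nat.rec c (fun n _ => Nat.rec d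
    (fun n _ => Nat.rec e (fun _ _ => false) n) n) n) n) n

/-- The check of a slot. -/
def chkSlot (u y : ℕ) : Bool :=
  (fun e => Bool.rec
    ((fun t r c => (fun R => band (Nat.ble 1 r) (band (Nat.ble (Nat.succ t) M)
      (sel5 (chkSym hot inv R u y t) (chkDed hot lnk inv relW M k R u y t (Nat.shiftRight c 3))
        (chkDef tr u y t) (chkMove hot lnk M R u y t (Nat.shiftRight c 3)) (chkSub subB u y t)
        (Nat.land c 7)))) (Nat.sub (Nat.mul r 524288) 1))
      (Nat.land e 524287) (Nat.land (Nat.shiftRight e 19) 8388607) (cold u y))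
    true (Nat.beq e 8796093022207)) (hot u y)

/-! ### The checks of the coincidences -/

/-- A coincidence found by a closed scan of a relator. -/
def chkLScan (R b a d : ℕ) : Bool :=
  forceN (Nat.shiftRight d 12) (fun ρ => (fun w p =>
    Nat.beq (walkTake hot lnk M R w p (walkDrop hot lnk M R w p b)) a) (relW ρ) (Nat.land d 4095))

/-- A coincidence found while moving the facts of a node that died. -/
def chkLMove (R b a d : ℕ) : Bool :=
  forceN (Nat.shiftRight d 4) (fun e => (fun x => band (Nat.ble (Nat.succ e) M)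
    (band (Nat.ble (Nat.succ x) k) ((fun e0 => band (Nat.ble (Nat.land e0 4398046511103) R)
      (forceN (canon lnk R e) (fun e1 => (fun e1' =>
        band (Nat.ble (Nat.land e1' 4398046511103) R)
          ((fun c1 c2 => bor (band (Nat.beq c1 b) (Nat.beq c2 a))
            (band (Nat.beq c1 a) (Nat.beq c2 b)))
            (canon lnk R (Nat.land e0 524287)) (canon lnk R (Nat.land e1' 524287))))
        (hot e1 x)))) (hot e x)))) (Nat.land d 15))

/-- The check of the coincidence of a node. -/
def chkLink (b : ℕ) : Bool :=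
  forceN b (fun b => (fun l => Bool.rec
    ((fun a r j => (fun R => band (Nat.ble 1 r) (band (Nat.ble l 4398046511103)
      (band (Nat.ble (Nat.succ a) M)
        (Bool.rec (chkLScan hot lnk relW M R b a (Nat.shiftRight j 1))
          (chkLMove hot lnk M k R b a (Nat.shiftRight j 1)) (Nat.beq (Nat.land j 1) 1)))))
      (Nat.sub (Nat.mul r 524288) 1)) (Nat.land l 524287) (Nat.shiftRight l 19) (lj b))
    true (Nat.beq l 4398046511103)) (lnk b))

/-! ### The final nodes -/

/-- The slots of a final node lead to final nodes. -/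
def chkFinal (u : ℕ) : Bool :=
  forceN u (fun u => Bool.rec true (allB k (fun y => (fun e => Bool.rec
    (band (Nat.ble (Nat.land e 4398046511103) 4398045986815)
      (Nat.beq (lnk (canon lnk 4398045986815 (Nat.land e 524287))) 4398046511103))
    (Nat.beq (lnk (Nat.land e 524287)) 4398046511103)
    (Nat.ble e 4398045986815)) (hot u y)))
    (Nat.beq (lnk u) 4398046511103))

theorem walkDrop_eq (R : ℕ) (w : List ℕ) (s cur : ℕ) :
    walkDrop hot lnk M R w s cur = (w.drop s).foldl (stepR hot lnk M R) cur := by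
  induction w generalizing s cur with
  | nil => simp [walkDrop]
  | cons y ys ih =>
    cases s with
    | zero =>
      show forceN (stepR hot lnk M R cur y) (walkDrop hot lnk M R ys 0) = _
      rw [forceN_eq, ih]
      rfl
    | succ s' =>
      show walkDrop hot lnk M R ys s' cur = _
      rw [ih]
      rfl

theorem walkTake_eq (R : ℕ) (w : List ℕ) (n cur : ℕ) :
    walkTake hot lnk M R w n cur = (w.take n).foldl (stepR hot lnk M R) cur := by
  induction w generalizing n cur with
  | nil => simp [walkTake]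
  | cons y ys ih =>
    cases n with
    | zero => rfl
    | succ n' =>
      show forceN (stepR hot lnk M R cur y) (walkTake hot lnk M R ys n') = _
      rw [forceN_eq, ih]
      rfl

/-- All facts of rank below `r` hold. -/
def Valid (r : ℕ) : Prop :=
  (∀ u < M, ∀ y < k, rnkE (hot u y) < r →
    tgtE (hot u y) < M ∧ crel H (Wd val tr u * val y) (Wd val tr (tgtE (hot u y)))) ∧
  (∀ b < M, lrk (lnk b) < r →
    tgtE (lnk b) < M ∧ crel H (Wd val tr b) (Wd val tr (tgtE (lnk b))))

variable {H val hot cold lnk lj tr inv relW subB M k}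

theorem canon1_sound {r : ℕ} (hV : Valid H val hot lnk tr M k r) (hr : 1 ≤ r) {t : ℕ}
    (ht : t < M) :
    canon1 lnk (RR r) t < M ∧ crel H (Wd val tr t) (Wd val tr (canon1 lnk (RR r) t)) := by
  unfold canon1
  show (Bool.rec t (Nat.land (lnk t) 524287) (Nat.ble (lnk t) (RR r)) : ℕ) < M ∧
    crel H (Wd val tr t)
      (Wd val tr (Bool.rec t (Nat.land (lnk t) 524287) (Nat.ble (lnk t) (RR r)) : ℕ))
  cases h : Nat.ble (lnk t) (RR r) with
  | false => exact ⟨ht, crel_refl H _⟩
  | true => exact hV.2 t ht (lrk_of_le _ r hr (Nat.le_of_ble_eq_true h))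

theorem canon_sound {r : ℕ} (hV : Valid H val hot lnk tr M k r) (hr : 1 ≤ r) {t : ℕ}
    (ht : t < M) :
    canon lnk (RR r) t < M ∧ crel H (Wd val tr t) (Wd val tr (canon lnk (RR r) t)) := by
  unfold canon
  have h1 := canon1_sound hV hr ht
  have h2 := canon1_sound hV hr h1.1
  have h3 := canon1_sound hV hr h2.1
  exact ⟨h3.1, crel_trans H h1.2 (crel_trans H h2.2 h3.2)⟩

theorem stepR_sound {r : ℕ} (hV : Valid H val hot lnk tr M k r) (hr : 1 ≤ r) (hr2 : r ≤ 8388607)
    (hrowM : ∀ y < k, hot M y = 8796093022207) {cur y : ℕ} (hcur : cur ≤ M) (hy : y < k) :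
    stepR hot lnk M (RR r) cur y ≤ M ∧ (stepR hot lnk M (RR r) cur y < M →
      cur < M ∧ crel H (Wd val tr cur * val y) (Wd val tr (stepR hot lnk M (RR r) cur y))) := by
  unfold stepR
  show (Bool.rec (Bool.rec M (canon lnk (RR r) (Nat.land (hot cur y) 524287))
      (Nat.ble (Nat.land (hot cur y) 4398046511103) (RR r)))
      (Nat.land (hot cur y) 524287) (Nat.ble (hot cur y) (RR r)) : ℕ) ≤ M ∧
    ((Bool.rec (Bool.rec M (canon lnk (RR r) (Nat.land (hot cur y) 524287))
      (Nat.ble (Nat.land (hot cur y) 4398046511103) (RR r)))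
      (Nat.land (hot cur y) 524287) (Nat.ble (hot cur y) (RR r)) : ℕ) < M →
      cur < M ∧ crel H (Wd val tr cur * val y) (Wd val tr
        (Bool.rec (Bool.rec M (canon lnk (RR r) (Nat.land (hot cur y) 524287))
      (Nat.ble (Nat.land (hot cur y) 4398046511103) (RR r)))
      (Nat.land (hot cur y) 524287) (Nat.ble (hot cur y) (RR r)) : ℕ)))
  rcases Nat.lt_or_ge cur M with hlt | hge
  · cases h1 : Nat.ble (hot cur y) (RR r) with
    | true =>
      have h := hV.1 cur hlt y hy (rnk_of_le _ r hr (Nat.le_of_ble_eq_true h1))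
      exact ⟨Nat.le_of_lt h.1, fun _ => ⟨hlt, h.2⟩⟩
    | false =>
      cases h2 : Nat.ble (Nat.land (hot cur y) 4398046511103) (RR r) with
      | true =>
        have h := hV.1 cur hlt y hy (rnk_of_low _ r hr (Nat.le_of_ble_eq_true h2))
        have hc := canon_sound hV hr h.1
        exact ⟨Nat.le_of_lt hc.1, fun _ => ⟨hlt, crel_trans H h.2 hc.2⟩⟩
      | false => exact ⟨Nat.le_refl M, fun h => absurd h (Nat.lt_irrefl M)⟩
  · have hM : cur = M := Nat.le_antisymm hcur hge
    subst hM
    rw [hrowM y hy]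
    have e1 : Nat.ble 8796093022207 (RR r) = false := by
      rw [Bool.eq_false_iff]
      intro h
      have := Nat.le_of_ble_eq_true h
      rw [RR_eq] at this
      omega
    have e2 : Nat.ble (Nat.land 8796093022207 4398046511103) (RR r) = false := by
      rw [Bool.eq_false_iff]
      intro h
      have := Nat.le_of_ble_eq_true h
      rw [show Nat.land 8796093022207 4398046511103 = 4398046511103 from by decide, RR_eq] at this
      omega
    rw [e1, e2]
    exact ⟨Nat.le_refl _, fun h => absurd h (Nat.lt_irrefl _)⟩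

theorem foldl_sound {r : ℕ} (hV : Valid H val hot lnk tr M k r) (hr : 1 ≤ r) (hr2 : r ≤ 8388607)
    (hrowM : ∀ y < k, hot M y = 8796093022207) (w : List ℕ) (hw : ∀ y ∈ w, y < k) (cur : ℕ)
    (hcur : cur ≤ M) :
    w.foldl (stepR hot lnk M (RR r)) cur ≤ M ∧ (w.foldl (stepR hot lnk M (RR r)) cur < M →
      cur < M ∧ crel H (Wd val tr cur * (w.map val).prod)
        (Wd val tr (w.foldl (stepR hot lnk M (RR r)) cur))) := by
  induction w generalizing cur with
  | nil =>
    refine ⟨hcur, fun h => ⟨h, ?_⟩⟩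
    simp only [List.map_nil, List.prod_nil, mul_one, List.foldl_nil]
    exact crel_refl H _
  | cons y ys ih =>
    have hs := stepR_sound hV hr hr2 hrowM hcur (hw y (List.mem_cons_self))
    have h2 := ih (fun z hz => hw z (List.mem_cons_of_mem _ hz)) _ hs.1
    rw [List.foldl_cons]
    refine ⟨h2.1, fun h => ?_⟩
    have h3 := h2.2 h
    have h4 := hs.2 h3.1
    refine ⟨h4.1, ?_⟩
    rw [List.map_cons, List.prod_cons, ← mul_assoc]
    exact crel_trans H (crel_mul_right H _ h4.2) h3.2


theorem sel5_true {a b c d e : Bool} {n : ℕ} (h : sel5 a b c d e n = true) :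
    (n = 0 ∧ a = true) ∨ (n = 1 ∧ b = true) ∨ (n = 2 ∧ c = true) ∨ (n = 3 ∧ d = true) ∨
      (n = 4 ∧ e = true) := by
  rcases n with _ | _ | _ | _ | _ | n
  · exact Or.inl ⟨rfl, h⟩
  · exact Or.inr (Or.inl ⟨rfl, h⟩)
  · exact Or.inr (Or.inr (Or.inl ⟨rfl, h⟩))
  · exact Or.inr (Or.inr (Or.inr (Or.inl ⟨rfl, h⟩)))
  · exact Or.inr (Or.inr (Or.inr (Or.inr ⟨rfl, h⟩)))
  · exact absurd h Bool.false_ne_true

theorem getD_lt_length {w : List ℕ} {p k : ℕ} (h : w.getD p k < k) : p < w.length := by
  by_contra hc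
  rw [List.getD_eq_default _ _ (Nat.le_of_not_lt hc)] at h
  exact Nat.lt_irrefl _ h

theorem chkSym_sound {r : ℕ} (hV : Valid H val hot lnk tr M k r) (hr : 1 ≤ r)
    (hinv : ∀ y < k, inv y < k ∧ val (inv y) = (val y)⁻¹) {u y t : ℕ} (hy : y < k) (ht : t < M)
    (h : chkSym hot inv (RR r) u y t = true) :
    crel H (Wd val tr u * val y) (Wd val tr t) := by
  unfold chkSym at h
  rw [forceN_eq] at h
  have h' := (band_iff _ _).mp h
  have h1 : tgtE (hot t (inv y)) = u := Nat.eq_of_beq_eq_true h'.1
  have h2 : lowE (hot t (inv y)) ≤ RR r := Nat.le_of_ble_eq_true h'.2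
  have h3 := (hV.1 t ht (inv y) (hinv y hy).1 (rnk_of_low _ r hr h2)).2
  rw [h1, (hinv y hy).2] at h3
  have h4 := crel_mul_right H (val y) h3
  rw [inv_mul_cancel_right] at h4
  exact crel_symm H h4

theorem chkDed_sound {r : ℕ} (hV : Valid H val hot lnk tr M k r) (hr : 1 ≤ r) (hr2 : r ≤ 8388607)
    (hrowM : ∀ y < k, hot M y = 8796093022207)
    (hinv : ∀ y < k, inv y < k ∧ val (inv y) = (val y)⁻¹)
    (hrel : ∀ ρ, ((relW ρ).map val).prod = 1) (hrelk : ∀ ρ, ∀ y ∈ relW ρ, y < k)
    {u y t d : ℕ} (hu : u < M) (ht : t < M)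
    (h : chkDed hot lnk inv relW M k (RR r) u y t d = true) :
    crel H (Wd val tr u * val y) (Wd val tr t) := by
  unfold chkDed at h
  rw [forceN_eq] at h
  generalize Nat.shiftRight d 12 = ρ at h
  generalize Nat.land d 4095 = p at h
  have h' := (band_iff _ _).mp h
  have h'' := (band_iff _ _).mp h'.2
  rw [lgetD_eq] at h' h''
  have ha : (relW ρ).getD p k < k := Nat.le_of_ble_eq_true h'.1
  have hp : p < (relW ρ).length := getD_lt_length ha
  have hy : y = inv ((relW ρ).getD p k) := Nat.eq_of_beq_eq_true h''.1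
  have hw : walkTake hot lnk M (RR r) (relW ρ) p
      (walkDrop hot lnk M (RR r) (relW ρ) (Nat.succ p) u) = t := Nat.eq_of_beq_eq_true h''.2
  rw [walkTake_eq, walkDrop_eq] at hw
  set w := relW ρ with hwdef
  have hget : w.getD p k = w[p] := List.getD_eq_getElem _ _ hp
  have hsplit : w = w.take p ++ w[p] :: w.drop (p + 1) := by
    rw [← List.drop_eq_getElem_cons hp, List.take_append_drop]
  have hprod := hrel ρ
  rw [← hwdef, hsplit, List.map_append, List.prod_append, List.map_cons, List.prod_cons] at hprod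
  have hlw : ∀ z ∈ w, z < k := hrelk ρ
  have s1 := foldl_sound hV hr hr2 hrowM (w.drop (p + 1))
    (fun z hz => hlw z (List.mem_of_mem_drop hz)) u (Nat.le_of_lt hu)
  have s2 := foldl_sound hV hr hr2 hrowM (w.take p)
    (fun z hz => hlw z (List.mem_of_mem_take hz)) _ s1.1
  rw [hw] at s2
  have s3 := s2.2 ht
  have s4 := s1.2 s3.1
  have hval : val y = ((w.drop (p + 1)).map val).prod * ((w.take p).map val).prod := by
    rw [hy, hget, (hinv _ (hget ▸ ha)).2]
    have h1 : val w[p] * ((w.drop (p + 1)).map val).prod = (((w.take p).map val).prod)⁻¹ :=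
      eq_inv_of_mul_eq_one_right hprod
    have h2 : ((w.drop (p + 1)).map val).prod = (val w[p])⁻¹ * (((w.take p).map val).prod)⁻¹ := by
      rw [← h1, inv_mul_cancel_left]
    rw [h2, inv_mul_cancel_right]
  rw [hval, ← mul_assoc]
  exact crel_trans H (crel_mul_right H _ s4.2) s3.2

theorem chkDef_sound (hk : k ≤ 16) {u y t : ℕ} (hy : y < k)
    (h : chkDef tr u y t = true) :
    crel H (Wd val tr u * val y) (Wd val tr t) := by
  unfold chkDef at h
  have h' := (band_iff _ _).mp h
  have h1 : tr t = u * 16 + y := Nat.eq_of_beq_eq_true h'.1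
  have h2 : u + 1 ≤ t := Nat.le_of_ble_eq_true h'.2
  have e1 : tr t / 16 = u := by omega
  have e2 : tr t % 16 = y := by omega
  have h3 := Wd_step val tr t (by omega)
  rw [e1, e2] at h3
  rw [h3]
  exact crel_refl H _

theorem chkMove_sound {r : ℕ} (hV : Valid H val hot lnk tr M k r) (hr : 1 ≤ r)
    {u y t d : ℕ} (hy : y < k)
    (h : chkMove hot lnk M (RR r) u y t d = true) :
    crel H (Wd val tr u * val y) (Wd val tr t) := by
  unfold chkMove at h
  rw [forceN_eq] at h
  have h1 := (band_iff _ _).mp h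
  have h2 := (band_iff _ _).mp h1.2
  have h3 := (band_iff _ _).mp h2.2
  have hd : d < M := Nat.le_of_ble_eq_true h1.1
  have hlow : lowE (hot d y) ≤ RR r := Nat.le_of_ble_eq_true h2.1
  have hcu : canon lnk (RR r) d = u := Nat.eq_of_beq_eq_true h3.1
  have hct : canon lnk (RR r) (tgtE (hot d y)) = t := Nat.eq_of_beq_eq_true h3.2
  have f1 := hV.1 d hd y hy (rnk_of_low _ r hr hlow)
  have c1 := canon_sound hV hr hd
  have c2 := canon_sound hV hr f1.1
  rw [hcu] at c1
  rw [hct] at c2
  exact crel_trans H (crel_mul_right H _ (crel_symm H c1.2)) (crel_trans H f1.2 c2.2)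

theorem chkSub_sound (hsub : ∀ y, subB y = true → val y ∈ H) {u y t : ℕ}
    (h : chkSub subB u y t = true) :
    crel H (Wd val tr u * val y) (Wd val tr t) := by
  unfold chkSub at h
  have h1 := (band_iff _ _).mp h
  have h2 := (band_iff _ _).mp h1.2
  have hu : u = 0 := Nat.eq_of_beq_eq_true h1.1
  have ht : t = 0 := Nat.eq_of_beq_eq_true h2.1
  subst hu
  subst ht
  unfold crel
  rw [Wd_zero, one_mul, inv_one, mul_one]
  exact hsub y h2.2

theorem chkSlot_sound {r : ℕ} (hV : Valid H val hot lnk tr M k r) (hr2 : r < 8388607)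
    (hk : k ≤ 16) (hrowM : ∀ y < k, hot M y = 8796093022207)
    (hinv : ∀ y < k, inv y < k ∧ val (inv y) = (val y)⁻¹)
    (hrel : ∀ ρ, ((relW ρ).map val).prod = 1) (hrelk : ∀ ρ, ∀ y ∈ relW ρ, y < k)
    (hsub : ∀ y, subB y = true → val y ∈ H)
    {u y : ℕ} (hu : u < M) (hy : y < k) (hrk : rnkE (hot u y) = r)
    (h : chkSlot hot cold lnk tr inv relW subB M k u y = true) :
    tgtE (hot u y) < M ∧ crel H (Wd val tr u * val y) (Wd val tr (tgtE (hot u y))) := by
  unfold chkSlot at h
  have hne : Nat.beq (hot u y) 8796093022207 = false := by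
    rw [Bool.eq_false_iff]
    intro hc
    have he : hot u y = 8796093022207 := Nat.eq_of_beq_eq_true hc
    rw [he] at hrk
    have : rnkE 8796093022207 = 8388607 := by decide
    omega
  have h0 : band (Nat.ble 1 (rnkE (hot u y))) (band (Nat.ble (Nat.succ (tgtE (hot u y))) M)
      (sel5 (chkSym hot inv (RR (rnkE (hot u y))) u y (tgtE (hot u y)))
        (chkDed hot lnk inv relW M k (RR (rnkE (hot u y))) u y (tgtE (hot u y))
          (Nat.shiftRight (cold u y) 3))
        (chkDef tr u y (tgtE (hot u y)))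
        (chkMove hot lnk M (RR (rnkE (hot u y))) u y (tgtE (hot u y))
          (Nat.shiftRight (cold u y) 3))
        (chkSub subB u y (tgtE (hot u y))) (Nat.land (cold u y) 7))) = true := by
    have h' : (Bool.rec (band (Nat.ble 1 (rnkE (hot u y)))
      (band (Nat.ble (Nat.succ (tgtE (hot u y))) M)
      (sel5 (chkSym hot inv (RR (rnkE (hot u y))) u y (tgtE (hot u y)))
        (chkDed hot lnk inv relW M k (RR (rnkE (hot u y))) u y (tgtE (hot u y))
          (Nat.shiftRight (cold u y) 3))
        (chkDef tr u y (tgtE (hot u y)))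
        (chkMove hot lnk M (RR (rnkE (hot u y))) u y (tgtE (hot u y))
          (Nat.shiftRight (cold u y) 3))
        (chkSub subB u y (tgtE (hot u y))) (Nat.land (cold u y) 7)))) true
        (Nat.beq (hot u y) 8796093022207) : Bool) = true := h
    rw [hne] at h'
    exact h'
  rw [hrk] at h0
  have h1 := (band_iff _ _).mp h0
  have h2 := (band_iff _ _).mp h1.2
  have hr : 1 ≤ r := Nat.le_of_ble_eq_true h1.1
  have ht : tgtE (hot u y) < M := Nat.le_of_ble_eq_true h2.1
  refine ⟨ht, ?_⟩
  rcases sel5_true h2.2 with ⟨-, hc⟩ | ⟨-, hc⟩ | ⟨-, hc⟩ | ⟨-, hc⟩ | ⟨-, hc⟩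
  · exact chkSym_sound hV hr hinv hy ht hc
  · exact chkDed_sound hV hr (Nat.le_of_lt hr2) hrowM hinv hrel hrelk hu ht hc
  · exact chkDef_sound hk hy hc
  · exact chkMove_sound hV hr hy hc
  · exact chkSub_sound hsub hc


theorem chkLScan_sound {r : ℕ} (hV : Valid H val hot lnk tr M k r) (hr : 1 ≤ r)
    (hr2 : r ≤ 8388607) (hrowM : ∀ y < k, hot M y = 8796093022207)
    (hrel : ∀ ρ, ((relW ρ).map val).prod = 1) (hrelk : ∀ ρ, ∀ y ∈ relW ρ, y < k)
    {b a d : ℕ} (hb : b < M) (ha : a < M)
    (h : chkLScan hot lnk relW M (RR r) b a d = true) :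
    crel H (Wd val tr b) (Wd val tr a) := by
  unfold chkLScan at h
  rw [forceN_eq] at h
  generalize Nat.shiftRight d 12 = ρ at h
  generalize Nat.land d 4095 = p at h
  have hw : walkTake hot lnk M (RR r) (relW ρ) p
      (walkDrop hot lnk M (RR r) (relW ρ) p b) = a := Nat.eq_of_beq_eq_true h
  rw [walkTake_eq, walkDrop_eq] at hw
  set w := relW ρ with hwdef
  have hprod := hrel ρ
  rw [← hwdef, ← List.take_append_drop p w, List.map_append, List.prod_append] at hprod
  have hlw : ∀ z ∈ w, z < k := hrelk ρ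
  have s1 := foldl_sound hV hr hr2 hrowM (w.drop p)
    (fun z hz => hlw z (List.mem_of_mem_drop hz)) b (Nat.le_of_lt hb)
  have s2 := foldl_sound hV hr hr2 hrowM (w.take p)
    (fun z hz => hlw z (List.mem_of_mem_take hz)) _ s1.1
  rw [hw] at s2
  have s3 := s2.2 ha
  have s4 := s1.2 s3.1
  have hone : ((w.drop p).map val).prod * ((w.take p).map val).prod = 1 := by
    have h1 : ((w.drop p).map val).prod = (((w.take p).map val).prod)⁻¹ :=
      eq_inv_of_mul_eq_one_right hprod
    rw [h1, inv_mul_cancel]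
  have s5 := crel_trans H (crel_mul_right H _ s4.2) s3.2
  rwa [mul_assoc, hone, mul_one] at s5

theorem chkLMove_sound {r : ℕ} (hV : Valid H val hot lnk tr M k r) (hr : 1 ≤ r)
    {b a d : ℕ}
    (h : chkLMove hot lnk M k (RR r) b a d = true) :
    crel H (Wd val tr b) (Wd val tr a) := by
  unfold chkLMove at h
  rw [forceN_eq] at h
  generalize Nat.shiftRight d 4 = e at h
  generalize Nat.land d 15 = x at h
  have h1 := (band_iff _ _).mp h
  have h2 := (band_iff _ _).mp h1.2
  have h3 := (band_iff _ _).mp h2.2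
  rw [forceN_eq] at h3
  have h4 := (band_iff _ _).mp h3.2
  have he : e < M := Nat.le_of_ble_eq_true h1.1
  have hx : x < k := Nat.le_of_ble_eq_true h2.1
  have hlow0 : lowE (hot e x) ≤ RR r := Nat.le_of_ble_eq_true h3.1
  have hlow1 : lowE (hot (canon lnk (RR r) e) x) ≤ RR r := Nat.le_of_ble_eq_true h4.1
  have f0 := hV.1 e he x hx (rnk_of_low _ r hr hlow0)
  have ce := canon_sound hV hr he
  have f1 := hV.1 _ ce.1 x hx (rnk_of_low _ r hr hlow1)
  have c0 := canon_sound hV hr f0.1
  have c1 := canon_sound hV hr f1.1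
  have key : crel H (Wd val tr (canon lnk (RR r) (tgtE (hot e x))))
      (Wd val tr (canon lnk (RR r) (tgtE (hot (canon lnk (RR r) e) x)))) :=
    crel_trans H (crel_symm H c0.2) (crel_trans H (crel_symm H f0.2)
      (crel_trans H (crel_mul_right H _ ce.2) (crel_trans H f1.2 c1.2)))
  rcases (bor_iff _ _).mp h4.2 with hc | hc
  · have hc' := (band_iff _ _).mp hc
    have e1 : canon lnk (RR r) (tgtE (hot e x)) = b := Nat.eq_of_beq_eq_true hc'.1
    have e2 : canon lnk (RR r) (tgtE (hot (canon lnk (RR r) e) x)) = a :=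
      Nat.eq_of_beq_eq_true hc'.2
    rw [e1, e2] at key
    exact key
  · have hc' := (band_iff _ _).mp hc
    have e1 : canon lnk (RR r) (tgtE (hot e x)) = a := Nat.eq_of_beq_eq_true hc'.1
    have e2 : canon lnk (RR r) (tgtE (hot (canon lnk (RR r) e) x)) = b :=
      Nat.eq_of_beq_eq_true hc'.2
    rw [e1, e2] at key
    exact crel_symm H key

theorem chkLink_sound {r : ℕ} (hV : Valid H val hot lnk tr M k r) (hr2 : r < 8388607)
    (hrowM : ∀ y < k, hot M y = 8796093022207)
    (hrel : ∀ ρ, ((relW ρ).map val).prod = 1) (hrelk : ∀ ρ, ∀ y ∈ relW ρ, y < k)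
    {b : ℕ} (hb : b < M) (hrk : lrk (lnk b) = r)
    (h : chkLink hot lnk lj relW M k b = true) :
    tgtE (lnk b) < M ∧ crel H (Wd val tr b) (Wd val tr (tgtE (lnk b))) := by
  unfold chkLink at h
  rw [forceN_eq] at h
  have hne : Nat.beq (lnk b) 4398046511103 = false := by
    rw [Bool.eq_false_iff]
    intro hc
    have he : lnk b = 4398046511103 := Nat.eq_of_beq_eq_true hc
    rw [he] at hrk
    have : lrk 4398046511103 = 8388607 := by decide
    omega
  have h0 : band (Nat.ble 1 (lrk (lnk b))) (band (Nat.ble (lnk b) 4398046511103)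
      (band (Nat.ble (Nat.succ (tgtE (lnk b))) M)
        (Bool.rec (chkLScan hot lnk relW M (RR (lrk (lnk b))) b (tgtE (lnk b))
            (Nat.shiftRight (lj b) 1))
          (chkLMove hot lnk M k (RR (lrk (lnk b))) b (tgtE (lnk b)) (Nat.shiftRight (lj b) 1))
          (Nat.beq (Nat.land (lj b) 1) 1)))) = true := by
    have h' : (Bool.rec (band (Nat.ble 1 (lrk (lnk b))) (band (Nat.ble (lnk b) 4398046511103)
      (band (Nat.ble (Nat.succ (tgtE (lnk b))) M)
        (Bool.rec (chkLScan hot lnk relW M (RR (lrk (lnk b))) b (tgtE (lnk b))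
            (Nat.shiftRight (lj b) 1))
          (chkLMove hot lnk M k (RR (lrk (lnk b))) b (tgtE (lnk b)) (Nat.shiftRight (lj b) 1))
          (Nat.beq (Nat.land (lj b) 1) 1))))) true (Nat.beq (lnk b) 4398046511103) : Bool) = true :=
      h
    rw [hne] at h'
    exact h'
  rw [hrk] at h0
  have h1 := (band_iff _ _).mp h0
  have h2 := (band_iff _ _).mp h1.2
  have h3 := (band_iff _ _).mp h2.2
  have hr : 1 ≤ r := Nat.le_of_ble_eq_true h1.1
  have ha : tgtE (lnk b) < M := Nat.le_of_ble_eq_true h3.1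
  refine ⟨ha, ?_⟩
  cases hk : Nat.beq (Nat.land (lj b) 1) 1 with
  | false =>
    rw [hk] at h3
    exact chkLScan_sound hV hr (Nat.le_of_lt hr2) hrowM hrel hrelk hb ha h3.2
  | true =>
    rw [hk] at h3
    exact chkLMove_sound hV hr h3.2

/-- All the facts hold. -/
theorem valid_all
    (hk : k ≤ 16) (hrowM : ∀ y < k, hot M y = 8796093022207)
    (hinv : ∀ y < k, inv y < k ∧ val (inv y) = (val y)⁻¹)
    (hrel : ∀ ρ, ((relW ρ).map val).prod = 1) (hrelk : ∀ ρ, ∀ y ∈ relW ρ, y < k)
    (hsub : ∀ y, subB y = true → val y ∈ H)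
    (hslots : ∀ u < M, ∀ y < k, chkSlot hot cold lnk tr inv relW subB M k u y = true)
    (hlinks : ∀ b < M, chkLink hot lnk lj relW M k b = true) :
    ∀ r ≤ 8388607, Valid H val hot lnk tr M k r := by
  intro r
  induction r with
  | zero =>
    intro _
    exact ⟨fun u _ y _ h => absurd h (Nat.not_lt_zero _), fun b _ h => absurd h (Nat.not_lt_zero _)⟩
  | succ r ih =>
    intro hr
    have hV := ih (by omega)
    refine ⟨fun u hu y hy h => ?_, fun b hb h => ?_⟩
    · rcases Nat.lt_succ_iff_lt_or_eq.mp h with h1 | h1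
      · exact hV.1 u hu y hy h1
      · exact chkSlot_sound hV (by omega) hk hrowM hinv hrel hrelk hsub hu hy h1 (hslots u hu y hy)
    · rcases Nat.lt_succ_iff_lt_or_eq.mp h with h1 | h1
      · exact hV.2 b hb h1
      · exact chkLink_sound hV (by omega) hrowM hrel hrelk hb h1 (hlinks b hb)


theorem final_step (hV : Valid H val hot lnk tr M k 8388607)
    (hfinal : ∀ u < M, chkFinal hot lnk k u = true)
    {u : ℕ} (hu : u < M) (hlu : lnk u = 4398046511103) {y : ℕ} (hy : y < k) :
    ∃ c < M, lnk c = 4398046511103 ∧ crel H (Wd val tr u * val y) (Wd val tr c) := by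
  have h := hfinal u hu
  unfold chkFinal at h
  rw [forceN_eq] at h
  have hb : Nat.beq (lnk u) 4398046511103 = true := by
    rw [hlu]
    decide
  have h' : (Bool.rec true (allB k (fun y => (fun e => Bool.rec
    (band (Nat.ble (Nat.land e 4398046511103) 4398045986815)
      (Nat.beq (lnk (canon lnk 4398045986815 (Nat.land e 524287))) 4398046511103))
    (Nat.beq (lnk (Nat.land e 524287)) 4398046511103)
    (Nat.ble e 4398045986815)) (hot u y)))
    (Nat.beq (lnk u) 4398046511103) : Bool) = true := h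
  rw [hb] at h'
  have h1 : (Bool.rec
    (band (Nat.ble (Nat.land (hot u y) 4398046511103) 4398045986815)
      (Nat.beq (lnk (canon lnk 4398045986815 (Nat.land (hot u y) 524287))) 4398046511103))
    (Nat.beq (lnk (Nat.land (hot u y) 524287)) 4398046511103)
    (Nat.ble (hot u y) 4398045986815) : Bool) = true := (allB_iff _ _).mp h' y hy
  have hRR : RR 8388607 = 4398045986815 := by decide
  cases hb2 : Nat.ble (hot u y) 4398045986815 with
  | true =>
    rw [hb2] at h1
    have hle : hot u y ≤ RR 8388607 := by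
      rw [hRR]
      exact Nat.le_of_ble_eq_true hb2
    have f := hV.1 u hu y hy (rnk_of_le _ _ (by decide) hle)
    exact ⟨_, f.1, Nat.eq_of_beq_eq_true h1, f.2⟩
  | false =>
    rw [hb2] at h1
    have h2 := (band_iff _ _).mp h1
    have hlow : lowE (hot u y) ≤ RR 8388607 := by
      rw [hRR]
      exact Nat.le_of_ble_eq_true h2.1
    have f := hV.1 u hu y hy (rnk_of_low _ _ (by decide) hlow)
    have c := canon_sound hV (by decide) f.1
    rw [hRR] at c
    exact ⟨_, c.1, Nat.eq_of_beq_eq_true h2.2, crel_trans H f.2 c.2⟩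

/-- The cosets of the final nodes cover the group. -/
theorem cover
    (hk : k ≤ 16) (hrowM : ∀ y < k, hot M y = 8796093022207)
    (hinv : ∀ y < k, inv y < k ∧ val (inv y) = (val y)⁻¹)
    (hrel : ∀ ρ, ((relW ρ).map val).prod = 1) (hrelk : ∀ ρ, ∀ y ∈ relW ρ, y < k)
    (hsub : ∀ y, subB y = true → val y ∈ H)
    (hslots : ∀ u < M, ∀ y < k, chkSlot hot cold lnk tr inv relW subB M k u y = true)
    (hlinks : ∀ b < M, chkLink hot lnk lj relW M k b = true)
    (hfinal : ∀ u < M, chkFinal hot lnk k u = true)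
    (hM : 0 < M) (hroot : lnk 0 = 4398046511103)
    (hgen : ∀ g : G, g ∈ Submonoid.closure (val '' {y | y < k})) (g : G) :
    ∃ c < M, lnk c = 4398046511103 ∧ crel H g (Wd val tr c) := by
  have hV := valid_all (cold := cold) (lj := lj) hk hrowM hinv hrel hrelk hsub hslots hlinks
    8388607 (Nat.le_refl _)
  have key : ∀ g : G, ∀ u < M, lnk u = 4398046511103 →
      ∃ c < M, lnk c = 4398046511103 ∧ crel H (Wd val tr u * g) (Wd val tr c) := by
    intro g
    refine Submonoid.closure_induction (motive := fun g _ => ∀ u < M, lnk u = 4398046511103 →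
      ∃ c < M, lnk c = 4398046511103 ∧ crel H (Wd val tr u * g) (Wd val tr c)) ?_ ?_ ?_ (hgen g)
    · rintro x ⟨y, hy, rfl⟩ u hu hlu
      exact final_step hV hfinal hu hlu hy
    · intro u hu hlu
      refine ⟨u, hu, hlu, ?_⟩
      rw [mul_one]
      exact crel_refl H _
    · intro a b _ _ iha ihb u hu hlu
      obtain ⟨c1, hc1, hl1, hr1⟩ := iha u hu hlu
      obtain ⟨c2, hc2, hl2, hr2⟩ := ihb c1 hc1 hl1
      refine ⟨c2, hc2, hl2, ?_⟩
      rw [← mul_assoc]
      exact crel_trans H (crel_mul_right H _ hr1) hr2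
  obtain ⟨c, hc, hl, hr⟩ := key g 0 hM hroot
  rw [Wd_zero, one_mul] at hr
  exact ⟨c, hc, hl, hr⟩

end Upper

end Cfsg.Agent.Lib.Helper9.FC
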