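import Mathlib
import Cfsg.Agent.Lib.Helper9.FCUpper

set_option autoImplicit false

/-!
# Static coset-enumeration certificates: counting and the lower bound

The number of final nodes bounds the index from above; a transitive action on the points of
the final table, in which the subgroup fixes a point, bounds it from below.
-/

namespace Cfsg.Agent.Lib.Helper9.FC

/-! ### Counting -/

/-- The number of `i < len` with `f (lo + i)`. -/
def cntR (f : ℕ → Bool) (lo len : ℕ) : ℕ :=
  Nat.rec 0 (fun i acc => Nat.add acc (Bool.rec 0 1 (f (Nat.add lo i)))) len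

/-- The number of `t < a * b` with `f (lo + t)`. -/
def cnt2 (f : ℕ → Bool) (lo a b : ℕ) : ℕ :=
  Nat.rec 0 (fun i acc => Nat.add acc (cntR f (Nat.add lo (Nat.mul i b)) b)) a

theorem cntR_eq (f : ℕ → Bool) (lo len : ℕ) :
    cntR f lo len = ∑ i ∈ Finset.range len, if f (lo + i) = true then 1 else 0 := by
  induction len with
  | zero => rfl
  | succ n ih =>
    rw [Finset.sum_range_succ, ← ih]
    show Nat.add (cntR f lo n) (Bool.rec 0 1 (f (Nat.add lo n))) = _
    cases h : f (Nat.add lo n) with
    | false => rfl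
    | true => rfl

theorem cnt2_eq (f : ℕ → Bool) (lo a b : ℕ) :
    cnt2 f lo a b = ∑ t ∈ Finset.range (a * b), if f (lo + t) = true then 1 else 0 := by
  induction a with
  | zero =>
    rw [Nat.zero_mul]
    rfl
  | succ a ih =>
    rw [Nat.succ_mul, Finset.sum_range_add, ← ih]
    show Nat.add (cnt2 f lo a b) (cntR f (Nat.add lo (Nat.mul a b)) b) = _
    rw [cntR_eq]
    show cnt2 f lo a b + _ = _
    congr 1
    refine Finset.sum_congr rfl (fun x _ => ?_)
    rw [show Nat.add lo (Nat.mul a b) + x = lo + (a * b + x) from Nat.add_assoc lo (a * b) x]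

theorem card_filter_le (f : ℕ → Bool) (M a b : ℕ) (hM : M ≤ a * b) :
    ((Finset.range M).filter (fun u => f u = true)).card ≤ cnt2 f 0 a b := by
  rw [cnt2_eq]
  simp only [Nat.zero_add]
  rw [← Finset.card_filter]
  exact Finset.card_le_card (Finset.filter_subset_filter _ (Finset.range_mono hM))

/-! ### The index bound from a cover -/

theorem index_le_of_cover {G : Type*} [Group G] (H : Subgroup G) (W : ℕ → G) (S : Finset ℕ)
    (hcov : ∀ g : G, ∃ c ∈ S, crel H g (W c)) : H.index ≠ 0 ∧ H.index ≤ S.card := by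
  let φ : S → G ⧸ H := fun c => ((W c.1)⁻¹ : G)
  have hsurj : Function.Surjective φ := by
    intro q
    obtain ⟨g, rfl⟩ := QuotientGroup.mk_surjective q
    obtain ⟨c, hc, hr⟩ := hcov g⁻¹
    refine ⟨⟨c, hc⟩, ?_⟩
    show (((W c)⁻¹ : G) : G ⧸ H) = (g : G ⧸ H)
    rw [QuotientGroup.eq, inv_inv]
    have := H.inv_mem hr
    unfold crel at hr
    rwa [mul_inv_rev, inv_inv, inv_inv] at this
  haveI : Finite (G ⧸ H) := Finite.of_surjective φ hsurj
  refine ⟨Subgroup.index_ne_zero_of_finite, ?_⟩
  have h1 := Nat.card_le_card_of_surjective φ hsurj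
  have h2 : Nat.card S = S.card := by simp
  rw [h2] at h1
  exact h1

/-! ### Words of permutations -/

theorem prod_flatten_replicate {P : Type*} [Monoid P] (σ : ℕ → P) (u : List ℕ) (m : ℕ) :
    (((List.replicate m u).flatten).map σ).prod = ((u.map σ).prod) ^ m := by
  induction m with
  | zero => simp
  | succ m ih =>
    rw [List.replicate_succ, List.flatten_cons, List.map_append, List.prod_append, ih, pow_succ']

theorem pow_swap_eq_one {P : Type*} [Group P] (a b : P) (m : ℕ) (h : (a * b) ^ m = 1) :
    (b * a) ^ m = 1 := by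
  have h1 : b * a = a⁻¹ * (a * b) * a⁻¹⁻¹ := by group
  rw [h1, conj_pow, h, mul_one, mul_inv_cancel]

/-! ### The lower bound -/

section Lower

variable (tf : ℕ → ℕ → ℕ) (tp : ℕ → ℕ) (inv : ℕ → ℕ) (n k : ℕ)

/-- The images of a point are points, and the inverse letters undo the letters. -/
def chkPerm (i : ℕ) : Bool :=
  forceN i (fun i => allB k (fun y => (fun j => band (Nat.ble (Nat.succ j) n)
    (forceN j (fun j' => Nat.beq (tf j' (inv y)) i))) (tf i y)))

/-- The walk along a word. -/
def walkT (w : List ℕ) (cur : ℕ) : ℕ :=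
  List.rec (motive := fun _ => ℕ → ℕ) (fun c => c) (fun y _ ih c => forceN (tf c y) ih) w cur

/-- A bounded universal quantifier over a list of words. -/
def allW (ws : List (List ℕ)) (f : List ℕ → Bool) : Bool :=
  List.rec true (fun w _ ih => Bool.rec false ih (f w)) ws

/-- The words are closed at a point. -/
def chkRels (ws : List (List ℕ)) (i : ℕ) : Bool :=
  forceN i (fun i => allW ws (fun w => Nat.beq (walkT tf w i) i))

/-- The parent of a point is a smaller point, and a letter leads from it to the point. -/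
def chkTree (i : ℕ) : Bool :=
  (fun q => (fun p y => band (Nat.ble (Nat.succ p) i) (band (Nat.ble (Nat.succ y) k)
    (forceN p (fun p' => Nat.beq (tf p' y) i)))) (Nat.shiftRight q 4) (Nat.land q 15)) (tp i)

variable {tf tp inv n k}

theorem walkT_eq (w : List ℕ) (cur : ℕ) : walkT tf w cur = w.foldl tf cur := by
  induction w generalizing cur with
  | nil => rfl
  | cons y ys ih =>
    show forceN (tf cur y) (walkT tf ys) = _
    rw [forceN_eq, ih]
    rfl

theorem allW_iff (ws : List (List ℕ)) (f : List ℕ → Bool) :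
    allW ws f = true ↔ ∀ w ∈ ws, f w = true := by
  induction ws with
  | nil => simp [allW]
  | cons w ws ih =>
    have h0 : allW (w :: ws) f = Bool.rec false (allW ws f) (f w) := rfl
    rw [h0]
    cases hf : f w with
    | false =>
      constructor
      · intro h
        exact absurd h Bool.false_ne_true
      · intro h
        have := h w List.mem_cons_self
        rw [hf] at this
        exact absurd this Bool.false_ne_true
    | true =>
      show allW ws f = true ↔ _
      rw [ih]
      constructor
      · intro h v hv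
        rcases List.mem_cons.mp hv with rfl | hv
        · exact hf
        · exact h v hv
      · intro h v hv
        exact h v (List.mem_cons_of_mem _ hv)

theorem chkPerm_spec {i : ℕ} (h : chkPerm tf inv n k i = true) {y : ℕ} (hy : y < k) :
    tf i y < n ∧ tf (tf i y) (inv y) = i := by
  unfold chkPerm at h
  rw [forceN_eq] at h
  have h1 := (band_iff _ _).mp ((allB_iff _ _).mp h y hy)
  rw [forceN_eq] at h1
  exact ⟨Nat.le_of_ble_eq_true h1.1, Nat.eq_of_beq_eq_true h1.2⟩

/-- The permutation of a letter: the point `i` goes to `tf i (inv y)`. -/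
def permOf (hperm : ∀ i < n, ∀ y < k, tf i y < n ∧ tf (tf i y) (inv y) = i)
    (hinv : ∀ y < k, inv y < k ∧ inv (inv y) = y) (y : ℕ) : Equiv.Perm (Fin n) :=
  if hy : y < k then
    { toFun := fun i => ⟨tf i.1 (inv y), (hperm i.1 i.2 (inv y) (hinv y hy).1).1⟩
      invFun := fun i => ⟨tf i.1 y, (hperm i.1 i.2 y hy).1⟩
      left_inv := fun i => by
        apply Fin.ext
        have h := (hperm i.1 i.2 (inv y) (hinv y hy).1).2
        rw [(hinv y hy).2] at h
        exact h
      right_inv := fun i => by
        apply Fin.ext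
        exact (hperm i.1 i.2 y hy).2 }
  else 1

theorem permOf_apply (hperm : ∀ i < n, ∀ y < k, tf i y < n ∧ tf (tf i y) (inv y) = i)
    (hinv : ∀ y < k, inv y < k ∧ inv (inv y) = y) {y : ℕ} (hy : y < k) (i : Fin n) :
    ((permOf hperm hinv y) i).1 = tf i.1 (inv y) := by
  unfold permOf
  rw [dif_pos hy]
  rfl

theorem permOf_inv_apply (hperm : ∀ i < n, ∀ y < k, tf i y < n ∧ tf (tf i y) (inv y) = i)
    (hinv : ∀ y < k, inv y < k ∧ inv (inv y) = y) {y : ℕ} (hy : y < k) (i : Fin n) :
    (((permOf hperm hinv y)⁻¹) i).1 = tf i.1 y := by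
  unfold permOf
  rw [dif_pos hy]
  rfl

theorem prod_inv_apply (hperm : ∀ i < n, ∀ y < k, tf i y < n ∧ tf (tf i y) (inv y) = i)
    (hinv : ∀ y < k, inv y < k ∧ inv (inv y) = y) (w : List ℕ) (hw : ∀ y ∈ w, y < k)
    (i : Fin n) :
    ((((w.map (permOf hperm hinv)).prod)⁻¹) i).1 = w.foldl tf i.1 := by
  induction w generalizing i with
  | nil => simp
  | cons y ys ih =>
    rw [List.map_cons, List.prod_cons, mul_inv_rev, Equiv.Perm.mul_apply,
      ih (fun z hz => hw z (List.mem_cons_of_mem _ hz)),
      permOf_inv_apply hperm hinv (hw y List.mem_cons_self), List.foldl_cons]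

theorem prod_eq_one (hperm : ∀ i < n, ∀ y < k, tf i y < n ∧ tf (tf i y) (inv y) = i)
    (hinv : ∀ y < k, inv y < k ∧ inv (inv y) = y) (w : List ℕ) (hw : ∀ y ∈ w, y < k)
    (h : ∀ i < n, w.foldl tf i = i) : (w.map (permOf hperm hinv)).prod = 1 := by
  rw [← inv_eq_one]
  ext i
  rw [prod_inv_apply hperm hinv w hw i, h i.1 i.2]
  rfl

/-- The words of the list give trivial products of permutations. -/
theorem prods_eq_one (hperm : ∀ i < n, ∀ y < k, tf i y < n ∧ tf (tf i y) (inv y) = i)
    (hinv : ∀ y < k, inv y < k ∧ inv (inv y) = y) (ws : List (List ℕ))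
    (hws : ∀ w ∈ ws, ∀ y ∈ w, y < k) (h : ∀ i < n, chkRels tf ws i = true) :
    ∀ w ∈ ws, (w.map (permOf hperm hinv)).prod = 1 := by
  intro w hw
  refine prod_eq_one hperm hinv w (hws w hw) (fun i hi => ?_)
  have h1 := h i hi
  unfold chkRels at h1
  rw [forceN_eq] at h1
  have h2 := Nat.eq_of_beq_eq_true ((allW_iff _ _).mp h1 w hw)
  rw [walkT_eq] at h2
  exact h2

/-- Every point is the image of the first point under a product of permutations of letters. -/
theorem reach (hperm : ∀ i < n, ∀ y < k, tf i y < n ∧ tf (tf i y) (inv y) = i)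
    (hinv : ∀ y < k, inv y < k ∧ inv (inv y) = y) (hn : 0 < n)
    (htree : ∀ i < n, 1 ≤ i → chkTree tf tp k i = true) (i : ℕ) (hi : i < n) :
    ∃ w : List ℕ, (∀ y ∈ w, y < k) ∧
      ((w.map (permOf hperm hinv)).prod ⟨0, hn⟩).1 = i := by
  induction i using Nat.strong_induction_on with
  | _ i ih =>
    rcases Nat.eq_zero_or_pos i with h0 | h0
    · subst h0
      exact ⟨[], by simp, by simp⟩
    · have h := htree i hi h0
      unfold chkTree at h
      have h1 := (band_iff _ _).mp h
      have h2 := (band_iff _ _).mp h1.2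
      rw [forceN_eq] at h2
      have hp : Nat.shiftRight (tp i) 4 < i := Nat.le_of_ble_eq_true h1.1
      have hy : Nat.land (tp i) 15 < k := Nat.le_of_ble_eq_true h2.1
      have ht : tf (Nat.shiftRight (tp i) 4) (Nat.land (tp i) 15) = i :=
        Nat.eq_of_beq_eq_true h2.2
      obtain ⟨w, hw, hwp⟩ := ih _ hp (Nat.lt_trans hp hi)
      refine ⟨inv (Nat.land (tp i) 15) :: w, ?_, ?_⟩
      · intro z hz
        rcases List.mem_cons.mp hz with rfl | hz
        · exact (hinv _ hy).1
        · exact hw z hz
      · rw [List.map_cons, List.prod_cons, Equiv.Perm.mul_apply,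
          permOf_apply hperm hinv (hinv _ hy).1, hwp, (hinv _ hy).2]
        exact ht

end Lower

/-- The index of a subgroup fixing a point of a transitive action is a multiple of the degree. -/
theorem dvd_index_of_action {G : Type*} [Group G] (H : Subgroup G) {n : ℕ}
    (φ : G →* Equiv.Perm (Fin n)) (x : Fin n) (hH : ∀ g ∈ H, φ g x = x)
    (htrans : ∀ i : Fin n, ∃ g : G, φ g x = i) : n ∣ H.index := by
  letI : MulAction G (Fin n) := MulAction.compHom (Fin n) φ
  have hsm : ∀ (g : G) (i : Fin n), g • i = φ g i := fun _ _ => rfl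
  haveI : MulAction.IsPretransitive G (Fin n) := by
    refine ⟨fun i j => ?_⟩
    obtain ⟨gi, hgi⟩ := htrans i
    obtain ⟨gj, hgj⟩ := htrans j
    refine ⟨gj * gi⁻¹, ?_⟩
    rw [hsm, map_mul, map_inv, Equiv.Perm.mul_apply, ← hgi, ← hgj]
    exact congrArg (φ gj) (Equiv.symm_apply_apply (φ gi) x)
  have hle : H ≤ MulAction.stabilizer G x := by
    intro g hg
    rw [MulAction.mem_stabilizer_iff, hsm]
    exact hH g hg
  have h1 := Subgroup.index_dvd_of_le hle
  rw [MulAction.index_stabilizer_of_transitive, Nat.card_fin] at h1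
  exact h1

end Cfsg.Agent.Lib.Helper9.FC
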