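import Mathlib
import Cfsg.Agent.Lib.Helper9.FCLower

set_option autoImplicit false

/-!
# Static coset-enumeration certificates: cheaper checks of the relators on the final table

Coxeter relators are checked at the points that are not moved downwards by the two letters;
a relator that is a power of a word is checked through a column holding the permutation of
the word.
-/

namespace Cfsg.Agent.Lib.Helper9.FC

section PermFacts

variable {n : ℕ}

theorem perm_sq_apply {X : Equiv.Perm (Fin n)} (h : X * X = 1) (j : Fin n) : X (X j) = j := by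
  have := congrArg (fun p : Equiv.Perm (Fin n) => p j) h
  simpa using this

/-- Two involutions commute if they commute at the points that neither moves downwards. -/
theorem comm_of_local (X Z : Equiv.Perm (Fin n)) (hX : X * X = 1) (hZ : Z * Z = 1)
    (h : ∀ j : Fin n, j ≤ X j → j ≤ Z j → Z (X j) = X (Z j)) (j : Fin n) :
    Z (X j) = X (Z j) := by
  have key : ∀ m : ℕ, ∀ j : Fin n, j.val = m → Z (X j) = X (Z j) := by
    intro m
    induction m using Nat.strong_induction_on with
    | _ m ih =>
      intro j hj
      by_cases h1 : j ≤ X j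
      · by_cases h2 : j ≤ Z j
        · exact h j h1 h2
        · have hlt : (Z j).val < m := by
            rw [← hj]
            exact not_le.mp h2
          have e := ih _ hlt (Z j) rfl
          rw [perm_sq_apply hZ] at e
          have e2 := congrArg Z e
          rw [perm_sq_apply hZ] at e2
          exact e2.symm
      · have hlt : (X j).val < m := by
          rw [← hj]
          exact not_le.mp h1
        have e := ih _ hlt (X j) rfl
        rw [perm_sq_apply hX] at e
        have e2 := congrArg X e
        rw [perm_sq_apply hX] at e2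
        exact e2.symm
  exact key j.val j rfl

/-- The braid relation of two involutions, from the points that neither moves downwards. -/
theorem braid_of_local (X Z : Equiv.Perm (Fin n)) (hX : X * X = 1) (hZ : Z * Z = 1)
    (h : ∀ j : Fin n, j ≤ X j → j ≤ Z j → X (Z (X j)) = Z (X (Z j))) (j : Fin n) :
    X (Z (X j)) = Z (X (Z j)) := by
  have key : ∀ m : ℕ, ∀ j : Fin n, j.val = m → X (Z (X j)) = Z (X (Z j)) := by
    intro m
    induction m using Nat.strong_induction_on with
    | _ m ih =>
      intro j hj
      by_cases h1 : j ≤ X j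
      · by_cases h2 : j ≤ Z j
        · exact h j h1 h2
        · have hlt : (Z j).val < m := by
            rw [← hj]
            exact not_le.mp h2
          have e := ih _ hlt (Z j) rfl
          rw [perm_sq_apply hZ] at e
          have e2 := congrArg X e
          rw [perm_sq_apply hX] at e2
          exact e2.symm
      · have hlt : (X j).val < m := by
          rw [← hj]
          exact not_le.mp h1
        have e := ih _ hlt (X j) rfl
        rw [perm_sq_apply hX] at e
        have e2 := congrArg Z e
        rw [perm_sq_apply hZ] at e2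
        exact e2.symm
  exact key j.val j rfl

theorem sq_of_comm (X Z : Equiv.Perm (Fin n)) (hX : X * X = 1) (hZ : Z * Z = 1)
    (h : ∀ j : Fin n, Z (X j) = X (Z j)) : (X * Z) ^ 2 = 1 := by
  ext j
  rw [pow_two]
  simp only [Equiv.Perm.mul_apply, Equiv.Perm.one_apply]
  rw [h (Z j), perm_sq_apply hZ, perm_sq_apply hX]

theorem cube_of_braid (X Z : Equiv.Perm (Fin n)) (hX : X * X = 1) (hZ : Z * Z = 1)
    (h : ∀ j : Fin n, X (Z (X j)) = Z (X (Z j))) : (X * Z) ^ 3 = 1 := by
  ext j
  rw [pow_succ, pow_two]
  simp only [Equiv.Perm.mul_apply, Equiv.Perm.one_apply]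
  rw [← h j, perm_sq_apply hX, perm_sq_apply hZ, perm_sq_apply hX]

/-- A power of a permutation is trivial if it fixes the points not moved downwards. -/
theorem pow_eq_one_of_local (Q : Equiv.Perm (Fin n)) (m : ℕ)
    (h : ∀ j : Fin n, j ≤ Q j → (Q ^ m) j = j) : Q ^ m = 1 := by
  have key : ∀ t : ℕ, ∀ j : Fin n, j.val = t → (Q ^ m) j = j := by
    intro t
    induction t using Nat.strong_induction_on with
    | _ t ih =>
      intro j hj
      by_cases h1 : j ≤ Q j
      · exact h j h1
      · have hlt : (Q j).val < t := by
          rw [← hj]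
          exact not_le.mp h1
        have e := ih _ hlt (Q j) rfl
        have e2 : Q ((Q ^ m) j) = Q j := by
          rw [← Equiv.Perm.mul_apply, ← pow_succ', pow_succ, Equiv.Perm.mul_apply]
          exact e
        exact Q.injective e2
  ext j
  rw [key j.val j rfl]
  rfl

theorem pow_apply_col (tf : ℕ → ℕ → ℕ) (c : ℕ) (Q : Equiv.Perm (Fin n))
    (hQ : ∀ j : Fin n, (Q j).val = tf j.val c) (t : ℕ) (a : Fin n) :
    ((Q ^ t) a).val = (List.replicate t c).foldl tf a.val := by
  induction t generalizing a with
  | zero => rfl
  | succ t ih =>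
    rw [pow_succ, Equiv.Perm.mul_apply, ih, List.replicate_succ, List.foldl_cons, hQ]

end PermFacts

theorem foldl_flatten_col (tf : ℕ → ℕ → ℕ) (n : ℕ) (u : List ℕ) (c : ℕ)
    (hcol : ∀ j < n, u.foldl tf j = tf j c) (hr : ∀ j < n, tf j c < n) (m : ℕ) (a : ℕ)
    (ha : a < n) :
    ((List.replicate m u).flatten).foldl tf a = (List.replicate m c).foldl tf a := by
  induction m generalizing a with
  | zero => rfl
  | succ m ih =>
    rw [List.replicate_succ, List.flatten_cons, List.foldl_append, hcol a ha, List.replicate_succ,
      List.foldl_cons, ih _ (hr a ha)]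

section Lower2

variable (tf : ℕ → ℕ → ℕ) (labF : ℕ → ℕ → ℕ) (k : ℕ)

/-- The commutation or the braid relation of two letters at a point with images `a` and `b`. -/
def chkPair (x z a b : ℕ) : Bool :=
  (fun m => Bool.rec
    (Bool.rec true
      (forceN a (fun a' => forceN b (fun b' => forceN (tf a' z) (fun c => forceN (tf b' x)
        (fun d => Nat.beq (tf c x) (tf d z))))))
      (Nat.beq m 3))
    (forceN a (fun a' => forceN b (fun b' => Nat.beq (tf a' z) (tf b' x))))
    (Nat.beq m 2)) (labF x z)

/-- The Coxeter relations at a point, for the pairs of letters that do not move it downwards. -/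
def chkCox (j : ℕ) : Bool :=
  forceN j (fun j => allB k (fun x => (fun a => Bool.rec true
    (allB x (fun z => (fun b => Bool.rec true (chkPair tf labF x z a b) (Nat.ble j b)) (tf j z)))
    (Nat.ble j a)) (tf j x)))

/-- The column `c` holds the walk along `u`, and the walk along `cs` closes the cycle of a
point that is not moved downwards. -/
def chkPow (u cs : List ℕ) (c j : ℕ) : Bool :=
  forceN j (fun j => (fun a => band (Nat.beq (walkT tf u j) a)
    (Bool.rec true (forceN a (fun a' => Nat.beq (walkT tf cs a') j)) (Nat.ble j a))) (tf j c))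

/-- The column `c` holds the walk along `u`, and the letter `y` followed by `cs` is closed. -/
def chkLin (u cs : List ℕ) (c y j : ℕ) : Bool :=
  forceN j (fun j => band (Nat.beq (walkT tf u j) (tf j c))
    (forceN (tf j y) (fun a => Nat.beq (walkT tf cs a) j)))

variable {tf labF k}

theorem chkCox_spec {j : ℕ} (h : chkCox tf labF k j = true) {x z : ℕ} (hx : x < k) (hz : z < x)
    (h1 : j ≤ tf j x) (h2 : j ≤ tf j z) :
    (labF x z = 2 → tf (tf j x) z = tf (tf j z) x) ∧
    (labF x z = 3 → tf (tf (tf j x) z) x = tf (tf (tf j z) x) z) := by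
  unfold chkCox at h
  rw [forceN_eq] at h
  have hA := (allB_iff _ _).mp h x hx
  have hA' : (Bool.rec true
    (allB x (fun z => (fun b => Bool.rec true (chkPair tf labF x z (tf j x) b) (Nat.ble j b))
      (tf j z))) (Nat.ble j (tf j x)) : Bool) = true := hA
  rw [Nat.ble_eq_true_of_le h1] at hA'
  have hB := (allB_iff _ _).mp hA' z hz
  have hB' : (Bool.rec true (chkPair tf labF x z (tf j x) (tf j z)) (Nat.ble j (tf j z)) : Bool)
      = true := hB
  rw [Nat.ble_eq_true_of_le h2] at hB'
  have hC : chkPair tf labF x z (tf j x) (tf j z) = true := hB'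
  unfold chkPair at hC
  have hC' : (Bool.rec
    (Bool.rec true
      (forceN (tf j x) (fun a' => forceN (tf j z) (fun b' => forceN (tf a' z)
        (fun c => forceN (tf b' x) (fun d => Nat.beq (tf c x) (tf d z))))))
      (Nat.beq (labF x z) 3))
    (forceN (tf j x) (fun a' => forceN (tf j z) (fun b' => Nat.beq (tf a' z) (tf b' x))))
    (Nat.beq (labF x z) 2) : Bool) = true := hC
  constructor
  · intro hl
    rw [hl] at hC'
    have hD : forceN (tf j x) (fun a' => forceN (tf j z) (fun b' => Nat.beq (tf a' z) (tf b' x)))
        = true := hC'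
    rw [forceN_eq, forceN_eq] at hD
    exact Nat.eq_of_beq_eq_true hD
  · intro hl
    rw [hl] at hC'
    have hD : forceN (tf j x) (fun a' => forceN (tf j z) (fun b' => forceN (tf a' z)
        (fun c => forceN (tf b' x) (fun d => Nat.beq (tf c x) (tf d z))))) = true := hC'
    rw [forceN_eq, forceN_eq, forceN_eq, forceN_eq] at hD
    exact Nat.eq_of_beq_eq_true hD

theorem chkPow_spec {u cs : List ℕ} {c j : ℕ} (h : chkPow tf u cs c j = true) :
    u.foldl tf j = tf j c ∧ (j ≤ tf j c → cs.foldl tf (tf j c) = j) := by
  unfold chkPow at h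
  rw [forceN_eq] at h
  have h1 := (band_iff _ _).mp h
  rw [walkT_eq] at h1
  refine ⟨Nat.eq_of_beq_eq_true h1.1, fun hle => ?_⟩
  have h2 : (Bool.rec true (forceN (tf j c) (fun a' => Nat.beq (walkT tf cs a') j))
    (Nat.ble j (tf j c)) : Bool) = true := h1.2
  rw [Nat.ble_eq_true_of_le hle] at h2
  have h3 : forceN (tf j c) (fun a' => Nat.beq (walkT tf cs a') j) = true := h2
  rw [forceN_eq, walkT_eq] at h3
  exact Nat.eq_of_beq_eq_true h3

theorem chkLin_spec {u cs : List ℕ} {c y j : ℕ} (h : chkLin tf u cs c y j = true) :
    u.foldl tf j = tf j c ∧ cs.foldl tf (tf j y) = j := by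
  unfold chkLin at h
  rw [forceN_eq] at h
  have h1 := (band_iff _ _).mp h
  rw [walkT_eq] at h1
  have h2 := h1.2
  rw [forceN_eq, walkT_eq] at h2
  exact ⟨Nat.eq_of_beq_eq_true h1.1, Nat.eq_of_beq_eq_true h2⟩

end Lower2

end Cfsg.Agent.Lib.Helper9.FC
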