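import Mathlib
import Cfsg.Agent.Lib.Helper9.Fi24Tab
import Cfsg.Agent.Lib.Helper9.FCLower2

set_option autoImplicit false

/-!
# The checks of the coset-enumeration certificate of `Fi24`
-/

namespace Cfsg.Agent.Lib.Helper9.Fi24C

open Cfsg.Agent.Lib.Helper9.FC

/-- The check of the slots of a node. -/
def chkRow (u : ℕ) : Bool :=
  forceN u (fun u => allB 12 (fun y => chkSlot hot cold lnk tr invF relW subB 394454 12 u y))

/-- The check of the coincidence of a node. -/
def chkLinkB (b : ℕ) : Bool := chkLink hot lnk lj relW 394454 12 b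

/-- The check of a final node. -/
def chkFinalB (u : ℕ) : Bool := chkFinal hot lnk 12 u

/-- The check of a point of the final table. -/
def chkPoint (i : ℕ) : Bool :=
  band (chkPerm tf invF 306936 12 i) (band (chkCox tf labF 12 i)
    (band (chkPow tf w14L cs16 12 i) (band (chkLin tf u7L cs9 13 0 i)
      (Bool.rec (chkTree tf tp 12 i) true (Nat.beq i 0)))))

/-- The node is final. -/
def finB (u : ℕ) : Bool := Nat.beq (lnk u) 4398046511103

end Cfsg.Agent.Lib.Helper9.Fi24C
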