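import Mathlib
import Cfsg.Agent.Lib.Helper9.Fi24Chk

set_option autoImplicit false

/-! A part of the kernel checks of the coset-enumeration certificate of `Fi24`. -/

namespace Cfsg.Agent.Lib.Helper9.Fi24C

open Cfsg.Agent.Lib.Helper9.FC

set_option maxRecDepth 100000

theorem linksB : allB2 2 107 (fun i => chkLinkB (Nat.add 394240 i)) = true := by
  decide +kernel

theorem finalB : allB2 2 107 (fun i => chkFinalB (Nat.add 394240 i)) = true := by
  decide +kernel

theorem cntFin : cnt2 finB 0 386 1024 = 306936 := by
  decide +kernel

theorem rowM : allB 12 (fun y => Nat.beq (hot 394454 y) 8796093022207) = true := by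
  decide +kernel

theorem rootFin : Nat.beq (lnk 0) 4398046511103 = true := by
  decide +kernel

theorem subFix : allB 12 (fun y => bor (Nat.beq y 1) (Nat.beq (tf 0 y) 0)) = true := by
  decide +kernel

end Cfsg.Agent.Lib.Helper9.Fi24C
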