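import Mathlib
import Cfsg.Agent.Lib.Helper9.Fi24Chk
import Cfsg.Agent.Lib.Helper9.Fi24W2

set_option autoImplicit false

/-! A part of the kernel checks of the coset-enumeration certificate of `Fi24`. -/

namespace Cfsg.Agent.Lib.Helper9.Fi24C

open Cfsg.Agent.Lib.Helper9.FC

set_option maxRecDepth 100000

theorem linksW4 : allB2 385 128 (fun i => chkLinkB (Nat.add 197120 i)) = true := by
  decide +kernel

end Cfsg.Agent.Lib.Helper9.Fi24C
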