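import Mathlib
import Cfsg.Agent.Lib.Helper9.Fi24Chk
import Cfsg.Agent.Lib.Helper9.Fi24V12
import Cfsg.Agent.Lib.Helper9.Fi24U0
import Cfsg.Agent.Lib.Helper9.Fi24U2
import Cfsg.Agent.Lib.Helper9.Fi24U4
import Cfsg.Agent.Lib.Helper9.Fi24U6
import Cfsg.Agent.Lib.Helper9.Fi24U8
import Cfsg.Agent.Lib.Helper9.Fi24U10
import Cfsg.Agent.Lib.Helper9.Fi24U12
import Cfsg.Agent.Lib.Helper9.Fi24U14
import Cfsg.Agent.Lib.Helper9.Fi24U16
import Cfsg.Agent.Lib.Helper9.Fi24U18
import Cfsg.Agent.Lib.Helper9.Fi24U20
import Cfsg.Agent.Lib.Helper9.Fi24U22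
import Cfsg.Agent.Lib.Helper9.Fi24U24
import Cfsg.Agent.Lib.Helper9.Fi24U26
import Cfsg.Agent.Lib.Helper9.Fi24U28
import Cfsg.Agent.Lib.Helper9.Fi24U30
import Cfsg.Agent.Lib.Helper9.Fi24U32
import Cfsg.Agent.Lib.Helper9.Fi24U34
import Cfsg.Agent.Lib.Helper9.Fi24U36
import Cfsg.Agent.Lib.Helper9.Fi24U38
import Cfsg.Agent.Lib.Helper9.Fi24U40
import Cfsg.Agent.Lib.Helper9.Fi24U42
import Cfsg.Agent.Lib.Helper9.Fi24U44
import Cfsg.Agent.Lib.Helper9.Fi24U46
import Cfsg.Agent.Lib.Helper9.Fi24U48
import Cfsg.Agent.Lib.Helper9.Fi24U50
import Cfsg.Agent.Lib.Helper9.Fi24U52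
import Cfsg.Agent.Lib.Helper9.Fi24U54
import Cfsg.Agent.Lib.Helper9.Fi24U56
import Cfsg.Agent.Lib.Helper9.Fi24U58
import Cfsg.Agent.Lib.Helper9.Fi24U60
import Cfsg.Agent.Lib.Helper9.Fi24U62
import Cfsg.Agent.Lib.Helper9.Fi24U64
import Cfsg.Agent.Lib.Helper9.Fi24U66
import Cfsg.Agent.Lib.Helper9.Fi24U68
import Cfsg.Agent.Lib.Helper9.Fi24U70
import Cfsg.Agent.Lib.Helper9.Fi24U72
import Cfsg.Agent.Lib.Helper9.Fi24U74
import Cfsg.Agent.Lib.Helper9.Fi24U76
import Cfsg.Agent.Lib.Helper9.Fi24U78
import Cfsg.Agent.Lib.Helper9.Fi24U80
import Cfsg.Agent.Lib.Helper9.Fi24U82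
import Cfsg.Agent.Lib.Helper9.Fi24U84
import Cfsg.Agent.Lib.Helper9.Fi24U86
import Cfsg.Agent.Lib.Helper9.Fi24U88
import Cfsg.Agent.Lib.Helper9.Fi24U90
import Cfsg.Agent.Lib.Helper9.Fi24U92
import Cfsg.Agent.Lib.Helper9.Fi24U94
import Cfsg.Agent.Lib.Helper9.Fi24U96
import Cfsg.Agent.Lib.Helper9.Fi24V4
import Cfsg.Agent.Lib.Helper9.Fi24V6
import Cfsg.Agent.Lib.Helper9.Fi24V8
import Cfsg.Agent.Lib.Helper9.Fi24V10
import Cfsg.Agent.Lib.Helper9.Fi24U1
import Cfsg.Agent.Lib.Helper9.Fi24U3
import Cfsg.Agent.Lib.Helper9.Fi24U5
import Cfsg.Agent.Lib.Helper9.Fi24U7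
import Cfsg.Agent.Lib.Helper9.Fi24U9
import Cfsg.Agent.Lib.Helper9.Fi24U11
import Cfsg.Agent.Lib.Helper9.Fi24U13
import Cfsg.Agent.Lib.Helper9.Fi24U15
import Cfsg.Agent.Lib.Helper9.Fi24U17
import Cfsg.Agent.Lib.Helper9.Fi24U19
import Cfsg.Agent.Lib.Helper9.Fi24U21
import Cfsg.Agent.Lib.Helper9.Fi24U23
import Cfsg.Agent.Lib.Helper9.Fi24U25
import Cfsg.Agent.Lib.Helper9.Fi24U27
import Cfsg.Agent.Lib.Helper9.Fi24U29
import Cfsg.Agent.Lib.Helper9.Fi24U31
import Cfsg.Agent.Lib.Helper9.Fi24U33
import Cfsg.Agent.Lib.Helper9.Fi24U35
import Cfsg.Agent.Lib.Helper9.Fi24U37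
import Cfsg.Agent.Lib.Helper9.Fi24U39
import Cfsg.Agent.Lib.Helper9.Fi24U41
import Cfsg.Agent.Lib.Helper9.Fi24U43
import Cfsg.Agent.Lib.Helper9.Fi24U45
import Cfsg.Agent.Lib.Helper9.Fi24U47
import Cfsg.Agent.Lib.Helper9.Fi24U49
import Cfsg.Agent.Lib.Helper9.Fi24U51
import Cfsg.Agent.Lib.Helper9.Fi24U53
import Cfsg.Agent.Lib.Helper9.Fi24U55
import Cfsg.Agent.Lib.Helper9.Fi24U57
import Cfsg.Agent.Lib.Helper9.Fi24U59
import Cfsg.Agent.Lib.Helper9.Fi24U61
import Cfsg.Agent.Lib.Helper9.Fi24U63
import Cfsg.Agent.Lib.Helper9.Fi24U65
import Cfsg.Agent.Lib.Helper9.Fi24U67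
import Cfsg.Agent.Lib.Helper9.Fi24U69
import Cfsg.Agent.Lib.Helper9.Fi24U71
import Cfsg.Agent.Lib.Helper9.Fi24U73
import Cfsg.Agent.Lib.Helper9.Fi24U75
import Cfsg.Agent.Lib.Helper9.Fi24U77
import Cfsg.Agent.Lib.Helper9.Fi24U79
import Cfsg.Agent.Lib.Helper9.Fi24U81
import Cfsg.Agent.Lib.Helper9.Fi24U83
import Cfsg.Agent.Lib.Helper9.Fi24U85
import Cfsg.Agent.Lib.Helper9.Fi24U87
import Cfsg.Agent.Lib.Helper9.Fi24U89
import Cfsg.Agent.Lib.Helper9.Fi24U91
import Cfsg.Agent.Lib.Helper9.Fi24U93
import Cfsg.Agent.Lib.Helper9.Fi24U95
import Cfsg.Agent.Lib.Helper9.Fi24V5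
import Cfsg.Agent.Lib.Helper9.Fi24V7
import Cfsg.Agent.Lib.Helper9.Fi24V9
import Cfsg.Agent.Lib.Helper9.Fi24V11
import Cfsg.Agent.Lib.Helper9.Fi24D0
import Cfsg.Agent.Lib.Helper9.Fi24D2
import Cfsg.Agent.Lib.Helper9.Fi24D4
import Cfsg.Agent.Lib.Helper9.Fi24D6
import Cfsg.Agent.Lib.Helper9.Fi24D8
import Cfsg.Agent.Lib.Helper9.Fi24D10
import Cfsg.Agent.Lib.Helper9.Fi24D12
import Cfsg.Agent.Lib.Helper9.Fi24D14
import Cfsg.Agent.Lib.Helper9.Fi24D16
import Cfsg.Agent.Lib.Helper9.Fi24D18
import Cfsg.Agent.Lib.Helper9.Fi24D20
import Cfsg.Agent.Lib.Helper9.Fi24D22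
import Cfsg.Agent.Lib.Helper9.Fi24D24
import Cfsg.Agent.Lib.Helper9.Fi24D26
import Cfsg.Agent.Lib.Helper9.Fi24D28
import Cfsg.Agent.Lib.Helper9.Fi24D30
import Cfsg.Agent.Lib.Helper9.Fi24D32
import Cfsg.Agent.Lib.Helper9.Fi24D34
import Cfsg.Agent.Lib.Helper9.Fi24D36
import Cfsg.Agent.Lib.Helper9.Fi24D38
import Cfsg.Agent.Lib.Helper9.Fi24D40
import Cfsg.Agent.Lib.Helper9.Fi24D42
import Cfsg.Agent.Lib.Helper9.Fi24D44
import Cfsg.Agent.Lib.Helper9.Fi24D46
import Cfsg.Agent.Lib.Helper9.Fi24D48
import Cfsg.Agent.Lib.Helper9.Fi24D50
import Cfsg.Agent.Lib.Helper9.Fi24D52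
import Cfsg.Agent.Lib.Helper9.Fi24D54
import Cfsg.Agent.Lib.Helper9.Fi24D56
import Cfsg.Agent.Lib.Helper9.Fi24D58
import Cfsg.Agent.Lib.Helper9.Fi24D60
import Cfsg.Agent.Lib.Helper9.Fi24D62
import Cfsg.Agent.Lib.Helper9.Fi24D64
import Cfsg.Agent.Lib.Helper9.Fi24D66
import Cfsg.Agent.Lib.Helper9.Fi24D68
import Cfsg.Agent.Lib.Helper9.Fi24D70
import Cfsg.Agent.Lib.Helper9.Fi24D72
import Cfsg.Agent.Lib.Helper9.Fi24D74
import Cfsg.Agent.Lib.Helper9.Fi24D76
import Cfsg.Agent.Lib.Helper9.Fi24D78
import Cfsg.Agent.Lib.Helper9.Fi24D80
import Cfsg.Agent.Lib.Helper9.Fi24D82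
import Cfsg.Agent.Lib.Helper9.Fi24D84
import Cfsg.Agent.Lib.Helper9.Fi24D86
import Cfsg.Agent.Lib.Helper9.Fi24D88
import Cfsg.Agent.Lib.Helper9.Fi24D90
import Cfsg.Agent.Lib.Helper9.Fi24D92
import Cfsg.Agent.Lib.Helper9.Fi24D94
import Cfsg.Agent.Lib.Helper9.Fi24D96
import Cfsg.Agent.Lib.Helper9.Fi24W0
import Cfsg.Agent.Lib.Helper9.Fi24W2
import Cfsg.Agent.Lib.Helper9.Fi24W4
import Cfsg.Agent.Lib.Helper9.Fi24W6
import Cfsg.Agent.Lib.Helper9.Fi24D1
import Cfsg.Agent.Lib.Helper9.Fi24D3
import Cfsg.Agent.Lib.Helper9.Fi24D5
import Cfsg.Agent.Lib.Helper9.Fi24D7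
import Cfsg.Agent.Lib.Helper9.Fi24D9
import Cfsg.Agent.Lib.Helper9.Fi24D11
import Cfsg.Agent.Lib.Helper9.Fi24D13
import Cfsg.Agent.Lib.Helper9.Fi24D15
import Cfsg.Agent.Lib.Helper9.Fi24D17
import Cfsg.Agent.Lib.Helper9.Fi24D19
import Cfsg.Agent.Lib.Helper9.Fi24D21
import Cfsg.Agent.Lib.Helper9.Fi24D23
import Cfsg.Agent.Lib.Helper9.Fi24D25
import Cfsg.Agent.Lib.Helper9.Fi24D27
import Cfsg.Agent.Lib.Helper9.Fi24D29
import Cfsg.Agent.Lib.Helper9.Fi24D31
import Cfsg.Agent.Lib.Helper9.Fi24D33
import Cfsg.Agent.Lib.Helper9.Fi24D35
import Cfsg.Agent.Lib.Helper9.Fi24D37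
import Cfsg.Agent.Lib.Helper9.Fi24D39
import Cfsg.Agent.Lib.Helper9.Fi24D41
import Cfsg.Agent.Lib.Helper9.Fi24D43
import Cfsg.Agent.Lib.Helper9.Fi24D45
import Cfsg.Agent.Lib.Helper9.Fi24D47
import Cfsg.Agent.Lib.Helper9.Fi24D49
import Cfsg.Agent.Lib.Helper9.Fi24D51
import Cfsg.Agent.Lib.Helper9.Fi24D53
import Cfsg.Agent.Lib.Helper9.Fi24D55
import Cfsg.Agent.Lib.Helper9.Fi24D57
import Cfsg.Agent.Lib.Helper9.Fi24D59
import Cfsg.Agent.Lib.Helper9.Fi24D61
import Cfsg.Agent.Lib.Helper9.Fi24D63
import Cfsg.Agent.Lib.Helper9.Fi24D65
import Cfsg.Agent.Lib.Helper9.Fi24D67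
import Cfsg.Agent.Lib.Helper9.Fi24D69
import Cfsg.Agent.Lib.Helper9.Fi24D71
import Cfsg.Agent.Lib.Helper9.Fi24D73
import Cfsg.Agent.Lib.Helper9.Fi24D75
import Cfsg.Agent.Lib.Helper9.Fi24D77
import Cfsg.Agent.Lib.Helper9.Fi24D79
import Cfsg.Agent.Lib.Helper9.Fi24D81
import Cfsg.Agent.Lib.Helper9.Fi24D83
import Cfsg.Agent.Lib.Helper9.Fi24D85
import Cfsg.Agent.Lib.Helper9.Fi24D87
import Cfsg.Agent.Lib.Helper9.Fi24D89
import Cfsg.Agent.Lib.Helper9.Fi24D91
import Cfsg.Agent.Lib.Helper9.Fi24D93
import Cfsg.Agent.Lib.Helper9.Fi24D95
import Cfsg.Agent.Lib.Helper9.Fi24W1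
import Cfsg.Agent.Lib.Helper9.Fi24W3
import Cfsg.Agent.Lib.Helper9.Fi24W5
import Cfsg.Agent.Lib.Helper9.Fi24W7

set_option autoImplicit false

/-! The kernel checks of the coset-enumeration certificate of `Fi24`, put together. -/

namespace Cfsg.Agent.Lib.Helper9.Fi24C

open Cfsg.Agent.Lib.Helper9.FC

theorem slots_all : ∀ u < 394454, chkRow u = true := by
  intro u hu
  have hlo : 0 ≤ u := Nat.zero_le u
  rcases Nat.lt_or_ge u 4096 with hlt | hge
  · have h := (allB2_iff _ _ _).mp slotsU0 (u - 0) (by show u - 0 < 32 * 128; omega)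
    have e : Nat.add 0 (u - 0) = u := by show 0 + (u - 0) = u; omega
    rw [e] at h
    exact h
  replace hlo : 4096 ≤ u := hge
  clear hge
  rcases Nat.lt_or_ge u 8192 with hlt | hge
  · have h := (allB2_iff _ _ _).mp slotsU1 (u - 4096) (by show u - 4096 < 32 * 128; omega)
    have e : Nat.add 4096 (u - 4096) = u := by show 4096 + (u - 4096) = u; omega
    rw [e] at h
    exact h
  replace hlo : 8192 ≤ u := hge
  clear hge
  rcases Nat.lt_or_ge u 12288 with hlt | hge
  · have h := (allB2_iff _ _ _).mp slotsU2 (u - 8192) (by show u - 8192 < 32 * 128; omega)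
    have e : Nat.add 8192 (u - 8192) = u := by show 8192 + (u - 8192) = u; omega
    rw [e] at h
    exact h
  replace hlo : 12288 ≤ u := hge
  clear hge
  rcases Nat.lt_or_ge u 16384 with hlt | hge
  · have h := (allB2_iff _ _ _).mp slotsU3 (u - 12288) (by show u - 12288 < 32 * 128; omega)
    have e : Nat.add 12288 (u - 12288) = u := by show 12288 + (u - 12288) = u; omega
    rw [e] at h
    exact h
  replace hlo : 16384 ≤ u := hge
  clear hge
  rcases Nat.lt_or_ge u 20480 with hlt | hge
  · have h := (allB2_iff _ _ _).mp slotsU4 (u - 16384) (by show u - 16384 < 32 * 128; omega)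
    have e : Nat.add 16384 (u - 16384) = u := by show 16384 + (u - 16384) = u; omega
    rw [e] at h
    exact h
  replace hlo : 20480 ≤ u := hge
  clear hge
  rcases Nat.lt_or_ge u 24576 with hlt | hge
  · have h := (allB2_iff _ _ _).mp slotsU5 (u - 20480) (by show u - 20480 < 32 * 128; omega)
    have e : Nat.add 20480 (u - 20480) = u := by show 20480 + (u - 20480) = u; omega
    rw [e] at h
    exact h
  replace hlo : 24576 ≤ u := hge
  clear hge
  rcases Nat.lt_or_ge u 28672 with hlt | hge
  · have h := (allB2_iff _ _ _).mp slotsU6 (u - 24576) (by show u - 24576 < 32 * 128; omega)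
    have e : Nat.add 24576 (u - 24576) = u := by show 24576 + (u - 24576) = u; omega
    rw [e] at h
    exact h
  replace hlo : 28672 ≤ u := hge
  clear hge
  rcases Nat.lt_or_ge u 32768 with hlt | hge
  · have h := (allB2_iff _ _ _).mp slotsU7 (u - 28672) (by show u - 28672 < 32 * 128; omega)
    have e : Nat.add 28672 (u - 28672) = u := by show 28672 + (u - 28672) = u; omega
    rw [e] at h
    exact h
  replace hlo : 32768 ≤ u := hge
  clear hge
  rcases Nat.lt_or_ge u 36864 with hlt | hge
  · have h := (allB2_iff _ _ _).mp slotsU8 (u - 32768) (by show u - 32768 < 32 * 128; omega)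
    have e : Nat.add 32768 (u - 32768) = u := by show 32768 + (u - 32768) = u; omega
    rw [e] at h
    exact h
  replace hlo : 36864 ≤ u := hge
  clear hge
  rcases Nat.lt_or_ge u 40960 with hlt | hge
  · have h := (allB2_iff _ _ _).mp slotsU9 (u - 36864) (by show u - 36864 < 32 * 128; omega)
    have e : Nat.add 36864 (u - 36864) = u := by show 36864 + (u - 36864) = u; omega
    rw [e] at h
    exact h
  replace hlo : 40960 ≤ u := hge
  clear hge
  rcases Nat.lt_or_ge u 45056 with hlt | hge
  · have h := (allB2_iff _ _ _).mp slotsU10 (u - 40960) (by show u - 40960 < 32 * 128; omega)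
    have e : Nat.add 40960 (u - 40960) = u := by show 40960 + (u - 40960) = u; omega
    rw [e] at h
    exact h
  replace hlo : 45056 ≤ u := hge
  clear hge
  rcases Nat.lt_or_ge u 49152 with hlt | hge
  · have h := (allB2_iff _ _ _).mp slotsU11 (u - 45056) (by show u - 45056 < 32 * 128; omega)
    have e : Nat.add 45056 (u - 45056) = u := by show 45056 + (u - 45056) = u; omega
    rw [e] at h
    exact h
  replace hlo : 49152 ≤ u := hge
  clear hge
  rcases Nat.lt_or_ge u 53248 with hlt | hge
  · have h := (allB2_iff _ _ _).mp slotsU12 (u - 49152) (by show u - 49152 < 32 * 128; omega)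
    have e : Nat.add 49152 (u - 49152) = u := by show 49152 + (u - 49152) = u; omega
    rw [e] at h
    exact h
  replace hlo : 53248 ≤ u := hge
  clear hge
  rcases Nat.lt_or_ge u 57344 with hlt | hge
  · have h := (allB2_iff _ _ _).mp slotsU13 (u - 53248) (by show u - 53248 < 32 * 128; omega)
    have e : Nat.add 53248 (u - 53248) = u := by show 53248 + (u - 53248) = u; omega
    rw [e] at h
    exact h
  replace hlo : 57344 ≤ u := hge
  clear hge
  rcases Nat.lt_or_ge u 61440 with hlt | hge
  · have h := (allB2_iff _ _ _).mp slotsU14 (u - 57344) (by show u - 57344 < 32 * 128; omega)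
    have e : Nat.add 57344 (u - 57344) = u := by show 57344 + (u - 57344) = u; omega
    rw [e] at h
    exact h
  replace hlo : 61440 ≤ u := hge
  clear hge
  rcases Nat.lt_or_ge u 65536 with hlt | hge
  · have h := (allB2_iff _ _ _).mp slotsU15 (u - 61440) (by show u - 61440 < 32 * 128; omega)
    have e : Nat.add 61440 (u - 61440) = u := by show 61440 + (u - 61440) = u; omega
    rw [e] at h
    exact h
  replace hlo : 65536 ≤ u := hge
  clear hge
  rcases Nat.lt_or_ge u 69632 with hlt | hge
  · have h := (allB2_iff _ _ _).mp slotsU16 (u - 65536) (by show u - 65536 < 32 * 128; omega)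
    have e : Nat.add 65536 (u - 65536) = u := by show 65536 + (u - 65536) = u; omega
    rw [e] at h
    exact h
  replace hlo : 69632 ≤ u := hge
  clear hge
  rcases Nat.lt_or_ge u 73728 with hlt | hge
  · have h := (allB2_iff _ _ _).mp slotsU17 (u - 69632) (by show u - 69632 < 32 * 128; omega)
    have e : Nat.add 69632 (u - 69632) = u := by show 69632 + (u - 69632) = u; omega
    rw [e] at h
    exact h
  replace hlo : 73728 ≤ u := hge
  clear hge
  rcases Nat.lt_or_ge u 77824 with hlt | hge
  · have h := (allB2_iff _ _ _).mp slotsU18 (u - 73728) (by show u - 73728 < 32 * 128; omega)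
    have e : Nat.add 73728 (u - 73728) = u := by show 73728 + (u - 73728) = u; omega
    rw [e] at h
    exact h
  replace hlo : 77824 ≤ u := hge
  clear hge
  rcases Nat.lt_or_ge u 81920 with hlt | hge
  · have h := (allB2_iff _ _ _).mp slotsU19 (u - 77824) (by show u - 77824 < 32 * 128; omega)
    have e : Nat.add 77824 (u - 77824) = u := by show 77824 + (u - 77824) = u; omega
    rw [e] at h
    exact h
  replace hlo : 81920 ≤ u := hge
  clear hge
  rcases Nat.lt_or_ge u 86016 with hlt | hge
  · have h := (allB2_iff _ _ _).mp slotsU20 (u - 81920) (by show u - 81920 < 32 * 128; omega)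
    have e : Nat.add 81920 (u - 81920) = u := by show 81920 + (u - 81920) = u; omega
    rw [e] at h
    exact h
  replace hlo : 86016 ≤ u := hge
  clear hge
  rcases Nat.lt_or_ge u 90112 with hlt | hge
  · have h := (allB2_iff _ _ _).mp slotsU21 (u - 86016) (by show u - 86016 < 32 * 128; omega)
    have e : Nat.add 86016 (u - 86016) = u := by show 86016 + (u - 86016) = u; omega
    rw [e] at h
    exact h
  replace hlo : 90112 ≤ u := hge
  clear hge
  rcases Nat.lt_or_ge u 94208 with hlt | hge
  · have h := (allB2_iff _ _ _).mp slotsU22 (u - 90112) (by show u - 90112 < 32 * 128; omega)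
    have e : Nat.add 90112 (u - 90112) = u := by show 90112 + (u - 90112) = u; omega
    rw [e] at h
    exact h
  replace hlo : 94208 ≤ u := hge
  clear hge
  rcases Nat.lt_or_ge u 98304 with hlt | hge
  · have h := (allB2_iff _ _ _).mp slotsU23 (u - 94208) (by show u - 94208 < 32 * 128; omega)
    have e : Nat.add 94208 (u - 94208) = u := by show 94208 + (u - 94208) = u; omega
    rw [e] at h
    exact h
  replace hlo : 98304 ≤ u := hge
  clear hge
  rcases Nat.lt_or_ge u 102400 with hlt | hge
  · have h := (allB2_iff _ _ _).mp slotsU24 (u - 98304) (by show u - 98304 < 32 * 128; omega)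
    have e : Nat.add 98304 (u - 98304) = u := by show 98304 + (u - 98304) = u; omega
    rw [e] at h
    exact h
  replace hlo : 102400 ≤ u := hge
  clear hge
  rcases Nat.lt_or_ge u 106496 with hlt | hge
  · have h := (allB2_iff _ _ _).mp slotsU25 (u - 102400) (by show u - 102400 < 32 * 128; omega)
    have e : Nat.add 102400 (u - 102400) = u := by show 102400 + (u - 102400) = u; omega
    rw [e] at h
    exact h
  replace hlo : 106496 ≤ u := hge
  clear hge
  rcases Nat.lt_or_ge u 110592 with hlt | hge
  · have h := (allB2_iff _ _ _).mp slotsU26 (u - 106496) (by show u - 106496 < 32 * 128; omega)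
    have e : Nat.add 106496 (u - 106496) = u := by show 106496 + (u - 106496) = u; omega
    rw [e] at h
    exact h
  replace hlo : 110592 ≤ u := hge
  clear hge
  rcases Nat.lt_or_ge u 114688 with hlt | hge
  · have h := (allB2_iff _ _ _).mp slotsU27 (u - 110592) (by show u - 110592 < 32 * 128; omega)
    have e : Nat.add 110592 (u - 110592) = u := by show 110592 + (u - 110592) = u; omega
    rw [e] at h
    exact h
  replace hlo : 114688 ≤ u := hge
  clear hge
  rcases Nat.lt_or_ge u 118784 with hlt | hge
  · have h := (allB2_iff _ _ _).mp slotsU28 (u - 114688) (by show u - 114688 < 32 * 128; omega)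
    have e : Nat.add 114688 (u - 114688) = u := by show 114688 + (u - 114688) = u; omega
    rw [e] at h
    exact h
  replace hlo : 118784 ≤ u := hge
  clear hge
  rcases Nat.lt_or_ge u 122880 with hlt | hge
  · have h := (allB2_iff _ _ _).mp slotsU29 (u - 118784) (by show u - 118784 < 32 * 128; omega)
    have e : Nat.add 118784 (u - 118784) = u := by show 118784 + (u - 118784) = u; omega
    rw [e] at h
    exact h
  replace hlo : 122880 ≤ u := hge
  clear hge
  rcases Nat.lt_or_ge u 126976 with hlt | hge
  · have h := (allB2_iff _ _ _).mp slotsU30 (u - 122880) (by show u - 122880 < 32 * 128; omega)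
    have e : Nat.add 122880 (u - 122880) = u := by show 122880 + (u - 122880) = u; omega
    rw [e] at h
    exact h
  replace hlo : 126976 ≤ u := hge
  clear hge
  rcases Nat.lt_or_ge u 131072 with hlt | hge
  · have h := (allB2_iff _ _ _).mp slotsU31 (u - 126976) (by show u - 126976 < 32 * 128; omega)
    have e : Nat.add 126976 (u - 126976) = u := by show 126976 + (u - 126976) = u; omega
    rw [e] at h
    exact h
  replace hlo : 131072 ≤ u := hge
  clear hge
  rcases Nat.lt_or_ge u 135168 with hlt | hge
  · have h := (allB2_iff _ _ _).mp slotsU32 (u - 131072) (by show u - 131072 < 32 * 128; omega)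
    have e : Nat.add 131072 (u - 131072) = u := by show 131072 + (u - 131072) = u; omega
    rw [e] at h
    exact h
  replace hlo : 135168 ≤ u := hge
  clear hge
  rcases Nat.lt_or_ge u 139264 with hlt | hge
  · have h := (allB2_iff _ _ _).mp slotsU33 (u - 135168) (by show u - 135168 < 32 * 128; omega)
    have e : Nat.add 135168 (u - 135168) = u := by show 135168 + (u - 135168) = u; omega
    rw [e] at h
    exact h
  replace hlo : 139264 ≤ u := hge
  clear hge
  rcases Nat.lt_or_ge u 143360 with hlt | hge
  · have h := (allB2_iff _ _ _).mp slotsU34 (u - 139264) (by show u - 139264 < 32 * 128; omega)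
    have e : Nat.add 139264 (u - 139264) = u := by show 139264 + (u - 139264) = u; omega
    rw [e] at h
    exact h
  replace hlo : 143360 ≤ u := hge
  clear hge
  rcases Nat.lt_or_ge u 147456 with hlt | hge
  · have h := (allB2_iff _ _ _).mp slotsU35 (u - 143360) (by show u - 143360 < 32 * 128; omega)
    have e : Nat.add 143360 (u - 143360) = u := by show 143360 + (u - 143360) = u; omega
    rw [e] at h
    exact h
  replace hlo : 147456 ≤ u := hge
  clear hge
  rcases Nat.lt_or_ge u 151552 with hlt | hge
  · have h := (allB2_iff _ _ _).mp slotsU36 (u - 147456) (by show u - 147456 < 32 * 128; omega)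
    have e : Nat.add 147456 (u - 147456) = u := by show 147456 + (u - 147456) = u; omega
    rw [e] at h
    exact h
  replace hlo : 151552 ≤ u := hge
  clear hge
  rcases Nat.lt_or_ge u 155648 with hlt | hge
  · have h := (allB2_iff _ _ _).mp slotsU37 (u - 151552) (by show u - 151552 < 32 * 128; omega)
    have e : Nat.add 151552 (u - 151552) = u := by show 151552 + (u - 151552) = u; omega
    rw [e] at h
    exact h
  replace hlo : 155648 ≤ u := hge
  clear hge
  rcases Nat.lt_or_ge u 159744 with hlt | hge
  · have h := (allB2_iff _ _ _).mp slotsU38 (u - 155648) (by show u - 155648 < 32 * 128; omega)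
    have e : Nat.add 155648 (u - 155648) = u := by show 155648 + (u - 155648) = u; omega
    rw [e] at h
    exact h
  replace hlo : 159744 ≤ u := hge
  clear hge
  rcases Nat.lt_or_ge u 163840 with hlt | hge
  · have h := (allB2_iff _ _ _).mp slotsU39 (u - 159744) (by show u - 159744 < 32 * 128; omega)
    have e : Nat.add 159744 (u - 159744) = u := by show 159744 + (u - 159744) = u; omega
    rw [e] at h
    exact h
  replace hlo : 163840 ≤ u := hge
  clear hge
  rcases Nat.lt_or_ge u 167936 with hlt | hge
  · have h := (allB2_iff _ _ _).mp slotsU40 (u - 163840) (by show u - 163840 < 32 * 128; omega)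
    have e : Nat.add 163840 (u - 163840) = u := by show 163840 + (u - 163840) = u; omega
    rw [e] at h
    exact h
  replace hlo : 167936 ≤ u := hge
  clear hge
  rcases Nat.lt_or_ge u 172032 with hlt | hge
  · have h := (allB2_iff _ _ _).mp slotsU41 (u - 167936) (by show u - 167936 < 32 * 128; omega)
    have e : Nat.add 167936 (u - 167936) = u := by show 167936 + (u - 167936) = u; omega
    rw [e] at h
    exact h
  replace hlo : 172032 ≤ u := hge
  clear hge
  rcases Nat.lt_or_ge u 176128 with hlt | hge
  · have h := (allB2_iff _ _ _).mp slotsU42 (u - 172032) (by show u - 172032 < 32 * 128; omega)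
    have e : Nat.add 172032 (u - 172032) = u := by show 172032 + (u - 172032) = u; omega
    rw [e] at h
    exact h
  replace hlo : 176128 ≤ u := hge
  clear hge
  rcases Nat.lt_or_ge u 180224 with hlt | hge
  · have h := (allB2_iff _ _ _).mp slotsU43 (u - 176128) (by show u - 176128 < 32 * 128; omega)
    have e : Nat.add 176128 (u - 176128) = u := by show 176128 + (u - 176128) = u; omega
    rw [e] at h
    exact h
  replace hlo : 180224 ≤ u := hge
  clear hge
  rcases Nat.lt_or_ge u 184320 with hlt | hge
  · have h := (allB2_iff _ _ _).mp slotsU44 (u - 180224) (by show u - 180224 < 32 * 128; omega)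
    have e : Nat.add 180224 (u - 180224) = u := by show 180224 + (u - 180224) = u; omega
    rw [e] at h
    exact h
  replace hlo : 184320 ≤ u := hge
  clear hge
  rcases Nat.lt_or_ge u 188416 with hlt | hge
  · have h := (allB2_iff _ _ _).mp slotsU45 (u - 184320) (by show u - 184320 < 32 * 128; omega)
    have e : Nat.add 184320 (u - 184320) = u := by show 184320 + (u - 184320) = u; omega
    rw [e] at h
    exact h
  replace hlo : 188416 ≤ u := hge
  clear hge
  rcases Nat.lt_or_ge u 192512 with hlt | hge
  · have h := (allB2_iff _ _ _).mp slotsU46 (u - 188416) (by show u - 188416 < 32 * 128; omega)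
    have e : Nat.add 188416 (u - 188416) = u := by show 188416 + (u - 188416) = u; omega
    rw [e] at h
    exact h
  replace hlo : 192512 ≤ u := hge
  clear hge
  rcases Nat.lt_or_ge u 196608 with hlt | hge
  · have h := (allB2_iff _ _ _).mp slotsU47 (u - 192512) (by show u - 192512 < 32 * 128; omega)
    have e : Nat.add 192512 (u - 192512) = u := by show 192512 + (u - 192512) = u; omega
    rw [e] at h
    exact h
  replace hlo : 196608 ≤ u := hge
  clear hge
  rcases Nat.lt_or_ge u 200704 with hlt | hge
  · have h := (allB2_iff _ _ _).mp slotsU48 (u - 196608) (by show u - 196608 < 32 * 128; omega)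
    have e : Nat.add 196608 (u - 196608) = u := by show 196608 + (u - 196608) = u; omega
    rw [e] at h
    exact h
  replace hlo : 200704 ≤ u := hge
  clear hge
  rcases Nat.lt_or_ge u 204800 with hlt | hge
  · have h := (allB2_iff _ _ _).mp slotsU49 (u - 200704) (by show u - 200704 < 32 * 128; omega)
    have e : Nat.add 200704 (u - 200704) = u := by show 200704 + (u - 200704) = u; omega
    rw [e] at h
    exact h
  replace hlo : 204800 ≤ u := hge
  clear hge
  rcases Nat.lt_or_ge u 208896 with hlt | hge
  · have h := (allB2_iff _ _ _).mp slotsU50 (u - 204800) (by show u - 204800 < 32 * 128; omega)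
    have e : Nat.add 204800 (u - 204800) = u := by show 204800 + (u - 204800) = u; omega
    rw [e] at h
    exact h
  replace hlo : 208896 ≤ u := hge
  clear hge
  rcases Nat.lt_or_ge u 212992 with hlt | hge
  · have h := (allB2_iff _ _ _).mp slotsU51 (u - 208896) (by show u - 208896 < 32 * 128; omega)
    have e : Nat.add 208896 (u - 208896) = u := by show 208896 + (u - 208896) = u; omega
    rw [e] at h
    exact h
  replace hlo : 212992 ≤ u := hge
  clear hge
  rcases Nat.lt_or_ge u 217088 with hlt | hge
  · have h := (allB2_iff _ _ _).mp slotsU52 (u - 212992) (by show u - 212992 < 32 * 128; omega)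
    have e : Nat.add 212992 (u - 212992) = u := by show 212992 + (u - 212992) = u; omega
    rw [e] at h
    exact h
  replace hlo : 217088 ≤ u := hge
  clear hge
  rcases Nat.lt_or_ge u 221184 with hlt | hge
  · have h := (allB2_iff _ _ _).mp slotsU53 (u - 217088) (by show u - 217088 < 32 * 128; omega)
    have e : Nat.add 217088 (u - 217088) = u := by show 217088 + (u - 217088) = u; omega
    rw [e] at h
    exact h
  replace hlo : 221184 ≤ u := hge
  clear hge
  rcases Nat.lt_or_ge u 225280 with hlt | hge
  · have h := (allB2_iff _ _ _).mp slotsU54 (u - 221184) (by show u - 221184 < 32 * 128; omega)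
    have e : Nat.add 221184 (u - 221184) = u := by show 221184 + (u - 221184) = u; omega
    rw [e] at h
    exact h
  replace hlo : 225280 ≤ u := hge
  clear hge
  rcases Nat.lt_or_ge u 229376 with hlt | hge
  · have h := (allB2_iff _ _ _).mp slotsU55 (u - 225280) (by show u - 225280 < 32 * 128; omega)
    have e : Nat.add 225280 (u - 225280) = u := by show 225280 + (u - 225280) = u; omega
    rw [e] at h
    exact h
  replace hlo : 229376 ≤ u := hge
  clear hge
  rcases Nat.lt_or_ge u 233472 with hlt | hge
  · have h := (allB2_iff _ _ _).mp slotsU56 (u - 229376) (by show u - 229376 < 32 * 128; omega)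
    have e : Nat.add 229376 (u - 229376) = u := by show 229376 + (u - 229376) = u; omega
    rw [e] at h
    exact h
  replace hlo : 233472 ≤ u := hge
  clear hge
  rcases Nat.lt_or_ge u 237568 with hlt | hge
  · have h := (allB2_iff _ _ _).mp slotsU57 (u - 233472) (by show u - 233472 < 32 * 128; omega)
    have e : Nat.add 233472 (u - 233472) = u := by show 233472 + (u - 233472) = u; omega
    rw [e] at h
    exact h
  replace hlo : 237568 ≤ u := hge
  clear hge
  rcases Nat.lt_or_ge u 241664 with hlt | hge
  · have h := (allB2_iff _ _ _).mp slotsU58 (u - 237568) (by show u - 237568 < 32 * 128; omega)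
    have e : Nat.add 237568 (u - 237568) = u := by show 237568 + (u - 237568) = u; omega
    rw [e] at h
    exact h
  replace hlo : 241664 ≤ u := hge
  clear hge
  rcases Nat.lt_or_ge u 245760 with hlt | hge
  · have h := (allB2_iff _ _ _).mp slotsU59 (u - 241664) (by show u - 241664 < 32 * 128; omega)
    have e : Nat.add 241664 (u - 241664) = u := by show 241664 + (u - 241664) = u; omega
    rw [e] at h
    exact h
  replace hlo : 245760 ≤ u := hge
  clear hge
  rcases Nat.lt_or_ge u 249856 with hlt | hge
  · have h := (allB2_iff _ _ _).mp slotsU60 (u - 245760) (by show u - 245760 < 32 * 128; omega)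
    have e : Nat.add 245760 (u - 245760) = u := by show 245760 + (u - 245760) = u; omega
    rw [e] at h
    exact h
  replace hlo : 249856 ≤ u := hge
  clear hge
  rcases Nat.lt_or_ge u 253952 with hlt | hge
  · have h := (allB2_iff _ _ _).mp slotsU61 (u - 249856) (by show u - 249856 < 32 * 128; omega)
    have e : Nat.add 249856 (u - 249856) = u := by show 249856 + (u - 249856) = u; omega
    rw [e] at h
    exact h
  replace hlo : 253952 ≤ u := hge
  clear hge
  rcases Nat.lt_or_ge u 258048 with hlt | hge
  · have h := (allB2_iff _ _ _).mp slotsU62 (u - 253952) (by show u - 253952 < 32 * 128; omega)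
    have e : Nat.add 253952 (u - 253952) = u := by show 253952 + (u - 253952) = u; omega
    rw [e] at h
    exact h
  replace hlo : 258048 ≤ u := hge
  clear hge
  rcases Nat.lt_or_ge u 262144 with hlt | hge
  · have h := (allB2_iff _ _ _).mp slotsU63 (u - 258048) (by show u - 258048 < 32 * 128; omega)
    have e : Nat.add 258048 (u - 258048) = u := by show 258048 + (u - 258048) = u; omega
    rw [e] at h
    exact h
  replace hlo : 262144 ≤ u := hge
  clear hge
  rcases Nat.lt_or_ge u 266240 with hlt | hge
  · have h := (allB2_iff _ _ _).mp slotsU64 (u - 262144) (by show u - 262144 < 32 * 128; omega)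
    have e : Nat.add 262144 (u - 262144) = u := by show 262144 + (u - 262144) = u; omega
    rw [e] at h
    exact h
  replace hlo : 266240 ≤ u := hge
  clear hge
  rcases Nat.lt_or_ge u 270336 with hlt | hge
  · have h := (allB2_iff _ _ _).mp slotsU65 (u - 266240) (by show u - 266240 < 32 * 128; omega)
    have e : Nat.add 266240 (u - 266240) = u := by show 266240 + (u - 266240) = u; omega
    rw [e] at h
    exact h
  replace hlo : 270336 ≤ u := hge
  clear hge
  rcases Nat.lt_or_ge u 274432 with hlt | hge
  · have h := (allB2_iff _ _ _).mp slotsU66 (u - 270336) (by show u - 270336 < 32 * 128; omega)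
    have e : Nat.add 270336 (u - 270336) = u := by show 270336 + (u - 270336) = u; omega
    rw [e] at h
    exact h
  replace hlo : 274432 ≤ u := hge
  clear hge
  rcases Nat.lt_or_ge u 278528 with hlt | hge
  · have h := (allB2_iff _ _ _).mp slotsU67 (u - 274432) (by show u - 274432 < 32 * 128; omega)
    have e : Nat.add 274432 (u - 274432) = u := by show 274432 + (u - 274432) = u; omega
    rw [e] at h
    exact h
  replace hlo : 278528 ≤ u := hge
  clear hge
  rcases Nat.lt_or_ge u 282624 with hlt | hge
  · have h := (allB2_iff _ _ _).mp slotsU68 (u - 278528) (by show u - 278528 < 32 * 128; omega)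
    have e : Nat.add 278528 (u - 278528) = u := by show 278528 + (u - 278528) = u; omega
    rw [e] at h
    exact h
  replace hlo : 282624 ≤ u := hge
  clear hge
  rcases Nat.lt_or_ge u 286720 with hlt | hge
  · have h := (allB2_iff _ _ _).mp slotsU69 (u - 282624) (by show u - 282624 < 32 * 128; omega)
    have e : Nat.add 282624 (u - 282624) = u := by show 282624 + (u - 282624) = u; omega
    rw [e] at h
    exact h
  replace hlo : 286720 ≤ u := hge
  clear hge
  rcases Nat.lt_or_ge u 290816 with hlt | hge
  · have h := (allB2_iff _ _ _).mp slotsU70 (u - 286720) (by show u - 286720 < 32 * 128; omega)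
    have e : Nat.add 286720 (u - 286720) = u := by show 286720 + (u - 286720) = u; omega
    rw [e] at h
    exact h
  replace hlo : 290816 ≤ u := hge
  clear hge
  rcases Nat.lt_or_ge u 294912 with hlt | hge
  · have h := (allB2_iff _ _ _).mp slotsU71 (u - 290816) (by show u - 290816 < 32 * 128; omega)
    have e : Nat.add 290816 (u - 290816) = u := by show 290816 + (u - 290816) = u; omega
    rw [e] at h
    exact h
  replace hlo : 294912 ≤ u := hge
  clear hge
  rcases Nat.lt_or_ge u 299008 with hlt | hge
  · have h := (allB2_iff _ _ _).mp slotsU72 (u - 294912) (by show u - 294912 < 32 * 128; omega)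
    have e : Nat.add 294912 (u - 294912) = u := by show 294912 + (u - 294912) = u; omega
    rw [e] at h
    exact h
  replace hlo : 299008 ≤ u := hge
  clear hge
  rcases Nat.lt_or_ge u 303104 with hlt | hge
  · have h := (allB2_iff _ _ _).mp slotsU73 (u - 299008) (by show u - 299008 < 32 * 128; omega)
    have e : Nat.add 299008 (u - 299008) = u := by show 299008 + (u - 299008) = u; omega
    rw [e] at h
    exact h
  replace hlo : 303104 ≤ u := hge
  clear hge
  rcases Nat.lt_or_ge u 307200 with hlt | hge
  · have h := (allB2_iff _ _ _).mp slotsU74 (u - 303104) (by show u - 303104 < 32 * 128; omega)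
    have e : Nat.add 303104 (u - 303104) = u := by show 303104 + (u - 303104) = u; omega
    rw [e] at h
    exact h
  replace hlo : 307200 ≤ u := hge
  clear hge
  rcases Nat.lt_or_ge u 311296 with hlt | hge
  · have h := (allB2_iff _ _ _).mp slotsU75 (u - 307200) (by show u - 307200 < 32 * 128; omega)
    have e : Nat.add 307200 (u - 307200) = u := by show 307200 + (u - 307200) = u; omega
    rw [e] at h
    exact h
  replace hlo : 311296 ≤ u := hge
  clear hge
  rcases Nat.lt_or_ge u 315392 with hlt | hge
  · have h := (allB2_iff _ _ _).mp slotsU76 (u - 311296) (by show u - 311296 < 32 * 128; omega)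
    have e : Nat.add 311296 (u - 311296) = u := by show 311296 + (u - 311296) = u; omega
    rw [e] at h
    exact h
  replace hlo : 315392 ≤ u := hge
  clear hge
  rcases Nat.lt_or_ge u 319488 with hlt | hge
  · have h := (allB2_iff _ _ _).mp slotsU77 (u - 315392) (by show u - 315392 < 32 * 128; omega)
    have e : Nat.add 315392 (u - 315392) = u := by show 315392 + (u - 315392) = u; omega
    rw [e] at h
    exact h
  replace hlo : 319488 ≤ u := hge
  clear hge
  rcases Nat.lt_or_ge u 323584 with hlt | hge
  · have h := (allB2_iff _ _ _).mp slotsU78 (u - 319488) (by show u - 319488 < 32 * 128; omega)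
    have e : Nat.add 319488 (u - 319488) = u := by show 319488 + (u - 319488) = u; omega
    rw [e] at h
    exact h
  replace hlo : 323584 ≤ u := hge
  clear hge
  rcases Nat.lt_or_ge u 327680 with hlt | hge
  · have h := (allB2_iff _ _ _).mp slotsU79 (u - 323584) (by show u - 323584 < 32 * 128; omega)
    have e : Nat.add 323584 (u - 323584) = u := by show 323584 + (u - 323584) = u; omega
    rw [e] at h
    exact h
  replace hlo : 327680 ≤ u := hge
  clear hge
  rcases Nat.lt_or_ge u 331776 with hlt | hge
  · have h := (allB2_iff _ _ _).mp slotsU80 (u - 327680) (by show u - 327680 < 32 * 128; omega)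
    have e : Nat.add 327680 (u - 327680) = u := by show 327680 + (u - 327680) = u; omega
    rw [e] at h
    exact h
  replace hlo : 331776 ≤ u := hge
  clear hge
  rcases Nat.lt_or_ge u 335872 with hlt | hge
  · have h := (allB2_iff _ _ _).mp slotsU81 (u - 331776) (by show u - 331776 < 32 * 128; omega)
    have e : Nat.add 331776 (u - 331776) = u := by show 331776 + (u - 331776) = u; omega
    rw [e] at h
    exact h
  replace hlo : 335872 ≤ u := hge
  clear hge
  rcases Nat.lt_or_ge u 339968 with hlt | hge
  · have h := (allB2_iff _ _ _).mp slotsU82 (u - 335872) (by show u - 335872 < 32 * 128; omega)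
    have e : Nat.add 335872 (u - 335872) = u := by show 335872 + (u - 335872) = u; omega
    rw [e] at h
    exact h
  replace hlo : 339968 ≤ u := hge
  clear hge
  rcases Nat.lt_or_ge u 344064 with hlt | hge
  · have h := (allB2_iff _ _ _).mp slotsU83 (u - 339968) (by show u - 339968 < 32 * 128; omega)
    have e : Nat.add 339968 (u - 339968) = u := by show 339968 + (u - 339968) = u; omega
    rw [e] at h
    exact h
  replace hlo : 344064 ≤ u := hge
  clear hge
  rcases Nat.lt_or_ge u 348160 with hlt | hge
  · have h := (allB2_iff _ _ _).mp slotsU84 (u - 344064) (by show u - 344064 < 32 * 128; omega)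
    have e : Nat.add 344064 (u - 344064) = u := by show 344064 + (u - 344064) = u; omega
    rw [e] at h
    exact h
  replace hlo : 348160 ≤ u := hge
  clear hge
  rcases Nat.lt_or_ge u 352256 with hlt | hge
  · have h := (allB2_iff _ _ _).mp slotsU85 (u - 348160) (by show u - 348160 < 32 * 128; omega)
    have e : Nat.add 348160 (u - 348160) = u := by show 348160 + (u - 348160) = u; omega
    rw [e] at h
    exact h
  replace hlo : 352256 ≤ u := hge
  clear hge
  rcases Nat.lt_or_ge u 356352 with hlt | hge
  · have h := (allB2_iff _ _ _).mp slotsU86 (u - 352256) (by show u - 352256 < 32 * 128; omega)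
    have e : Nat.add 352256 (u - 352256) = u := by show 352256 + (u - 352256) = u; omega
    rw [e] at h
    exact h
  replace hlo : 356352 ≤ u := hge
  clear hge
  rcases Nat.lt_or_ge u 360448 with hlt | hge
  · have h := (allB2_iff _ _ _).mp slotsU87 (u - 356352) (by show u - 356352 < 32 * 128; omega)
    have e : Nat.add 356352 (u - 356352) = u := by show 356352 + (u - 356352) = u; omega
    rw [e] at h
    exact h
  replace hlo : 360448 ≤ u := hge
  clear hge
  rcases Nat.lt_or_ge u 364544 with hlt | hge
  · have h := (allB2_iff _ _ _).mp slotsU88 (u - 360448) (by show u - 360448 < 32 * 128; omega)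
    have e : Nat.add 360448 (u - 360448) = u := by show 360448 + (u - 360448) = u; omega
    rw [e] at h
    exact h
  replace hlo : 364544 ≤ u := hge
  clear hge
  rcases Nat.lt_or_ge u 368640 with hlt | hge
  · have h := (allB2_iff _ _ _).mp slotsU89 (u - 364544) (by show u - 364544 < 32 * 128; omega)
    have e : Nat.add 364544 (u - 364544) = u := by show 364544 + (u - 364544) = u; omega
    rw [e] at h
    exact h
  replace hlo : 368640 ≤ u := hge
  clear hge
  rcases Nat.lt_or_ge u 372736 with hlt | hge
  · have h := (allB2_iff _ _ _).mp slotsU90 (u - 368640) (by show u - 368640 < 32 * 128; omega)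
    have e : Nat.add 368640 (u - 368640) = u := by show 368640 + (u - 368640) = u; omega
    rw [e] at h
    exact h
  replace hlo : 372736 ≤ u := hge
  clear hge
  rcases Nat.lt_or_ge u 376832 with hlt | hge
  · have h := (allB2_iff _ _ _).mp slotsU91 (u - 372736) (by show u - 372736 < 32 * 128; omega)
    have e : Nat.add 372736 (u - 372736) = u := by show 372736 + (u - 372736) = u; omega
    rw [e] at h
    exact h
  replace hlo : 376832 ≤ u := hge
  clear hge
  rcases Nat.lt_or_ge u 380928 with hlt | hge
  · have h := (allB2_iff _ _ _).mp slotsU92 (u - 376832) (by show u - 376832 < 32 * 128; omega)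
    have e : Nat.add 376832 (u - 376832) = u := by show 376832 + (u - 376832) = u; omega
    rw [e] at h
    exact h
  replace hlo : 380928 ≤ u := hge
  clear hge
  rcases Nat.lt_or_ge u 385024 with hlt | hge
  · have h := (allB2_iff _ _ _).mp slotsU93 (u - 380928) (by show u - 380928 < 32 * 128; omega)
    have e : Nat.add 380928 (u - 380928) = u := by show 380928 + (u - 380928) = u; omega
    rw [e] at h
    exact h
  replace hlo : 385024 ≤ u := hge
  clear hge
  rcases Nat.lt_or_ge u 389120 with hlt | hge
  · have h := (allB2_iff _ _ _).mp slotsU94 (u - 385024) (by show u - 385024 < 32 * 128; omega)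
    have e : Nat.add 385024 (u - 385024) = u := by show 385024 + (u - 385024) = u; omega
    rw [e] at h
    exact h
  replace hlo : 389120 ≤ u := hge
  clear hge
  rcases Nat.lt_or_ge u 393216 with hlt | hge
  · have h := (allB2_iff _ _ _).mp slotsU95 (u - 389120) (by show u - 389120 < 32 * 128; omega)
    have e : Nat.add 389120 (u - 389120) = u := by show 389120 + (u - 389120) = u; omega
    rw [e] at h
    exact h
  replace hlo : 393216 ≤ u := hge
  clear hge
  have h := (allB2_iff _ _ _).mp slotsU96 (u - 393216) (by show u - 393216 < 2 * 619; omega)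
  have e : Nat.add 393216 (u - 393216) = u := by show 393216 + (u - 393216) = u; omega
  rw [e] at h
  exact h

theorem links_all : ∀ u < 394454, chkLinkB u = true := by
  intro u hu
  have hlo : 0 ≤ u := Nat.zero_le u
  rcases Nat.lt_or_ge u 49280 with hlt | hge
  · have h := (allB2_iff _ _ _).mp linksW0 (u - 0) (by show u - 0 < 385 * 128; omega)
    have e : Nat.add 0 (u - 0) = u := by show 0 + (u - 0) = u; omega
    rw [e] at h
    exact h
  replace hlo : 49280 ≤ u := hge
  clear hge
  rcases Nat.lt_or_ge u 98560 with hlt | hge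
  · have h := (allB2_iff _ _ _).mp linksW1 (u - 49280) (by show u - 49280 < 385 * 128; omega)
    have e : Nat.add 49280 (u - 49280) = u := by show 49280 + (u - 49280) = u; omega
    rw [e] at h
    exact h
  replace hlo : 98560 ≤ u := hge
  clear hge
  rcases Nat.lt_or_ge u 147840 with hlt | hge
  · have h := (allB2_iff _ _ _).mp linksW2 (u - 98560) (by show u - 98560 < 385 * 128; omega)
    have e : Nat.add 98560 (u - 98560) = u := by show 98560 + (u - 98560) = u; omega
    rw [e] at h
    exact h
  replace hlo : 147840 ≤ u := hge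
  clear hge
  rcases Nat.lt_or_ge u 197120 with hlt | hge
  · have h := (allB2_iff _ _ _).mp linksW3 (u - 147840) (by show u - 147840 < 385 * 128; omega)
    have e : Nat.add 147840 (u - 147840) = u := by show 147840 + (u - 147840) = u; omega
    rw [e] at h
    exact h
  replace hlo : 197120 ≤ u := hge
  clear hge
  rcases Nat.lt_or_ge u 246400 with hlt | hge
  · have h := (allB2_iff _ _ _).mp linksW4 (u - 197120) (by show u - 197120 < 385 * 128; omega)
    have e : Nat.add 197120 (u - 197120) = u := by show 197120 + (u - 197120) = u; omega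
    rw [e] at h
    exact h
  replace hlo : 246400 ≤ u := hge
  clear hge
  rcases Nat.lt_or_ge u 295680 with hlt | hge
  · have h := (allB2_iff _ _ _).mp linksW5 (u - 246400) (by show u - 246400 < 385 * 128; omega)
    have e : Nat.add 246400 (u - 246400) = u := by show 246400 + (u - 246400) = u; omega
    rw [e] at h
    exact h
  replace hlo : 295680 ≤ u := hge
  clear hge
  rcases Nat.lt_or_ge u 344960 with hlt | hge
  · have h := (allB2_iff _ _ _).mp linksW6 (u - 295680) (by show u - 295680 < 385 * 128; omega)
    have e : Nat.add 295680 (u - 295680) = u := by show 295680 + (u - 295680) = u; omega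
    rw [e] at h
    exact h
  replace hlo : 344960 ≤ u := hge
  clear hge
  rcases Nat.lt_or_ge u 394240 with hlt | hge
  · have h := (allB2_iff _ _ _).mp linksW7 (u - 344960) (by show u - 344960 < 385 * 128; omega)
    have e : Nat.add 344960 (u - 344960) = u := by show 344960 + (u - 344960) = u; omega
    rw [e] at h
    exact h
  replace hlo : 394240 ≤ u := hge
  clear hge
  have h := (allB2_iff _ _ _).mp linksB (u - 394240) (by show u - 394240 < 2 * 107; omega)
  have e : Nat.add 394240 (u - 394240) = u := by show 394240 + (u - 394240) = u; omega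
  rw [e] at h
  exact h

theorem final_all : ∀ u < 394454, chkFinalB u = true := by
  intro u hu
  have hlo : 0 ≤ u := Nat.zero_le u
  rcases Nat.lt_or_ge u 49280 with hlt | hge
  · have h := (allB2_iff _ _ _).mp finalV0 (u - 0) (by show u - 0 < 385 * 128; omega)
    have e : Nat.add 0 (u - 0) = u := by show 0 + (u - 0) = u; omega
    rw [e] at h
    exact h
  replace hlo : 49280 ≤ u := hge
  clear hge
  rcases Nat.lt_or_ge u 98560 with hlt | hge
  · have h := (allB2_iff _ _ _).mp finalV1 (u - 49280) (by show u - 49280 < 385 * 128; omega)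
    have e : Nat.add 49280 (u - 49280) = u := by show 49280 + (u - 49280) = u; omega
    rw [e] at h
    exact h
  replace hlo : 98560 ≤ u := hge
  clear hge
  rcases Nat.lt_or_ge u 147840 with hlt | hge
  · have h := (allB2_iff _ _ _).mp finalV2 (u - 98560) (by show u - 98560 < 385 * 128; omega)
    have e : Nat.add 98560 (u - 98560) = u := by show 98560 + (u - 98560) = u; omega
    rw [e] at h
    exact h
  replace hlo : 147840 ≤ u := hge
  clear hge
  rcases Nat.lt_or_ge u 197120 with hlt | hge
  · have h := (allB2_iff _ _ _).mp finalV3 (u - 147840) (by show u - 147840 < 385 * 128; omega)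
    have e : Nat.add 147840 (u - 147840) = u := by show 147840 + (u - 147840) = u; omega
    rw [e] at h
    exact h
  replace hlo : 197120 ≤ u := hge
  clear hge
  rcases Nat.lt_or_ge u 246400 with hlt | hge
  · have h := (allB2_iff _ _ _).mp finalV4 (u - 197120) (by show u - 197120 < 385 * 128; omega)
    have e : Nat.add 197120 (u - 197120) = u := by show 197120 + (u - 197120) = u; omega
    rw [e] at h
    exact h
  replace hlo : 246400 ≤ u := hge
  clear hge
  rcases Nat.lt_or_ge u 295680 with hlt | hge
  · have h := (allB2_iff _ _ _).mp finalV5 (u - 246400) (by show u - 246400 < 385 * 128; omega)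
    have e : Nat.add 246400 (u - 246400) = u := by show 246400 + (u - 246400) = u; omega
    rw [e] at h
    exact h
  replace hlo : 295680 ≤ u := hge
  clear hge
  rcases Nat.lt_or_ge u 344960 with hlt | hge
  · have h := (allB2_iff _ _ _).mp finalV6 (u - 295680) (by show u - 295680 < 385 * 128; omega)
    have e : Nat.add 295680 (u - 295680) = u := by show 295680 + (u - 295680) = u; omega
    rw [e] at h
    exact h
  replace hlo : 344960 ≤ u := hge
  clear hge
  rcases Nat.lt_or_ge u 394240 with hlt | hge
  · have h := (allB2_iff _ _ _).mp finalV7 (u - 344960) (by show u - 344960 < 385 * 128; omega)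
    have e : Nat.add 344960 (u - 344960) = u := by show 344960 + (u - 344960) = u; omega
    rw [e] at h
    exact h
  replace hlo : 394240 ≤ u := hge
  clear hge
  have h := (allB2_iff _ _ _).mp finalB (u - 394240) (by show u - 394240 < 2 * 107; omega)
  have e : Nat.add 394240 (u - 394240) = u := by show 394240 + (u - 394240) = u; omega
  rw [e] at h
  exact h

theorem points_all : ∀ u < 306936, chkPoint u = true := by
  intro u hu
  have hlo : 0 ≤ u := Nat.zero_le u
  rcases Nat.lt_or_ge u 3200 with hlt | hge
  · have h := (allB2_iff _ _ _).mp pointsD0 (u - 0) (by show u - 0 < 25 * 128; omega)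
    have e : Nat.add 0 (u - 0) = u := by show 0 + (u - 0) = u; omega
    rw [e] at h
    exact h
  replace hlo : 3200 ≤ u := hge
  clear hge
  rcases Nat.lt_or_ge u 6400 with hlt | hge
  · have h := (allB2_iff _ _ _).mp pointsD1 (u - 3200) (by show u - 3200 < 25 * 128; omega)
    have e : Nat.add 3200 (u - 3200) = u := by show 3200 + (u - 3200) = u; omega
    rw [e] at h
    exact h
  replace hlo : 6400 ≤ u := hge
  clear hge
  rcases Nat.lt_or_ge u 9600 with hlt | hge
  · have h := (allB2_iff _ _ _).mp pointsD2 (u - 6400) (by show u - 6400 < 25 * 128; omega)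
    have e : Nat.add 6400 (u - 6400) = u := by show 6400 + (u - 6400) = u; omega
    rw [e] at h
    exact h
  replace hlo : 9600 ≤ u := hge
  clear hge
  rcases Nat.lt_or_ge u 12800 with hlt | hge
  · have h := (allB2_iff _ _ _).mp pointsD3 (u - 9600) (by show u - 9600 < 25 * 128; omega)
    have e : Nat.add 9600 (u - 9600) = u := by show 9600 + (u - 9600) = u; omega
    rw [e] at h
    exact h
  replace hlo : 12800 ≤ u := hge
  clear hge
  rcases Nat.lt_or_ge u 16000 with hlt | hge
  · have h := (allB2_iff _ _ _).mp pointsD4 (u - 12800) (by show u - 12800 < 25 * 128; omega)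
    have e : Nat.add 12800 (u - 12800) = u := by show 12800 + (u - 12800) = u; omega
    rw [e] at h
    exact h
  replace hlo : 16000 ≤ u := hge
  clear hge
  rcases Nat.lt_or_ge u 19200 with hlt | hge
  · have h := (allB2_iff _ _ _).mp pointsD5 (u - 16000) (by show u - 16000 < 25 * 128; omega)
    have e : Nat.add 16000 (u - 16000) = u := by show 16000 + (u - 16000) = u; omega
    rw [e] at h
    exact h
  replace hlo : 19200 ≤ u := hge
  clear hge
  rcases Nat.lt_or_ge u 22400 with hlt | hge
  · have h := (allB2_iff _ _ _).mp pointsD6 (u - 19200) (by show u - 19200 < 25 * 128; omega)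
    have e : Nat.add 19200 (u - 19200) = u := by show 19200 + (u - 19200) = u; omega
    rw [e] at h
    exact h
  replace hlo : 22400 ≤ u := hge
  clear hge
  rcases Nat.lt_or_ge u 25600 with hlt | hge
  · have h := (allB2_iff _ _ _).mp pointsD7 (u - 22400) (by show u - 22400 < 25 * 128; omega)
    have e : Nat.add 22400 (u - 22400) = u := by show 22400 + (u - 22400) = u; omega
    rw [e] at h
    exact h
  replace hlo : 25600 ≤ u := hge
  clear hge
  rcases Nat.lt_or_ge u 28800 with hlt | hge
  · have h := (allB2_iff _ _ _).mp pointsD8 (u - 25600) (by show u - 25600 < 25 * 128; omega)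
    have e : Nat.add 25600 (u - 25600) = u := by show 25600 + (u - 25600) = u; omega
    rw [e] at h
    exact h
  replace hlo : 28800 ≤ u := hge
  clear hge
  rcases Nat.lt_or_ge u 32000 with hlt | hge
  · have h := (allB2_iff _ _ _).mp pointsD9 (u - 28800) (by show u - 28800 < 25 * 128; omega)
    have e : Nat.add 28800 (u - 28800) = u := by show 28800 + (u - 28800) = u; omega
    rw [e] at h
    exact h
  replace hlo : 32000 ≤ u := hge
  clear hge
  rcases Nat.lt_or_ge u 35200 with hlt | hge
  · have h := (allB2_iff _ _ _).mp pointsD10 (u - 32000) (by show u - 32000 < 25 * 128; omega)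
    have e : Nat.add 32000 (u - 32000) = u := by show 32000 + (u - 32000) = u; omega
    rw [e] at h
    exact h
  replace hlo : 35200 ≤ u := hge
  clear hge
  rcases Nat.lt_or_ge u 38400 with hlt | hge
  · have h := (allB2_iff _ _ _).mp pointsD11 (u - 35200) (by show u - 35200 < 25 * 128; omega)
    have e : Nat.add 35200 (u - 35200) = u := by show 35200 + (u - 35200) = u; omega
    rw [e] at h
    exact h
  replace hlo : 38400 ≤ u := hge
  clear hge
  rcases Nat.lt_or_ge u 41600 with hlt | hge
  · have h := (allB2_iff _ _ _).mp pointsD12 (u - 38400) (by show u - 38400 < 25 * 128; omega)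
    have e : Nat.add 38400 (u - 38400) = u := by show 38400 + (u - 38400) = u; omega
    rw [e] at h
    exact h
  replace hlo : 41600 ≤ u := hge
  clear hge
  rcases Nat.lt_or_ge u 44800 with hlt | hge
  · have h := (allB2_iff _ _ _).mp pointsD13 (u - 41600) (by show u - 41600 < 25 * 128; omega)
    have e : Nat.add 41600 (u - 41600) = u := by show 41600 + (u - 41600) = u; omega
    rw [e] at h
    exact h
  replace hlo : 44800 ≤ u := hge
  clear hge
  rcases Nat.lt_or_ge u 48000 with hlt | hge
  · have h := (allB2_iff _ _ _).mp pointsD14 (u - 44800) (by show u - 44800 < 25 * 128; omega)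
    have e : Nat.add 44800 (u - 44800) = u := by show 44800 + (u - 44800) = u; omega
    rw [e] at h
    exact h
  replace hlo : 48000 ≤ u := hge
  clear hge
  rcases Nat.lt_or_ge u 51200 with hlt | hge
  · have h := (allB2_iff _ _ _).mp pointsD15 (u - 48000) (by show u - 48000 < 25 * 128; omega)
    have e : Nat.add 48000 (u - 48000) = u := by show 48000 + (u - 48000) = u; omega
    rw [e] at h
    exact h
  replace hlo : 51200 ≤ u := hge
  clear hge
  rcases Nat.lt_or_ge u 54400 with hlt | hge
  · have h := (allB2_iff _ _ _).mp pointsD16 (u - 51200) (by show u - 51200 < 25 * 128; omega)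
    have e : Nat.add 51200 (u - 51200) = u := by show 51200 + (u - 51200) = u; omega
    rw [e] at h
    exact h
  replace hlo : 54400 ≤ u := hge
  clear hge
  rcases Nat.lt_or_ge u 57600 with hlt | hge
  · have h := (allB2_iff _ _ _).mp pointsD17 (u - 54400) (by show u - 54400 < 25 * 128; omega)
    have e : Nat.add 54400 (u - 54400) = u := by show 54400 + (u - 54400) = u; omega
    rw [e] at h
    exact h
  replace hlo : 57600 ≤ u := hge
  clear hge
  rcases Nat.lt_or_ge u 60800 with hlt | hge
  · have h := (allB2_iff _ _ _).mp pointsD18 (u - 57600) (by show u - 57600 < 25 * 128; omega)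
    have e : Nat.add 57600 (u - 57600) = u := by show 57600 + (u - 57600) = u; omega
    rw [e] at h
    exact h
  replace hlo : 60800 ≤ u := hge
  clear hge
  rcases Nat.lt_or_ge u 64000 with hlt | hge
  · have h := (allB2_iff _ _ _).mp pointsD19 (u - 60800) (by show u - 60800 < 25 * 128; omega)
    have e : Nat.add 60800 (u - 60800) = u := by show 60800 + (u - 60800) = u; omega
    rw [e] at h
    exact h
  replace hlo : 64000 ≤ u := hge
  clear hge
  rcases Nat.lt_or_ge u 67200 with hlt | hge
  · have h := (allB2_iff _ _ _).mp pointsD20 (u - 64000) (by show u - 64000 < 25 * 128; omega)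
    have e : Nat.add 64000 (u - 64000) = u := by show 64000 + (u - 64000) = u; omega
    rw [e] at h
    exact h
  replace hlo : 67200 ≤ u := hge
  clear hge
  rcases Nat.lt_or_ge u 70400 with hlt | hge
  · have h := (allB2_iff _ _ _).mp pointsD21 (u - 67200) (by show u - 67200 < 25 * 128; omega)
    have e : Nat.add 67200 (u - 67200) = u := by show 67200 + (u - 67200) = u; omega
    rw [e] at h
    exact h
  replace hlo : 70400 ≤ u := hge
  clear hge
  rcases Nat.lt_or_ge u 73600 with hlt | hge
  · have h := (allB2_iff _ _ _).mp pointsD22 (u - 70400) (by show u - 70400 < 25 * 128; omega)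
    have e : Nat.add 70400 (u - 70400) = u := by show 70400 + (u - 70400) = u; omega
    rw [e] at h
    exact h
  replace hlo : 73600 ≤ u := hge
  clear hge
  rcases Nat.lt_or_ge u 76800 with hlt | hge
  · have h := (allB2_iff _ _ _).mp pointsD23 (u - 73600) (by show u - 73600 < 25 * 128; omega)
    have e : Nat.add 73600 (u - 73600) = u := by show 73600 + (u - 73600) = u; omega
    rw [e] at h
    exact h
  replace hlo : 76800 ≤ u := hge
  clear hge
  rcases Nat.lt_or_ge u 80000 with hlt | hge
  · have h := (allB2_iff _ _ _).mp pointsD24 (u - 76800) (by show u - 76800 < 25 * 128; omega)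
    have e : Nat.add 76800 (u - 76800) = u := by show 76800 + (u - 76800) = u; omega
    rw [e] at h
    exact h
  replace hlo : 80000 ≤ u := hge
  clear hge
  rcases Nat.lt_or_ge u 83200 with hlt | hge
  · have h := (allB2_iff _ _ _).mp pointsD25 (u - 80000) (by show u - 80000 < 25 * 128; omega)
    have e : Nat.add 80000 (u - 80000) = u := by show 80000 + (u - 80000) = u; omega
    rw [e] at h
    exact h
  replace hlo : 83200 ≤ u := hge
  clear hge
  rcases Nat.lt_or_ge u 86400 with hlt | hge
  · have h := (allB2_iff _ _ _).mp pointsD26 (u - 83200) (by show u - 83200 < 25 * 128; omega)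
    have e : Nat.add 83200 (u - 83200) = u := by show 83200 + (u - 83200) = u; omega
    rw [e] at h
    exact h
  replace hlo : 86400 ≤ u := hge
  clear hge
  rcases Nat.lt_or_ge u 89600 with hlt | hge
  · have h := (allB2_iff _ _ _).mp pointsD27 (u - 86400) (by show u - 86400 < 25 * 128; omega)
    have e : Nat.add 86400 (u - 86400) = u := by show 86400 + (u - 86400) = u; omega
    rw [e] at h
    exact h
  replace hlo : 89600 ≤ u := hge
  clear hge
  rcases Nat.lt_or_ge u 92800 with hlt | hge
  · have h := (allB2_iff _ _ _).mp pointsD28 (u - 89600) (by show u - 89600 < 25 * 128; omega)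
    have e : Nat.add 89600 (u - 89600) = u := by show 89600 + (u - 89600) = u; omega
    rw [e] at h
    exact h
  replace hlo : 92800 ≤ u := hge
  clear hge
  rcases Nat.lt_or_ge u 96000 with hlt | hge
  · have h := (allB2_iff _ _ _).mp pointsD29 (u - 92800) (by show u - 92800 < 25 * 128; omega)
    have e : Nat.add 92800 (u - 92800) = u := by show 92800 + (u - 92800) = u; omega
    rw [e] at h
    exact h
  replace hlo : 96000 ≤ u := hge
  clear hge
  rcases Nat.lt_or_ge u 99200 with hlt | hge
  · have h := (allB2_iff _ _ _).mp pointsD30 (u - 96000) (by show u - 96000 < 25 * 128; omega)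
    have e : Nat.add 96000 (u - 96000) = u := by show 96000 + (u - 96000) = u; omega
    rw [e] at h
    exact h
  replace hlo : 99200 ≤ u := hge
  clear hge
  rcases Nat.lt_or_ge u 102400 with hlt | hge
  · have h := (allB2_iff _ _ _).mp pointsD31 (u - 99200) (by show u - 99200 < 25 * 128; omega)
    have e : Nat.add 99200 (u - 99200) = u := by show 99200 + (u - 99200) = u; omega
    rw [e] at h
    exact h
  replace hlo : 102400 ≤ u := hge
  clear hge
  rcases Nat.lt_or_ge u 105600 with hlt | hge
  · have h := (allB2_iff _ _ _).mp pointsD32 (u - 102400) (by show u - 102400 < 25 * 128; omega)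
    have e : Nat.add 102400 (u - 102400) = u := by show 102400 + (u - 102400) = u; omega
    rw [e] at h
    exact h
  replace hlo : 105600 ≤ u := hge
  clear hge
  rcases Nat.lt_or_ge u 108800 with hlt | hge
  · have h := (allB2_iff _ _ _).mp pointsD33 (u - 105600) (by show u - 105600 < 25 * 128; omega)
    have e : Nat.add 105600 (u - 105600) = u := by show 105600 + (u - 105600) = u; omega
    rw [e] at h
    exact h
  replace hlo : 108800 ≤ u := hge
  clear hge
  rcases Nat.lt_or_ge u 112000 with hlt | hge
  · have h := (allB2_iff _ _ _).mp pointsD34 (u - 108800) (by show u - 108800 < 25 * 128; omega)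
    have e : Nat.add 108800 (u - 108800) = u := by show 108800 + (u - 108800) = u; omega
    rw [e] at h
    exact h
  replace hlo : 112000 ≤ u := hge
  clear hge
  rcases Nat.lt_or_ge u 115200 with hlt | hge
  · have h := (allB2_iff _ _ _).mp pointsD35 (u - 112000) (by show u - 112000 < 25 * 128; omega)
    have e : Nat.add 112000 (u - 112000) = u := by show 112000 + (u - 112000) = u; omega
    rw [e] at h
    exact h
  replace hlo : 115200 ≤ u := hge
  clear hge
  rcases Nat.lt_or_ge u 118400 with hlt | hge
  · have h := (allB2_iff _ _ _).mp pointsD36 (u - 115200) (by show u - 115200 < 25 * 128; omega)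
    have e : Nat.add 115200 (u - 115200) = u := by show 115200 + (u - 115200) = u; omega
    rw [e] at h
    exact h
  replace hlo : 118400 ≤ u := hge
  clear hge
  rcases Nat.lt_or_ge u 121600 with hlt | hge
  · have h := (allB2_iff _ _ _).mp pointsD37 (u - 118400) (by show u - 118400 < 25 * 128; omega)
    have e : Nat.add 118400 (u - 118400) = u := by show 118400 + (u - 118400) = u; omega
    rw [e] at h
    exact h
  replace hlo : 121600 ≤ u := hge
  clear hge
  rcases Nat.lt_or_ge u 124800 with hlt | hge
  · have h := (allB2_iff _ _ _).mp pointsD38 (u - 121600) (by show u - 121600 < 25 * 128; omega)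
    have e : Nat.add 121600 (u - 121600) = u := by show 121600 + (u - 121600) = u; omega
    rw [e] at h
    exact h
  replace hlo : 124800 ≤ u := hge
  clear hge
  rcases Nat.lt_or_ge u 128000 with hlt | hge
  · have h := (allB2_iff _ _ _).mp pointsD39 (u - 124800) (by show u - 124800 < 25 * 128; omega)
    have e : Nat.add 124800 (u - 124800) = u := by show 124800 + (u - 124800) = u; omega
    rw [e] at h
    exact h
  replace hlo : 128000 ≤ u := hge
  clear hge
  rcases Nat.lt_or_ge u 131200 with hlt | hge
  · have h := (allB2_iff _ _ _).mp pointsD40 (u - 128000) (by show u - 128000 < 25 * 128; omega)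
    have e : Nat.add 128000 (u - 128000) = u := by show 128000 + (u - 128000) = u; omega
    rw [e] at h
    exact h
  replace hlo : 131200 ≤ u := hge
  clear hge
  rcases Nat.lt_or_ge u 134400 with hlt | hge
  · have h := (allB2_iff _ _ _).mp pointsD41 (u - 131200) (by show u - 131200 < 25 * 128; omega)
    have e : Nat.add 131200 (u - 131200) = u := by show 131200 + (u - 131200) = u; omega
    rw [e] at h
    exact h
  replace hlo : 134400 ≤ u := hge
  clear hge
  rcases Nat.lt_or_ge u 137600 with hlt | hge
  · have h := (allB2_iff _ _ _).mp pointsD42 (u - 134400) (by show u - 134400 < 25 * 128; omega)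
    have e : Nat.add 134400 (u - 134400) = u := by show 134400 + (u - 134400) = u; omega
    rw [e] at h
    exact h
  replace hlo : 137600 ≤ u := hge
  clear hge
  rcases Nat.lt_or_ge u 140800 with hlt | hge
  · have h := (allB2_iff _ _ _).mp pointsD43 (u - 137600) (by show u - 137600 < 25 * 128; omega)
    have e : Nat.add 137600 (u - 137600) = u := by show 137600 + (u - 137600) = u; omega
    rw [e] at h
    exact h
  replace hlo : 140800 ≤ u := hge
  clear hge
  rcases Nat.lt_or_ge u 144000 with hlt | hge
  · have h := (allB2_iff _ _ _).mp pointsD44 (u - 140800) (by show u - 140800 < 25 * 128; omega)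
    have e : Nat.add 140800 (u - 140800) = u := by show 140800 + (u - 140800) = u; omega
    rw [e] at h
    exact h
  replace hlo : 144000 ≤ u := hge
  clear hge
  rcases Nat.lt_or_ge u 147200 with hlt | hge
  · have h := (allB2_iff _ _ _).mp pointsD45 (u - 144000) (by show u - 144000 < 25 * 128; omega)
    have e : Nat.add 144000 (u - 144000) = u := by show 144000 + (u - 144000) = u; omega
    rw [e] at h
    exact h
  replace hlo : 147200 ≤ u := hge
  clear hge
  rcases Nat.lt_or_ge u 150400 with hlt | hge
  · have h := (allB2_iff _ _ _).mp pointsD46 (u - 147200) (by show u - 147200 < 25 * 128; omega)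
    have e : Nat.add 147200 (u - 147200) = u := by show 147200 + (u - 147200) = u; omega
    rw [e] at h
    exact h
  replace hlo : 150400 ≤ u := hge
  clear hge
  rcases Nat.lt_or_ge u 153600 with hlt | hge
  · have h := (allB2_iff _ _ _).mp pointsD47 (u - 150400) (by show u - 150400 < 25 * 128; omega)
    have e : Nat.add 150400 (u - 150400) = u := by show 150400 + (u - 150400) = u; omega
    rw [e] at h
    exact h
  replace hlo : 153600 ≤ u := hge
  clear hge
  rcases Nat.lt_or_ge u 156800 with hlt | hge
  · have h := (allB2_iff _ _ _).mp pointsD48 (u - 153600) (by show u - 153600 < 25 * 128; omega)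
    have e : Nat.add 153600 (u - 153600) = u := by show 153600 + (u - 153600) = u; omega
    rw [e] at h
    exact h
  replace hlo : 156800 ≤ u := hge
  clear hge
  rcases Nat.lt_or_ge u 160000 with hlt | hge
  · have h := (allB2_iff _ _ _).mp pointsD49 (u - 156800) (by show u - 156800 < 25 * 128; omega)
    have e : Nat.add 156800 (u - 156800) = u := by show 156800 + (u - 156800) = u; omega
    rw [e] at h
    exact h
  replace hlo : 160000 ≤ u := hge
  clear hge
  rcases Nat.lt_or_ge u 163200 with hlt | hge
  · have h := (allB2_iff _ _ _).mp pointsD50 (u - 160000) (by show u - 160000 < 25 * 128; omega)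
    have e : Nat.add 160000 (u - 160000) = u := by show 160000 + (u - 160000) = u; omega
    rw [e] at h
    exact h
  replace hlo : 163200 ≤ u := hge
  clear hge
  rcases Nat.lt_or_ge u 166400 with hlt | hge
  · have h := (allB2_iff _ _ _).mp pointsD51 (u - 163200) (by show u - 163200 < 25 * 128; omega)
    have e : Nat.add 163200 (u - 163200) = u := by show 163200 + (u - 163200) = u; omega
    rw [e] at h
    exact h
  replace hlo : 166400 ≤ u := hge
  clear hge
  rcases Nat.lt_or_ge u 169600 with hlt | hge
  · have h := (allB2_iff _ _ _).mp pointsD52 (u - 166400) (by show u - 166400 < 25 * 128; omega)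
    have e : Nat.add 166400 (u - 166400) = u := by show 166400 + (u - 166400) = u; omega
    rw [e] at h
    exact h
  replace hlo : 169600 ≤ u := hge
  clear hge
  rcases Nat.lt_or_ge u 172800 with hlt | hge
  · have h := (allB2_iff _ _ _).mp pointsD53 (u - 169600) (by show u - 169600 < 25 * 128; omega)
    have e : Nat.add 169600 (u - 169600) = u := by show 169600 + (u - 169600) = u; omega
    rw [e] at h
    exact h
  replace hlo : 172800 ≤ u := hge
  clear hge
  rcases Nat.lt_or_ge u 176000 with hlt | hge
  · have h := (allB2_iff _ _ _).mp pointsD54 (u - 172800) (by show u - 172800 < 25 * 128; omega)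
    have e : Nat.add 172800 (u - 172800) = u := by show 172800 + (u - 172800) = u; omega
    rw [e] at h
    exact h
  replace hlo : 176000 ≤ u := hge
  clear hge
  rcases Nat.lt_or_ge u 179200 with hlt | hge
  · have h := (allB2_iff _ _ _).mp pointsD55 (u - 176000) (by show u - 176000 < 25 * 128; omega)
    have e : Nat.add 176000 (u - 176000) = u := by show 176000 + (u - 176000) = u; omega
    rw [e] at h
    exact h
  replace hlo : 179200 ≤ u := hge
  clear hge
  rcases Nat.lt_or_ge u 182400 with hlt | hge
  · have h := (allB2_iff _ _ _).mp pointsD56 (u - 179200) (by show u - 179200 < 25 * 128; omega)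
    have e : Nat.add 179200 (u - 179200) = u := by show 179200 + (u - 179200) = u; omega
    rw [e] at h
    exact h
  replace hlo : 182400 ≤ u := hge
  clear hge
  rcases Nat.lt_or_ge u 185600 with hlt | hge
  · have h := (allB2_iff _ _ _).mp pointsD57 (u - 182400) (by show u - 182400 < 25 * 128; omega)
    have e : Nat.add 182400 (u - 182400) = u := by show 182400 + (u - 182400) = u; omega
    rw [e] at h
    exact h
  replace hlo : 185600 ≤ u := hge
  clear hge
  rcases Nat.lt_or_ge u 188800 with hlt | hge
  · have h := (allB2_iff _ _ _).mp pointsD58 (u - 185600) (by show u - 185600 < 25 * 128; omega)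
    have e : Nat.add 185600 (u - 185600) = u := by show 185600 + (u - 185600) = u; omega
    rw [e] at h
    exact h
  replace hlo : 188800 ≤ u := hge
  clear hge
  rcases Nat.lt_or_ge u 192000 with hlt | hge
  · have h := (allB2_iff _ _ _).mp pointsD59 (u - 188800) (by show u - 188800 < 25 * 128; omega)
    have e : Nat.add 188800 (u - 188800) = u := by show 188800 + (u - 188800) = u; omega
    rw [e] at h
    exact h
  replace hlo : 192000 ≤ u := hge
  clear hge
  rcases Nat.lt_or_ge u 195200 with hlt | hge
  · have h := (allB2_iff _ _ _).mp pointsD60 (u - 192000) (by show u - 192000 < 25 * 128; omega)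
    have e : Nat.add 192000 (u - 192000) = u := by show 192000 + (u - 192000) = u; omega
    rw [e] at h
    exact h
  replace hlo : 195200 ≤ u := hge
  clear hge
  rcases Nat.lt_or_ge u 198400 with hlt | hge
  · have h := (allB2_iff _ _ _).mp pointsD61 (u - 195200) (by show u - 195200 < 25 * 128; omega)
    have e : Nat.add 195200 (u - 195200) = u := by show 195200 + (u - 195200) = u; omega
    rw [e] at h
    exact h
  replace hlo : 198400 ≤ u := hge
  clear hge
  rcases Nat.lt_or_ge u 201600 with hlt | hge
  · have h := (allB2_iff _ _ _).mp pointsD62 (u - 198400) (by show u - 198400 < 25 * 128; omega)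
    have e : Nat.add 198400 (u - 198400) = u := by show 198400 + (u - 198400) = u; omega
    rw [e] at h
    exact h
  replace hlo : 201600 ≤ u := hge
  clear hge
  rcases Nat.lt_or_ge u 204800 with hlt | hge
  · have h := (allB2_iff _ _ _).mp pointsD63 (u - 201600) (by show u - 201600 < 25 * 128; omega)
    have e : Nat.add 201600 (u - 201600) = u := by show 201600 + (u - 201600) = u; omega
    rw [e] at h
    exact h
  replace hlo : 204800 ≤ u := hge
  clear hge
  rcases Nat.lt_or_ge u 208000 with hlt | hge
  · have h := (allB2_iff _ _ _).mp pointsD64 (u - 204800) (by show u - 204800 < 25 * 128; omega)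
    have e : Nat.add 204800 (u - 204800) = u := by show 204800 + (u - 204800) = u; omega
    rw [e] at h
    exact h
  replace hlo : 208000 ≤ u := hge
  clear hge
  rcases Nat.lt_or_ge u 211200 with hlt | hge
  · have h := (allB2_iff _ _ _).mp pointsD65 (u - 208000) (by show u - 208000 < 25 * 128; omega)
    have e : Nat.add 208000 (u - 208000) = u := by show 208000 + (u - 208000) = u; omega
    rw [e] at h
    exact h
  replace hlo : 211200 ≤ u := hge
  clear hge
  rcases Nat.lt_or_ge u 214400 with hlt | hge
  · have h := (allB2_iff _ _ _).mp pointsD66 (u - 211200) (by show u - 211200 < 25 * 128; omega)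
    have e : Nat.add 211200 (u - 211200) = u := by show 211200 + (u - 211200) = u; omega
    rw [e] at h
    exact h
  replace hlo : 214400 ≤ u := hge
  clear hge
  rcases Nat.lt_or_ge u 217600 with hlt | hge
  · have h := (allB2_iff _ _ _).mp pointsD67 (u - 214400) (by show u - 214400 < 25 * 128; omega)
    have e : Nat.add 214400 (u - 214400) = u := by show 214400 + (u - 214400) = u; omega
    rw [e] at h
    exact h
  replace hlo : 217600 ≤ u := hge
  clear hge
  rcases Nat.lt_or_ge u 220800 with hlt | hge
  · have h := (allB2_iff _ _ _).mp pointsD68 (u - 217600) (by show u - 217600 < 25 * 128; omega)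
    have e : Nat.add 217600 (u - 217600) = u := by show 217600 + (u - 217600) = u; omega
    rw [e] at h
    exact h
  replace hlo : 220800 ≤ u := hge
  clear hge
  rcases Nat.lt_or_ge u 224000 with hlt | hge
  · have h := (allB2_iff _ _ _).mp pointsD69 (u - 220800) (by show u - 220800 < 25 * 128; omega)
    have e : Nat.add 220800 (u - 220800) = u := by show 220800 + (u - 220800) = u; omega
    rw [e] at h
    exact h
  replace hlo : 224000 ≤ u := hge
  clear hge
  rcases Nat.lt_or_ge u 227200 with hlt | hge
  · have h := (allB2_iff _ _ _).mp pointsD70 (u - 224000) (by show u - 224000 < 25 * 128; omega)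
    have e : Nat.add 224000 (u - 224000) = u := by show 224000 + (u - 224000) = u; omega
    rw [e] at h
    exact h
  replace hlo : 227200 ≤ u := hge
  clear hge
  rcases Nat.lt_or_ge u 230400 with hlt | hge
  · have h := (allB2_iff _ _ _).mp pointsD71 (u - 227200) (by show u - 227200 < 25 * 128; omega)
    have e : Nat.add 227200 (u - 227200) = u := by show 227200 + (u - 227200) = u; omega
    rw [e] at h
    exact h
  replace hlo : 230400 ≤ u := hge
  clear hge
  rcases Nat.lt_or_ge u 233600 with hlt | hge
  · have h := (allB2_iff _ _ _).mp pointsD72 (u - 230400) (by show u - 230400 < 25 * 128; omega)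
    have e : Nat.add 230400 (u - 230400) = u := by show 230400 + (u - 230400) = u; omega
    rw [e] at h
    exact h
  replace hlo : 233600 ≤ u := hge
  clear hge
  rcases Nat.lt_or_ge u 236800 with hlt | hge
  · have h := (allB2_iff _ _ _).mp pointsD73 (u - 233600) (by show u - 233600 < 25 * 128; omega)
    have e : Nat.add 233600 (u - 233600) = u := by show 233600 + (u - 233600) = u; omega
    rw [e] at h
    exact h
  replace hlo : 236800 ≤ u := hge
  clear hge
  rcases Nat.lt_or_ge u 240000 with hlt | hge
  · have h := (allB2_iff _ _ _).mp pointsD74 (u - 236800) (by show u - 236800 < 25 * 128; omega)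
    have e : Nat.add 236800 (u - 236800) = u := by show 236800 + (u - 236800) = u; omega
    rw [e] at h
    exact h
  replace hlo : 240000 ≤ u := hge
  clear hge
  rcases Nat.lt_or_ge u 243200 with hlt | hge
  · have h := (allB2_iff _ _ _).mp pointsD75 (u - 240000) (by show u - 240000 < 25 * 128; omega)
    have e : Nat.add 240000 (u - 240000) = u := by show 240000 + (u - 240000) = u; omega
    rw [e] at h
    exact h
  replace hlo : 243200 ≤ u := hge
  clear hge
  rcases Nat.lt_or_ge u 246400 with hlt | hge
  · have h := (allB2_iff _ _ _).mp pointsD76 (u - 243200) (by show u - 243200 < 25 * 128; omega)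
    have e : Nat.add 243200 (u - 243200) = u := by show 243200 + (u - 243200) = u; omega
    rw [e] at h
    exact h
  replace hlo : 246400 ≤ u := hge
  clear hge
  rcases Nat.lt_or_ge u 249600 with hlt | hge
  · have h := (allB2_iff _ _ _).mp pointsD77 (u - 246400) (by show u - 246400 < 25 * 128; omega)
    have e : Nat.add 246400 (u - 246400) = u := by show 246400 + (u - 246400) = u; omega
    rw [e] at h
    exact h
  replace hlo : 249600 ≤ u := hge
  clear hge
  rcases Nat.lt_or_ge u 252800 with hlt | hge
  · have h := (allB2_iff _ _ _).mp pointsD78 (u - 249600) (by show u - 249600 < 25 * 128; omega)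
    have e : Nat.add 249600 (u - 249600) = u := by show 249600 + (u - 249600) = u; omega
    rw [e] at h
    exact h
  replace hlo : 252800 ≤ u := hge
  clear hge
  rcases Nat.lt_or_ge u 256000 with hlt | hge
  · have h := (allB2_iff _ _ _).mp pointsD79 (u - 252800) (by show u - 252800 < 25 * 128; omega)
    have e : Nat.add 252800 (u - 252800) = u := by show 252800 + (u - 252800) = u; omega
    rw [e] at h
    exact h
  replace hlo : 256000 ≤ u := hge
  clear hge
  rcases Nat.lt_or_ge u 259200 with hlt | hge
  · have h := (allB2_iff _ _ _).mp pointsD80 (u - 256000) (by show u - 256000 < 25 * 128; omega)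
    have e : Nat.add 256000 (u - 256000) = u := by show 256000 + (u - 256000) = u; omega
    rw [e] at h
    exact h
  replace hlo : 259200 ≤ u := hge
  clear hge
  rcases Nat.lt_or_ge u 262400 with hlt | hge
  · have h := (allB2_iff _ _ _).mp pointsD81 (u - 259200) (by show u - 259200 < 25 * 128; omega)
    have e : Nat.add 259200 (u - 259200) = u := by show 259200 + (u - 259200) = u; omega
    rw [e] at h
    exact h
  replace hlo : 262400 ≤ u := hge
  clear hge
  rcases Nat.lt_or_ge u 265600 with hlt | hge
  · have h := (allB2_iff _ _ _).mp pointsD82 (u - 262400) (by show u - 262400 < 25 * 128; omega)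
    have e : Nat.add 262400 (u - 262400) = u := by show 262400 + (u - 262400) = u; omega
    rw [e] at h
    exact h
  replace hlo : 265600 ≤ u := hge
  clear hge
  rcases Nat.lt_or_ge u 268800 with hlt | hge
  · have h := (allB2_iff _ _ _).mp pointsD83 (u - 265600) (by show u - 265600 < 25 * 128; omega)
    have e : Nat.add 265600 (u - 265600) = u := by show 265600 + (u - 265600) = u; omega
    rw [e] at h
    exact h
  replace hlo : 268800 ≤ u := hge
  clear hge
  rcases Nat.lt_or_ge u 272000 with hlt | hge
  · have h := (allB2_iff _ _ _).mp pointsD84 (u - 268800) (by show u - 268800 < 25 * 128; omega)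
    have e : Nat.add 268800 (u - 268800) = u := by show 268800 + (u - 268800) = u; omega
    rw [e] at h
    exact h
  replace hlo : 272000 ≤ u := hge
  clear hge
  rcases Nat.lt_or_ge u 275200 with hlt | hge
  · have h := (allB2_iff _ _ _).mp pointsD85 (u - 272000) (by show u - 272000 < 25 * 128; omega)
    have e : Nat.add 272000 (u - 272000) = u := by show 272000 + (u - 272000) = u; omega
    rw [e] at h
    exact h
  replace hlo : 275200 ≤ u := hge
  clear hge
  rcases Nat.lt_or_ge u 278400 with hlt | hge
  · have h := (allB2_iff _ _ _).mp pointsD86 (u - 275200) (by show u - 275200 < 25 * 128; omega)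
    have e : Nat.add 275200 (u - 275200) = u := by show 275200 + (u - 275200) = u; omega
    rw [e] at h
    exact h
  replace hlo : 278400 ≤ u := hge
  clear hge
  rcases Nat.lt_or_ge u 281600 with hlt | hge
  · have h := (allB2_iff _ _ _).mp pointsD87 (u - 278400) (by show u - 278400 < 25 * 128; omega)
    have e : Nat.add 278400 (u - 278400) = u := by show 278400 + (u - 278400) = u; omega
    rw [e] at h
    exact h
  replace hlo : 281600 ≤ u := hge
  clear hge
  rcases Nat.lt_or_ge u 284800 with hlt | hge
  · have h := (allB2_iff _ _ _).mp pointsD88 (u - 281600) (by show u - 281600 < 25 * 128; omega)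
    have e : Nat.add 281600 (u - 281600) = u := by show 281600 + (u - 281600) = u; omega
    rw [e] at h
    exact h
  replace hlo : 284800 ≤ u := hge
  clear hge
  rcases Nat.lt_or_ge u 288000 with hlt | hge
  · have h := (allB2_iff _ _ _).mp pointsD89 (u - 284800) (by show u - 284800 < 25 * 128; omega)
    have e : Nat.add 284800 (u - 284800) = u := by show 284800 + (u - 284800) = u; omega
    rw [e] at h
    exact h
  replace hlo : 288000 ≤ u := hge
  clear hge
  rcases Nat.lt_or_ge u 291200 with hlt | hge
  · have h := (allB2_iff _ _ _).mp pointsD90 (u - 288000) (by show u - 288000 < 25 * 128; omega)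
    have e : Nat.add 288000 (u - 288000) = u := by show 288000 + (u - 288000) = u; omega
    rw [e] at h
    exact h
  replace hlo : 291200 ≤ u := hge
  clear hge
  rcases Nat.lt_or_ge u 294400 with hlt | hge
  · have h := (allB2_iff _ _ _).mp pointsD91 (u - 291200) (by show u - 291200 < 25 * 128; omega)
    have e : Nat.add 291200 (u - 291200) = u := by show 291200 + (u - 291200) = u; omega
    rw [e] at h
    exact h
  replace hlo : 294400 ≤ u := hge
  clear hge
  rcases Nat.lt_or_ge u 297600 with hlt | hge
  · have h := (allB2_iff _ _ _).mp pointsD92 (u - 294400) (by show u - 294400 < 25 * 128; omega)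
    have e : Nat.add 294400 (u - 294400) = u := by show 294400 + (u - 294400) = u; omega
    rw [e] at h
    exact h
  replace hlo : 297600 ≤ u := hge
  clear hge
  rcases Nat.lt_or_ge u 300800 with hlt | hge
  · have h := (allB2_iff _ _ _).mp pointsD93 (u - 297600) (by show u - 297600 < 25 * 128; omega)
    have e : Nat.add 297600 (u - 297600) = u := by show 297600 + (u - 297600) = u; omega
    rw [e] at h
    exact h
  replace hlo : 300800 ≤ u := hge
  clear hge
  rcases Nat.lt_or_ge u 304000 with hlt | hge
  · have h := (allB2_iff _ _ _).mp pointsD94 (u - 300800) (by show u - 300800 < 25 * 128; omega)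
    have e : Nat.add 300800 (u - 300800) = u := by show 300800 + (u - 300800) = u; omega
    rw [e] at h
    exact h
  replace hlo : 304000 ≤ u := hge
  clear hge
  rcases Nat.lt_or_ge u 306816 with hlt | hge
  · have h := (allB2_iff _ _ _).mp pointsD95 (u - 304000) (by show u - 304000 < 22 * 128; omega)
    have e : Nat.add 304000 (u - 304000) = u := by show 304000 + (u - 304000) = u; omega
    rw [e] at h
    exact h
  replace hlo : 306816 ≤ u := hge
  clear hge
  have h := (allB2_iff _ _ _).mp pointsD96 (u - 306816) (by show u - 306816 < 1 * 120; omega)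
  have e : Nat.add 306816 (u - 306816) = u := by show 306816 + (u - 306816) = u; omega
  rw [e] at h
  exact h

end Cfsg.Agent.Lib.Helper9.Fi24C
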