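import Mathlib
import Cfsg.Prelude.Def_Spor_Fi24
import Cfsg.Agent.Lib.Helper9.Fi24Chk
import Cfsg.Agent.Lib.Helper9.FCUpper

set_option autoImplicit false

/-!
# The index of `2 × Fi23` in the presented group `Fi24`, from the checks of the certificate

The checks of the certificate are hypotheses here; the kernel computations are in other files.
-/

namespace Cfsg.Agent.Lib.Helper9.Fi24C

open Cfsg.Agent.Lib.Helper9.FC
open Cfsg Cfsg.Spor

/-- The relators of `Fi24`. -/
abbrev fiRels : Set (FreeGroup Fi24.Gen) := coxRelators Fi24.edges ∪ {r | r ∈ Fi24.extra}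

/-- The subgroup generated by the generators other than `k`. -/
abbrev fiH : Subgroup (PresentedGroup fiRels) :=
  (Subgroup.closure ({Fi24.a, Fi24.b, Fi24.c, Fi24.d, Fi24.e, Fi24.f, Fi24.g, Fi24.h, Fi24.i,
    Fi24.j, Fi24.l} : Set (FreeGroup Fi24.Gen))).map (PresentedGroup.mk fiRels)

/-- The generator of a letter. -/
def gen : ℕ → Fi24.Gen
  | 0 => .l
  | 1 => .k
  | 2 => .a
  | 3 => .b
  | 4 => .c
  | 5 => .d
  | 6 => .e
  | 7 => .f
  | 8 => .g
  | 9 => .j
  | 10 => .h
  | _ => .i

/-- The letter of a generator. -/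
def ltr : Fi24.Gen → ℕ
  | .l => 0
  | .k => 1
  | .a => 2
  | .b => 3
  | .c => 4
  | .d => 5
  | .e => 6
  | .f => 7
  | .g => 8
  | .j => 9
  | .h => 10
  | .i => 11

theorem gen_ltr (x : Fi24.Gen) : gen (ltr x) = x := by cases x <;> rfl

theorem ltr_lt (x : Fi24.Gen) : ltr x < 12 := by cases x <;> decide

theorem ltr_gen : ∀ y < 12, ltr (gen y) = y := by decide

theorem ltr_inj {x y : Fi24.Gen} (h : ltr x = ltr y) : x = y := by
  rw [← gen_ltr x, ← gen_ltr y, h]

/-- The value of a letter in the presented group. -/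
def val (y : ℕ) : PresentedGroup fiRels := PresentedGroup.of (gen y)

theorem mem_nodes (x : Fi24.Gen) : x ∈ coxNodes Fi24.edges := by cases x <;> decide

theorem cox_rel (x y : Fi24.Gen) :
    ((PresentedGroup.of x : PresentedGroup fiRels) * PresentedGroup.of y) ^
      coxLabel Fi24.edges x y = 1 := by
  have h : (FreeGroup.of x * FreeGroup.of y) ^ coxLabel Fi24.edges x y ∈ fiRels :=
    Or.inl ⟨x, mem_nodes x, y, mem_nodes y, rfl⟩
  have h2 := PresentedGroup.one_of_mem h
  simpa [PresentedGroup.of] using h2

theorem lab_self (x : Fi24.Gen) : coxLabel Fi24.edges x x = 1 := by simp [coxLabel]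

theorem val_sq (y : ℕ) : val y * val y = 1 := by
  have h := cox_rel (gen y) (gen y)
  rw [lab_self, pow_one] at h
  exact h

theorem val_inv (y : ℕ) : (val y)⁻¹ = val y := inv_eq_of_mul_eq_one_left (val_sq y)

/-- The product of a reversed word of involutions. -/
theorem prod_reverse_inv {P : Type*} [Group P] (σ : ℕ → P) (hσ : ∀ y, σ y * σ y = 1)
    (w : List ℕ) : ((w.reverse).map σ).prod = ((w.map σ).prod)⁻¹ := by
  induction w with
  | nil => simp
  | cons y ys ih =>
    rw [List.reverse_cons, List.map_append, List.prod_append, ih]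
    simp only [List.map_cons, List.map_nil, List.prod_cons, List.prod_nil, mul_one, mul_inv_rev]
    rw [inv_eq_of_mul_eq_one_left (hσ y)]

/-! ### The relators as words in the letters -/

theorem cox_word (s t : ℕ) :
    (((List.replicate (coxLabel Fi24.edges (gen s) (gen t)) [s, t]).flatten).map val).prod
      = 1 := by
  rw [prod_flatten_replicate]
  have h := cox_rel (gen s) (gen t)
  simpa [val] using h

theorem coxL_shape : ∀ w ∈ coxL,
    w = (List.replicate (coxLabel Fi24.edges (gen (w.getD 0 0)) (gen (w.getD 1 0)))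
      [w.getD 0 0, w.getD 1 0]).flatten := by
  decide +kernel

theorem extL_eq : extL = [[0] ++ (List.replicate 9 u7L).flatten,
    (List.replicate 9 u7L.reverse).flatten ++ [0],
    (List.replicate 17 w14L).flatten, (List.replicate 17 w14L.reverse).flatten] := by
  decide +kernel

theorem u7_prod : ((u7L.reverse).map val).prod = PresentedGroup.mk fiRels
    (Fi24.a * Fi24.b * Fi24.c * Fi24.d * Fi24.e * Fi24.f * Fi24.h) := by
  simp only [u7L, List.reverse_cons, List.reverse_nil, List.nil_append, List.cons_append,
    List.map_cons, List.map_nil, List.prod_cons, List.prod_nil, mul_one, map_mul, val, gen,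
    PresentedGroup.of, mul_assoc]

theorem w14_prod : (w14L.map val).prod = PresentedGroup.mk fiRels
    (Fi24.d * Fi24.c * Fi24.b * Fi24.a * Fi24.k * Fi24.l * Fi24.d * Fi24.e * Fi24.f * Fi24.g *
      Fi24.j * Fi24.d * Fi24.h * Fi24.i) := by
  simp only [w14L, List.map_cons, List.map_nil, List.prod_cons, List.prod_nil, mul_one, map_mul,
    val, gen, PresentedGroup.of, mul_assoc]

theorem r1_val : val 0 * ((u7L.map val).prod) ^ 9 = 1 := by
  have hm : Fi24.l * ((Fi24.a * Fi24.b * Fi24.c * Fi24.d * Fi24.e * Fi24.f * Fi24.h) ^ 9)⁻¹ ∈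
      fiRels := Or.inr (by simp [Fi24.extra])
  have h := PresentedGroup.one_of_mem hm
  rw [map_mul, map_inv, map_pow, ← u7_prod, prod_reverse_inv val val_sq, inv_pow, inv_inv] at h
  exact h

theorem r2_val : ((w14L.map val).prod) ^ 17 = 1 := by
  have hm : (Fi24.d * Fi24.c * Fi24.b * Fi24.a * Fi24.k * Fi24.l * Fi24.d * Fi24.e * Fi24.f *
      Fi24.g * Fi24.j * Fi24.d * Fi24.h * Fi24.i) ^ 17 ∈ fiRels := Or.inr (by simp [Fi24.extra])
  have h := PresentedGroup.one_of_mem hm
  rw [map_pow, ← w14_prod] at h
  exact h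

theorem relList_prod : ∀ w ∈ relList, (w.map val).prod = 1 := by
  intro w hw
  unfold relList at hw
  rcases List.mem_append.mp hw with hc | he
  · rw [coxL_shape w hc]
    exact cox_word _ _
  · rw [extL_eq] at he
    simp only [List.mem_cons, List.not_mem_nil, or_false] at he
    rcases he with rfl | rfl | rfl | rfl
    · rw [List.map_append, List.prod_append, prod_flatten_replicate]
      simpa using r1_val
    · rw [List.map_append, List.prod_append, prod_flatten_replicate,
        prod_reverse_inv val val_sq]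
      have h := r1_val
      have h2 : ((u7L.map val).prod⁻¹) ^ 9 * val 0 = (val 0 * ((u7L.map val).prod) ^ 9)⁻¹ := by
        rw [mul_inv_rev, val_inv, inv_pow]
      simp only [List.map_cons, List.map_nil, List.prod_cons, List.prod_nil, mul_one]
      rw [h2, h, inv_one]
    · rw [prod_flatten_replicate]
      exact r2_val
    · rw [prod_flatten_replicate, prod_reverse_inv val val_sq, inv_pow, r2_val, inv_one]

theorem relList_lt : ∀ w ∈ relList, ∀ y ∈ w, y < 12 := by
  decide +kernel

theorem relW_mem (ρ : ℕ) : relW ρ ∈ relList ∨ relW ρ = [] := by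
  unfold relW
  rw [lgetL_eq]
  by_cases h : ρ < relList.length
  · left
    rw [List.getD_eq_getElem _ _ h]
    exact List.getElem_mem h
  · right
    rw [List.getD_eq_default _ _ (not_lt.mp h)]

/-! ### The upper bound -/

theorem mem_gens (x : Fi24.Gen) (hx : x ≠ Fi24.Gen.k) :
    FreeGroup.of x ∈ ({Fi24.a, Fi24.b, Fi24.c, Fi24.d, Fi24.e, Fi24.f, Fi24.g, Fi24.h, Fi24.i,
      Fi24.j, Fi24.l} : Set (FreeGroup Fi24.Gen)) := by
  cases x <;> simp at hx ⊢

theorem subB_ne {y : ℕ} (h : subB y = true) : y ≠ 1 := by
  rintro rfl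
  exact absurd h (by decide)

theorem gen_ne_k {y : ℕ} (h : y ≠ 1) : gen y ≠ Fi24.Gen.k := by
  unfold gen
  split <;> simp_all

theorem val_mem_H (y : ℕ) (h : subB y = true) : val y ∈ fiH :=
  Subgroup.mem_map_of_mem _ (Subgroup.subset_closure (mem_gens _ (gen_ne_k (subB_ne h))))

theorem val_gen (g : PresentedGroup fiRels) :
    g ∈ Submonoid.closure (val '' {y | y < 12}) := by
  have hinvc : ∀ x ∈ Submonoid.closure (val '' {y | y < 12}),
      x⁻¹ ∈ Submonoid.closure (val '' {y | y < 12}) := by
    intro x hx
    refine Submonoid.closure_induction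
      (motive := fun x _ => x⁻¹ ∈ Submonoid.closure (val '' {y | y < 12})) ?_ ?_ ?_ hx
    · rintro _ ⟨y, hy, rfl⟩
      rw [val_inv y]
      exact Submonoid.subset_closure ⟨y, hy, rfl⟩
    · rw [inv_one]
      exact Submonoid.one_mem _
    · intro a b _ _ ha hb
      rw [mul_inv_rev]
      exact Submonoid.mul_mem _ hb ha
  have htop : g ∈ Subgroup.closure (Set.range (PresentedGroup.of (rels := fiRels))) := by
    rw [PresentedGroup.closure_range_of]
    exact Subgroup.mem_top g
  refine Subgroup.closure_induction
    (p := fun g _ => g ∈ Submonoid.closure (val '' {y | y < 12})) ?_ ?_ ?_ ?_ htop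
  · rintro _ ⟨x, rfl⟩
    exact Submonoid.subset_closure ⟨ltr x, ltr_lt x, by rw [val, gen_ltr]⟩
  · exact Submonoid.one_mem _
  · intro a b _ _ ha hb
    exact Submonoid.mul_mem _ ha hb
  · intro a _ ha
    exact hinvc a ha

/-- The upper bound of the index, from the checks of the certificate. -/
theorem upper_bound (hs : ∀ u < 394454, chkRow u = true)
    (hl : ∀ u < 394454, chkLinkB u = true) (hf : ∀ u < 394454, chkFinalB u = true)
    (hcnt : cnt2 finB 0 386 1024 = 306936)
    (hrowM : allB 12 (fun y => Nat.beq (hot 394454 y) 8796093022207) = true)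
    (hroot : Nat.beq (lnk 0) 4398046511103 = true) :
    fiH.index ≠ 0 ∧ fiH.index ≤ 306936 := by
  have hcov := cover (H := fiH) (val := val) (hot := hot) (cold := cold) (lnk := lnk) (lj := lj)
    (tr := tr) (inv := invF) (relW := relW) (subB := subB) (M := 394454) (k := 12)
    (by decide)
    (fun y hy => Nat.eq_of_beq_eq_true ((allB_iff _ _).mp hrowM y hy))
    (fun y hy => ⟨hy, (val_inv y).symm⟩)
    (fun ρ => by
      rcases relW_mem ρ with h | h
      · exact relList_prod _ h
      · rw [h]
        rfl)
    (fun ρ y hy => by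
      rcases relW_mem ρ with h | h
      · exact relList_lt _ h y hy
      · rw [h] at hy
        exact absurd hy (List.not_mem_nil))
    val_mem_H
    (fun u hu y hy => by
      have h := hs u hu
      unfold chkRow at h
      rw [forceN_eq] at h
      exact (allB_iff _ _).mp h y hy)
    hl hf (by decide) (Nat.eq_of_beq_eq_true hroot) val_gen
  have h1 := index_le_of_cover fiH (Wd val tr)
    ((Finset.range 394454).filter (fun u => finB u = true)) (fun g => by
      obtain ⟨c, hc, hlc, hr⟩ := hcov g
      refine ⟨c, ?_, hr⟩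
      rw [Finset.mem_filter, Finset.mem_range]
      refine ⟨hc, ?_⟩
      unfold finB
      rw [hlc]
      rfl)
  have h2 := card_filter_le finB 394454 386 1024 (by decide)
  rw [hcnt] at h2
  exact ⟨h1.1, le_trans h1.2 h2⟩

/-! ### The lower bound -/

theorem labF_cases : ∀ s < 12, ∀ t < s, labF s t = 2 ∨ labF s t = 3 := by
  decide +kernel

theorem lab_eq (x y : Fi24.Gen) : ltr y < ltr x →
    coxLabel Fi24.edges x y = labF (ltr x) (ltr y) ∧
    coxLabel Fi24.edges y x = labF (ltr x) (ltr y) := by
  cases x <;> cases y <;> decide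

theorem cs16_eq : cs16 = List.replicate 16 12 := by decide

theorem cs9_eq : cs9 = List.replicate 9 13 := by decide

theorem w14_lt : ∀ y ∈ w14L, y < 12 := by decide

theorem u7_lt : ∀ y ∈ u7L, y < 12 := by decide

theorem invF_spec : ∀ y < 12, invF y < 12 ∧ invF (invF y) = y := fun _ hy => ⟨hy, rfl⟩

section LowerBound

variable (hp : ∀ i < 306936, chkPoint i = true)

include hp

theorem point_perm : ∀ i < 306936, ∀ y < 12, tf i y < 306936 ∧ tf (tf i y) (invF y) = i := by
  intro i hi y hy
  have h := (band_iff _ _).mp (hp i hi)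
  exact chkPerm_spec h.1 hy

theorem point_cox {i : ℕ} (hi : i < 306936) : chkCox tf labF 12 i = true :=
  ((band_iff _ _).mp ((band_iff _ _).mp (hp i hi)).2).1

theorem point_pow {i : ℕ} (hi : i < 306936) : chkPow tf w14L cs16 12 i = true :=
  ((band_iff _ _).mp ((band_iff _ _).mp ((band_iff _ _).mp (hp i hi)).2).2).1

theorem point_lin {i : ℕ} (hi : i < 306936) : chkLin tf u7L cs9 13 0 i = true :=
  ((band_iff _ _).mp ((band_iff _ _).mp ((band_iff _ _).mp
    ((band_iff _ _).mp (hp i hi)).2).2).2).1

theorem point_tree : ∀ i < 306936, 1 ≤ i → chkTree tf tp 12 i = true := by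
  intro i hi h1
  have h := ((band_iff _ _).mp ((band_iff _ _).mp ((band_iff _ _).mp
    ((band_iff _ _).mp (hp i hi)).2).2).2).2
  obtain ⟨m, rfl⟩ : ∃ m, i = m + 1 := ⟨i - 1, by omega⟩
  exact h

/-- The permutation of a letter. -/
noncomputable def permX (y : ℕ) : Equiv.Perm (Fin 306936) :=
  permOf (point_perm hp) invF_spec y

theorem permX_apply {y : ℕ} (hy : y < 12) (i : Fin 306936) :
    ((permX hp y) i).1 = tf i.1 y :=
  permOf_apply (point_perm hp) invF_spec hy i

theorem permX_sq (y : ℕ) : permX hp y * permX hp y = 1 := by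
  by_cases hy : y < 12
  · ext i
    rw [Equiv.Perm.mul_apply, permX_apply hp hy, permX_apply hp hy]
    exact (point_perm hp i.1 i.2 y hy).2
  · unfold permX permOf
    rw [dif_neg hy, mul_one]

theorem permX_cox_lt {s t : ℕ} (hs : s < 12) (ht : t < s) :
    (permX hp s * permX hp t) ^ labF s t = 1 := by
  have ht12 : t < 12 := Nat.lt_trans ht hs
  rcases labF_cases s hs t ht with h2 | h3
  · rw [h2]
    refine sq_of_comm _ _ (permX_sq hp s) (permX_sq hp t)
      (comm_of_local _ _ (permX_sq hp s) (permX_sq hp t) (fun j h1 h2' => ?_))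
    apply Fin.ext
    rw [permX_apply hp ht12, permX_apply hp hs, permX_apply hp hs, permX_apply hp ht12]
    have e1 : j.1 ≤ tf j.1 s := by
      have := Fin.le_def.mp h1
      rwa [permX_apply hp hs] at this
    have e2 : j.1 ≤ tf j.1 t := by
      have := Fin.le_def.mp h2'
      rwa [permX_apply hp ht12] at this
    exact (chkCox_spec (point_cox hp j.2) hs ht e1 e2).1 h2
  · rw [h3]
    refine cube_of_braid _ _ (permX_sq hp s) (permX_sq hp t)
      (braid_of_local _ _ (permX_sq hp s) (permX_sq hp t) (fun j h1 h2' => ?_))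
    apply Fin.ext
    rw [permX_apply hp hs, permX_apply hp ht12, permX_apply hp hs, permX_apply hp ht12,
      permX_apply hp hs, permX_apply hp ht12]
    have e1 : j.1 ≤ tf j.1 s := by
      have := Fin.le_def.mp h1
      rwa [permX_apply hp hs] at this
    have e2 : j.1 ≤ tf j.1 t := by
      have := Fin.le_def.mp h2'
      rwa [permX_apply hp ht12] at this
    exact (chkCox_spec (point_cox hp j.2) hs ht e1 e2).2 h3

theorem permX_cox (x y : Fi24.Gen) :
    (permX hp (ltr x) * permX hp (ltr y)) ^ coxLabel Fi24.edges x y = 1 := by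
  rcases lt_trichotomy (ltr x) (ltr y) with h | h | h
  · rw [(lab_eq y x h).2]
    exact pow_swap_eq_one _ _ _ (permX_cox_lt hp (ltr_lt y) h)
  · have e := ltr_inj h
    subst e
    rw [lab_self, pow_one]
    exact permX_sq hp _
  · rw [(lab_eq x y h).1]
    exact permX_cox_lt hp (ltr_lt x) h

theorem foldl_lt (w : List ℕ) (hw : ∀ y ∈ w, y < 12) (i : ℕ) (hi : i < 306936) :
    w.foldl tf i < 306936 := by
  induction w generalizing i with
  | nil => exact hi
  | cons y ys ih =>
    rw [List.foldl_cons]
    exact ih (fun z hz => hw z (List.mem_cons_of_mem _ hz)) _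
      (point_perm hp i hi y (hw y List.mem_cons_self)).1

theorem permX_r2 : ((w14L.map (permX hp)).prod) ^ 17 = 1 := by
  have hQ : ∀ j : Fin 306936, ((((w14L.map (permX hp)).prod)⁻¹) j).1 = tf j.1 12 := by
    intro j
    unfold permX
    rw [prod_inv_apply (point_perm hp) invF_spec w14L w14_lt j]
    exact (chkPow_spec (point_pow hp j.2)).1
  have h1 : (((w14L.map (permX hp)).prod)⁻¹) ^ 17 = 1 := by
    refine pow_eq_one_of_local _ 17 (fun j hj => ?_)
    apply Fin.ext
    rw [pow_apply_col tf 12 _ hQ 17 j, List.replicate_succ, List.foldl_cons, ← cs16_eq]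
    have e : j.1 ≤ tf j.1 12 := by
      have := Fin.le_def.mp hj
      rwa [hQ] at this
    exact (chkPow_spec (point_pow hp j.2)).2 e
  rw [inv_pow, inv_eq_one] at h1
  exact h1

theorem permX_r1 : permX hp 0 * ((u7L.map (permX hp)).prod) ^ 9 = 1 := by
  have hcol : ∀ j < 306936, u7L.foldl tf j = tf j 13 :=
    fun j hj => (chkLin_spec (point_lin hp hj)).1
  have hr : ∀ j < 306936, tf j 13 < 306936 := by
    intro j hj
    rw [← hcol j hj]
    exact foldl_lt hp u7L u7_lt j hj
  have h := prod_eq_one (point_perm hp) invF_spec ([0] ++ (List.replicate 9 u7L).flatten)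
    (by
      intro y hy
      rcases List.mem_append.mp hy with h0 | h1
      · rw [List.mem_singleton.mp h0]
        decide
      · obtain ⟨l, hl, hyl⟩ := List.mem_flatten.mp h1
        rw [List.eq_of_mem_replicate hl] at hyl
        exact u7_lt y hyl)
    (by
      intro i hi
      rw [List.foldl_append, List.foldl_cons, List.foldl_nil,
        foldl_flatten_col tf 306936 u7L 13 hcol hr 9 _ (point_perm hp i hi 0 (by decide)).1,
        ← cs9_eq]
      exact (chkLin_spec (point_lin hp hi)).2)
  rw [List.map_append, List.prod_append, prod_flatten_replicate, List.map_cons, List.map_nil,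
    List.prod_cons, List.prod_nil, mul_one] at h
  exact h

/-- The relators are trivial on the permutations. -/
theorem permX_rels : ∀ r ∈ fiRels,
    FreeGroup.lift (fun x : Fi24.Gen => permX hp (ltr x)) r = 1 := by
  intro r hr
  rcases hr with ⟨x, _, y, _, rfl⟩ | he
  · rw [map_pow, map_mul, FreeGroup.lift_apply_of, FreeGroup.lift_apply_of]
    exact permX_cox hp x y
  · have he' : r ∈ Fi24.extra := he
    unfold Fi24.extra at he'
    simp only [List.mem_cons, List.not_mem_nil, or_false] at he'
    rcases he' with rfl | rfl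
    · have hu : FreeGroup.lift (fun x : Fi24.Gen => permX hp (ltr x))
          (Fi24.a * Fi24.b * Fi24.c * Fi24.d * Fi24.e * Fi24.f * Fi24.h)
          = ((u7L.reverse).map (permX hp)).prod := by
        simp only [u7L, List.reverse_cons, List.reverse_nil, List.nil_append, List.cons_append,
          List.map_cons, List.map_nil, List.prod_cons, List.prod_nil, mul_one, map_mul,
          FreeGroup.lift_apply_of, ltr, mul_assoc]
      rw [map_mul, map_inv, map_pow, hu, prod_reverse_inv (permX hp) (permX_sq hp), inv_pow,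
        inv_inv, FreeGroup.lift_apply_of]
      exact permX_r1 hp
    · have hw : FreeGroup.lift (fun x : Fi24.Gen => permX hp (ltr x))
          (Fi24.d * Fi24.c * Fi24.b * Fi24.a * Fi24.k * Fi24.l * Fi24.d * Fi24.e * Fi24.f *
            Fi24.g * Fi24.j * Fi24.d * Fi24.h * Fi24.i)
          = (w14L.map (permX hp)).prod := by
        simp only [w14L, List.map_cons, List.map_nil, List.prod_cons, List.prod_nil, mul_one,
          map_mul, FreeGroup.lift_apply_of, ltr, mul_assoc]
      rw [map_pow, hw]
      exact permX_r2 hp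

/-- The action of the presented group on the points. -/
noncomputable def permHom : PresentedGroup fiRels →* Equiv.Perm (Fin 306936) :=
  PresentedGroup.toGroup (permX_rels hp)

theorem permHom_of (x : Fi24.Gen) : permHom hp (PresentedGroup.of x) = permX hp (ltr x) :=
  PresentedGroup.toGroup.of (permX_rels hp)

theorem permHom_val {y : ℕ} (hy : y < 12) : permHom hp (val y) = permX hp y := by
  unfold val
  rw [permHom_of, ltr_gen y hy]

theorem permHom_word (w : List ℕ) (hw : ∀ y ∈ w, y < 12) :
    permHom hp ((w.map val).prod) = (w.map (permX hp)).prod := by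
  induction w with
  | nil => simp
  | cons y ys ih =>
    rw [List.map_cons, List.prod_cons, map_mul, List.map_cons, List.prod_cons,
      ih (fun z hz => hw z (List.mem_cons_of_mem _ hz)), permHom_val hp (hw y List.mem_cons_self)]

/-- The lower bound of the index, from the checks of the final table. -/
theorem lower_bound
    (hfix : allB 12 (fun y => bor (Nat.beq y 1) (Nat.beq (tf 0 y) 0)) = true) :
    306936 ∣ fiH.index := by
  have hfix' : ∀ x : Fi24.Gen, x ≠ Fi24.Gen.k →
      permHom hp (PresentedGroup.of x) ⟨0, by decide⟩ = ⟨0, by decide⟩ := by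
    intro x hx
    rw [permHom_of]
    apply Fin.ext
    rw [permX_apply hp (ltr_lt x)]
    have h := (bor_iff _ _).mp ((allB_iff _ _).mp hfix (ltr x) (ltr_lt x))
    rcases h with h | h
    · exfalso
      apply hx
      apply ltr_inj
      exact Nat.eq_of_beq_eq_true h
    · exact Nat.eq_of_beq_eq_true h
  refine dvd_index_of_action fiH (permHom hp) ⟨0, by decide⟩ ?_ ?_
  · rintro g ⟨w, hw, rfl⟩
    have hle : Subgroup.closure ({Fi24.a, Fi24.b, Fi24.c, Fi24.d, Fi24.e, Fi24.f, Fi24.g, Fi24.h,
        Fi24.i, Fi24.j, Fi24.l} : Set (FreeGroup Fi24.Gen)) ≤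
        (MulAction.stabilizer (Equiv.Perm (Fin 306936)) (⟨0, by decide⟩ : Fin 306936)).comap
          ((permHom hp).comp (PresentedGroup.mk fiRels)) := by
      rw [Subgroup.closure_le]
      intro v hv
      simp only [Set.mem_insert_iff, Set.mem_singleton_iff] at hv
      rw [SetLike.mem_coe, Subgroup.mem_comap, MulAction.mem_stabilizer_iff]
      rcases hv with rfl | rfl | rfl | rfl | rfl | rfl | rfl | rfl | rfl | rfl | rfl
      · exact hfix' .a (by decide)
      · exact hfix' .b (by decide)
      · exact hfix' .c (by decide)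
      · exact hfix' .d (by decide)
      · exact hfix' .e (by decide)
      · exact hfix' .f (by decide)
      · exact hfix' .g (by decide)
      · exact hfix' .h (by decide)
      · exact hfix' .i (by decide)
      · exact hfix' .j (by decide)
      · exact hfix' .l (by decide)
    have h := hle hw
    rw [Subgroup.mem_comap, MulAction.mem_stabilizer_iff] at h
    exact h
  · intro i
    obtain ⟨w, hw, hwi⟩ := reach (point_perm hp) invF_spec (by decide) (point_tree hp) i.1 i.2
    refine ⟨(w.map val).prod, ?_⟩
    rw [permHom_word hp w hw]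
    exact Fin.ext hwi

end LowerBound

/-- The index, from the checks of the certificate. -/
theorem index_eq (hs : ∀ u < 394454, chkRow u = true)
    (hl : ∀ u < 394454, chkLinkB u = true) (hf : ∀ u < 394454, chkFinalB u = true)
    (hcnt : cnt2 finB 0 386 1024 = 306936)
    (hrowM : allB 12 (fun y => Nat.beq (hot 394454 y) 8796093022207) = true)
    (hroot : Nat.beq (lnk 0) 4398046511103 = true)
    (hp : ∀ i < 306936, chkPoint i = true)
    (hfix : allB 12 (fun y => bor (Nat.beq y 1) (Nat.beq (tf 0 y) 0)) = true) :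
    fiH.index = 306936 := by
  have h1 := upper_bound hs hl hf hcnt hrowM hroot
  have h2 := lower_bound hp hfix
  exact Nat.le_antisymm h1.2 (Nat.le_of_dvd (Nat.pos_of_ne_zero h1.1) h2)

end Cfsg.Agent.Lib.Helper9.Fi24C
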