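import Cfsg.Agent.Lib.Helper98.H74Defs
import Cfsg.Agent.Lib.Helper96.SpBlock
import Cfsg.Agent.Lib.Helper98.O72Block

/-!
# Project H74 (S5974, helper98), piece BLKO (helper9)

An invariant nondegenerate block of dimension `2 i` (`i` odd) inside any nonzero invariant
nondegenerate subspace of `range (g - 1)`: bridge to the bilinear-form block lemmas
`Helper96.Sp.exists_block` (alternating polar form, `2 = 0`) and `Helper98.O72.exists_block`
(symmetric polar form, `2 ≠ 0`).
-/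

set_option autoImplicit false
set_option linter.unusedSectionVars false
set_option linter.unusedVariables false

namespace Cfsg.Agent.Lib.Helper98.H74

open Cfsg.Agent.Lib.Helper47 Cfsg.Agent.Lib.Helper98.T73 Module Polynomial

universe u

variable {F : Type u} [Field F] [Fintype F] {V : Type u} [AddCommGroup V] [Module F V]
  [FiniteDimensional F V] {Q : V → F} {B : V → V → F}

/-- an invariant nondegenerate block of dimension `blk q r` (any parity of `i`) -/
theorem BLKO_block (hQ : IsQuad Q B) (hnd : Nondeg B) (p : ℕ) [Fact p.Prime] [CharP F p]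
    (r : ℕ) (hr : r.Prime) (hr2 : r ≠ 2) (hrp : r ≠ p) (g : Module.End F V) (hgQ : QI Q g)
    (hg : g ^ r = 1)
    (W : Submodule F V) (hWR : W ≤ LinearMap.range (g - 1)) (hWg : W.map g ≤ W)
    (hWnd : Nondeg (resForm B W)) (hW0 : W ≠ ⊥) :
    ∃ Z : Submodule F V, Z ≤ W ∧ Z.map g ≤ Z ∧ Nondeg (resForm B Z) ∧
      finrank F Z = Cfsg.Agent.Lib.Helper96.Sp.blk (Fintype.card F) r := by
  have hB := hQ.form
  have hp : p.Prime := Fact.out
  obtain ⟨B', hB'⟩ : ∃ B' : LinearMap.BilinForm F V, ∀ x y, B' x y = B x y :=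
    ⟨LinearMap.mk₂ F B hB.add_left (fun c x y => hB.smul_left c x y)
      (fun x y z => hB.add_right x y z) (fun c x y => hB.smul_right c x y), fun _ _ => rfl⟩
  have hND : Cfsg.Agent.Lib.Helper96.Sp.ND B' ⊤ :=
    fun u _ h => hnd u (fun y => by rw [← hB']; exact h y Submodule.mem_top)
  have hIsom : Cfsg.Agent.Lib.Helper96.Sp.Isom B' g := by
    intro x y
    rw [hB', hB']
    exact hQ.isometry hQ g hgQ x y
  have : Fact r.Prime := ⟨hr⟩
  have hrq : ¬ r ∣ Fintype.card F := by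
    obtain ⟨n, -, hn⟩ := FiniteField.card F p
    rw [hn]
    intro hdvd
    exact hrp ((Nat.prime_dvd_prime_iff_eq hr hp).mp (hr.dvd_of_dvd_pow hdvd))
  have hr0 : (r : F) ≠ 0 := by
    intro h0
    have hdvd := (CharP.cast_eq_zero_iff F p r).mp h0
    exact hrp ((Nat.prime_dvd_prime_iff_eq hp hr).mp hdvd).symm
  have hWND : Cfsg.Agent.Lib.Helper96.Sp.ND B' W := by
    intro u hu h
    have h0 := hWnd ⟨u, hu⟩ (fun y => by
      rw [resForm_apply, ← hB']
      exact h y y.2)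
    exact congrArg Subtype.val h0
  have hback : ∀ P : Submodule F V, Cfsg.Agent.Lib.Helper96.Sp.ND B' P →
      Nondeg (resForm B P) := by
    intro P hP x hx
    apply Subtype.ext
    apply hP x.1 x.2
    intro v hv
    rw [hB']
    exact hx ⟨v, hv⟩
  by_cases h2 : (2 : F) = 0
  · have hA : B'.IsAlt := by
      intro x
      rw [hB', hQ.self, h2, zero_mul]
    obtain ⟨P, h1, h3, h4, h5⟩ := Cfsg.Agent.Lib.Helper96.Sp.exists_block hA hND g hIsom
      r hr2 hrq hr0 hg W hWg hWND hWR hW0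
    exact ⟨P, h1, h3, hback P h4, h5⟩
  · have hS : B'.IsSymm := by
      rw [LinearMap.BilinForm.isSymm_def]
      intro x y
      rw [hB', hB']
      exact sym_comm hB y x
    obtain ⟨P, h1, h3, h4, h5⟩ := Cfsg.Agent.Lib.Helper98.O72.exists_block hS h2 hND g hIsom
      r hr2 hrq hr0 hg W hWg hWND hWR hW0
    exact ⟨P, h1, h3, hback P h4, h5⟩

/-- BLKO -/
theorem blk_odd (hQ : IsQuad Q B) (hnd : Nondeg B) (p : ℕ) [Fact p.Prime] [CharP F p]
    (r : ℕ) (hr : r.Prime) (hr2 : r ≠ 2) (hrp : r ≠ p) (g : Module.End F V) (hgQ : QI Q g)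
    (hg : g ^ r = 1) (hodd : Odd (orderOf ((Fintype.card F : ℕ) : ZMod r)))
    (W : Submodule F V) (hWR : W ≤ LinearMap.range (g - 1)) (hWg : W.map g ≤ W)
    (hWnd : Nondeg (resForm B W)) (hW0 : W ≠ ⊥) :
    ∃ Z : Submodule F V, Z ≤ W ∧ Z.map g ≤ Z ∧ Nondeg (resForm B Z) ∧
      finrank F Z = 2 * orderOf ((Fintype.card F : ℕ) : ZMod r) := by
  obtain ⟨Z, h1, h2, h3, h4⟩ := BLKO_block hQ hnd p r hr hr2 hrp g hgQ hg W hWR hWg hWnd hW0
  refine ⟨Z, h1, h2, h3, ?_⟩
  rw [h4]
  unfold Cfsg.Agent.Lib.Helper96.Sp.blk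
  rw [if_neg (Nat.not_even_iff_odd.mpr hodd)]

end Cfsg.Agent.Lib.Helper98.H74
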