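import Mathlib
import Cfsg.Prelude.Def_Sporadic_a
import Cfsg.Agent.Lib.Helper9.S12Sharp
import Cfsg.Agent.Lib.Helper9.AutTransfer
import Cfsg.Agent.Lib.Helper9.M24Chain
import Cfsg.Agent.S0384
import Cfsg.Agent.S0385
import Cfsg.Agent.S0368

set_option autoImplicit false

namespace Cfsg.Agent.Lib.Helper9.S12

open Cfsg
open scoped Pointwise

/-- The hexads on a dodecad, as a set system on the dodecad. -/
def hexSys (d : Finset GolayPt) : Set (Finset {p : GolayPt // p ∈ d}) :=
  {h | ∃ o ∈ octads, (o ∩ d).card = 6 ∧ h = Finset.subtype (fun p => p ∈ d) o}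

theorem hexSys_steiner {d : Finset GolayPt} (hd : d ∈ dodecads) :
    IsSteinerSystem 5 6 (hexSys d) :=
  Cfsg.Agent.S0385.result d hd

theorem card_dodecad_pts {d : Finset GolayPt} (hd : d ∈ dodecads) :
    Fintype.card {p : GolayPt // p ∈ d} = 12 := by
  rw [Fintype.card_coe]
  exact hd.2

/-- The automorphism group of the hexad system of a dodecad is 5-transitive. -/
theorem hexSys_five_transitive {d : Finset GolayPt} (hd : d ∈ dodecads) :
    MulAction.IsMultiplyPretransitive (setSystemAut (hexSys d)) {p : GolayPt // p ∈ d} 5 := by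
  rw [MulAction.isMultiplyPretransitive_iff]
  intro x y
  obtain ⟨g, hg, -⟩ := Cfsg.Agent.S0384.result d hd
    (x.trans (Function.Embedding.subtype _)) (y.trans (Function.Embedding.subtype _))
    (fun i => (x i).2) (fun i => (y i).2)
  have hγM : ((g : M24) : Equiv.Perm GolayPt) ∈ M24 := (g : M24).2
  have hγd : ((g : M24) : Equiv.Perm GolayPt) • d = d := g.2
  generalize ((g : M24) : Equiv.Perm GolayPt) = γ at hg hγM hγd
  have h₁ : ∀ p, (fun p => p ∈ d) (γ p) ↔ (fun p => p ∈ d) p := by
    intro p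
    show γ p ∈ d ↔ p ∈ d
    constructor
    · intro h
      rw [← hγd] at h
      exact (Finset.smul_mem_smul_finset_iff γ).mp h
    · intro h
      rw [← hγd]
      exact Finset.smul_mem_smul_finset h
  have hmem : γ.subtypePerm (p := fun p => p ∈ d) h₁ ∈ setSystemAut (hexSys d) := by
    show γ.subtypePerm (p := fun p => p ∈ d) h₁ ∈ MulAction.stabilizer _ (hexSys d)
    rw [MulAction.mem_stabilizer_set_iff_smul_set_subset (Set.toFinite _)]
    rintro _ ⟨_, ⟨o, ho, h6, rfl⟩, rfl⟩
    refine ⟨γ • o, Cfsg.Agent.Lib.Helper9.smul_octad_mem hγM ho, ?_, ?_⟩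
    · have : γ • o ∩ d = γ • (o ∩ d) := by
        rw [Finset.smul_finset_inter, hγd]
      rw [this, Finset.card_smul_finset, h6]
    · ext ⟨q, hq⟩
      rw [Finset.mem_smul_finset, Finset.mem_subtype, Finset.mem_smul_finset]
      constructor
      · rintro ⟨z, hz, hzq⟩
        exact ⟨z.1, Finset.mem_subtype.mp hz, congrArg Subtype.val hzq⟩
      · rintro ⟨z, hz, hzq⟩
        have hzd : z ∈ d := by
          apply (h₁ z).mp
          show γ z ∈ d
          have : γ z = q := hzq
          rw [this]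
          exact hq
        exact ⟨⟨z, hzd⟩, Finset.mem_subtype.mpr hz, Subtype.ext hzq⟩
  refine ⟨⟨_, hmem⟩, ?_⟩
  refine DFunLike.ext _ _ (fun i => Subtype.ext ?_)
  exact hg i

/-- The automorphism group of any Steiner system `S(5,6,12)` is 5-transitive. -/
theorem aut_five_transitive {α : Type*} [Fintype α] [DecidableEq α] (hα : Fintype.card α = 12)
    {B : Set (Finset α)} (hB : IsSteinerSystem 5 6 B) :
    MulAction.IsMultiplyPretransitive (setSystemAut B) α 5 := by
  have hd := Cfsg.Agent.S0368.D0_mem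
  obtain ⟨e, he⟩ := steiner_5_6_12_unique hα (card_dodecad_pts hd) hB (hexSys_steiner hd)
  exact Cfsg.Agent.Lib.Helper9.multiplyPretransitive_of_iso e he 5 (hexSys_five_transitive hd)

/-- The first five points of `Fin 12`. -/
def x05 : Fin 5 ↪ Fin 12 := Fin.castLEEmb (by norm_num)

/-- An automorphism of a Steiner system `S(5,6,12)` fixing five points is trivial. -/
theorem aut_sharp {α : Type*} [Fintype α] [DecidableEq α] (hα : Fintype.card α = 12)
    {B : Set (Finset α)} (hB : IsSteinerSystem 5 6 B) (x : Fin 5 ↪ α) {g : Equiv.Perm α}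
    (hg : g ∈ setSystemAut B) (hx : ∀ i, g (x i) = x i) : g = 1 := by
  obtain ⟨e, he⟩ := uniq_std hα hB
  have htr := aut_five_transitive (by simp) L0_steiner
  rw [MulAction.isMultiplyPretransitive_iff] at htr
  obtain ⟨⟨k, hkmem⟩, hk⟩ := htr (x.trans e.toEmbedding) x05
  have hk' : ∀ i, k (e (x i)) = x05 i := by
    intro i
    have := congrArg (fun f => f i) hk
    exact this
  -- the adjusted isomorphism
  have he' : (fun b => b.image (e.trans k)) '' B = sysOf L0 := by
    have h1 : k • sysOf L0 = sysOf L0 := hkmem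
    rw [← h1, ← he]
    ext c
    simp only [Set.mem_image, Set.mem_smul_set]
    constructor
    · rintro ⟨b, hb, rfl⟩
      refine ⟨b.image e, ⟨b, hb, rfl⟩, ?_⟩
      ext z
      simp only [Finset.mem_smul_finset, Finset.mem_image, Equiv.Perm.smul_def,
        Equiv.trans_apply]
      constructor
      · rintro ⟨_, ⟨a, ha, rfl⟩, rfl⟩
        exact ⟨a, ha, rfl⟩
      · rintro ⟨a, ha, rfl⟩
        exact ⟨e a, ⟨a, ha, rfl⟩, rfl⟩
    · rintro ⟨_, ⟨b, hb, rfl⟩, rfl⟩
      refine ⟨b, hb, ?_⟩
      ext z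
      simp only [Finset.mem_smul_finset, Finset.mem_image, Equiv.Perm.smul_def,
        Equiv.trans_apply]
      constructor
      · rintro ⟨a, ha, rfl⟩
        exact ⟨e a, ⟨a, ha, rfl⟩, rfl⟩
      · rintro ⟨_, ⟨a, ha, rfl⟩, rfl⟩
        exact ⟨a, ha, rfl⟩
  have hg' : (e.trans k).permCongr g ∈ setSystemAut (sysOf L0) :=
    (Cfsg.Agent.Lib.Helper9.mem_setSystemAut_permCongr (e.trans k) he' g).mpr hg
  have h1 : (e.trans k).permCongr g = 1 := by
    apply sharp_std hg'
    intro i hi
    have hi' : i = x05 ⟨i.val, hi⟩ := by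
      apply Fin.ext
      simp [x05]
    rw [hi', ← hk' ⟨i.val, hi⟩]
    simp [Equiv.permCongr_apply, hx]
  ext a
  have h2 := congrArg (fun f => f (e.trans k a)) h1
  simp only [Equiv.permCongr_apply, Equiv.symm_apply_apply, Equiv.Perm.coe_one, id_eq] at h2
  exact (e.trans k).injective h2

end Cfsg.Agent.Lib.Helper9.S12
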