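import Mathlib
import Cfsg.Prelude.Def_Sporadic_a
import Cfsg.Agent.Lib.Helper9.S11Ext
import Cfsg.Agent.Lib.Helper9.S12Aut

set_option autoImplicit false

namespace Cfsg.Agent.Lib.Helper9.S12

open Cfsg Finset
open scoped Pointwise

section General

variable {α β : Type*} [DecidableEq α] [DecidableEq β]

theorem perm_smul_eq_image (g : Equiv.Perm α) (b : Finset α) : g • b = b.image g := by
  ext x
  simp [Finset.mem_smul_finset]

theorem mem_aut_iff_image {B : Set (Finset α)} (g : Equiv.Perm α) :
    g ∈ setSystemAut B ↔ (fun b => b.image g) '' B = B := by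
  show g ∈ MulAction.stabilizer _ B ↔ _
  rw [MulAction.mem_stabilizer_iff]
  have h1 : g • B = (fun b => b.image g) '' B := by
    ext b
    simp only [Set.mem_smul_set, Set.mem_image, perm_smul_eq_image]
  rw [h1]

omit [DecidableEq α] in
/-- Composing an isomorphism of set systems with an automorphism of the target. -/
theorem image_trans_aut {B : Set (Finset α)} {B' : Set (Finset β)} (e : α ≃ β)
    (he : (fun b => b.image e) '' B = B') {k : Equiv.Perm β} (hk : k ∈ setSystemAut B') :
    (fun b => b.image (e.trans k)) '' B = B' := by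
  have h1 := (mem_aut_iff_image k).mp hk
  rw [← h1, ← he, Set.image_image]
  congr 1
  ext b : 1
  rw [Finset.image_image]
  rfl

end General

variable {β β' : Type*} [Fintype β] [DecidableEq β] [Fintype β'] [DecidableEq β']

omit [Fintype β] [DecidableEq β] [Fintype β'] [DecidableEq β'] in
theorem apply_some_of_none (φ : Option β ≃ Option β') (h0 : φ none = none) (a : β) :
    φ (some a) = some (Equiv.removeNone φ a) := by
  have hne : φ (some a) ≠ none := by
    intro h
    rw [← h0] at h
    exact absurd (φ.injective h) (by simp)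
  exact (Equiv.removeNone_some φ (Option.ne_none_iff_exists'.mp hne)).symm

/-- An isomorphism of the extensions fixing the new point restricts to an isomorphism. -/
theorem iso_of_ext_iso {E : Set (Finset β)} {E' : Set (Finset β')}
    (hE : IsSteinerSystem 4 5 E) (hE' : IsSteinerSystem 4 5 E') (φ : Option β ≃ Option β')
    (hφ : (fun b => b.image φ) '' extSys E = extSys E') (h0 : φ none = none) :
    (fun b => b.image (Equiv.removeNone φ)) '' E = E' := by
  apply Cfsg.Agent.Lib.Helper9.steiner_eq_of_subset
    (Cfsg.Agent.Lib.Helper9.steiner_image hE _) hE' ?_ (by norm_num)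
  rintro _ ⟨X, hX, rfl⟩
  have h1 : (insertNone X).image φ ∈ extSys E' := by
    rw [← hφ]
    exact ⟨_, insertNone_mem_extSys hX, rfl⟩
  have h2 : none ∈ (insertNone X).image φ := mem_image.mpr ⟨none, none_mem_insertNone, h0⟩
  have h3 := eraseNone_mem_of_mem_extSys h1 h2
  have h4 : eraseNone ((insertNone X).image φ) = X.image (Equiv.removeNone φ) := by
    ext a'
    rw [mem_eraseNone, mem_image, mem_image]
    constructor
    · rintro ⟨o, ho, hoa⟩
      cases o with
      | none => rw [h0] at hoa; exact absurd hoa (by simp)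
      | some a =>
        refine ⟨a, some_mem_insertNone.mp ho, ?_⟩
        rw [apply_some_of_none φ h0] at hoa
        exact Option.some_injective _ hoa
    · rintro ⟨a, ha, rfl⟩
      exact ⟨some a, some_mem_insertNone.mpr ha, apply_some_of_none φ h0 a⟩
  show X.image (Equiv.removeNone φ) ∈ E'
  rw [← h4]
  exact h3

/-- An isomorphism of `S(4,5,11)` systems extends to the extensions. -/
theorem ext_iso (hβ : Fintype.card β = 11) (hβ' : Fintype.card β' = 11) {E : Set (Finset β)}
    {E' : Set (Finset β')} (hE : IsSteinerSystem 4 5 E) (hE' : IsSteinerSystem 4 5 E')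
    (e : β ≃ β') (he : (fun b => b.image e) '' E = E') :
    (fun b => b.image (Equiv.optionCongr e)) '' extSys E = extSys E' := by
  apply Cfsg.Agent.Lib.Helper9.steiner_eq_of_subset
    (Cfsg.Agent.Lib.Helper9.steiner_image (ext_steiner hβ hE) _) (ext_steiner hβ' hE') ?_
    (by norm_num)
  rintro _ ⟨b, hb, rfl⟩
  have key1 : none ∈ b.image (Equiv.optionCongr e) ↔ none ∈ b := by
    rw [mem_image]
    constructor
    · rintro ⟨o, ho, hoa⟩
      cases o with
      | none => exact ho
      | some a => simp at hoa
    · intro h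
      exact ⟨none, h, by simp⟩
  have key2 : eraseNone (b.image (Equiv.optionCongr e)) = (eraseNone b).image e := by
    ext a'
    rw [mem_eraseNone, mem_image, mem_image]
    constructor
    · rintro ⟨o, ho, hoa⟩
      cases o with
      | none => simp at hoa
      | some a =>
        refine ⟨a, mem_eraseNone.mpr ho, ?_⟩
        simpa using hoa
    · rintro ⟨a, ha, rfl⟩
      exact ⟨some a, mem_eraseNone.mp ha, by simp⟩
  have key3 : ∀ S : Finset β, (S.image e)ᶜ = Sᶜ.image e := by
    intro S
    ext a'
    simp only [mem_compl, mem_image]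
    constructor
    · intro h
      refine ⟨e.symm a', fun hS => h ⟨_, hS, by simp⟩, by simp⟩
    · rintro ⟨a, ha, rfl⟩ ⟨a2, ha2, h2⟩
      exact ha (by rw [← e.injective h2]; exact ha2)
  rcases hb with ⟨h1, h2⟩ | ⟨h1, h2⟩
  · left
    refine ⟨key1.mpr h1, ?_⟩
    rw [key2, ← he]
    exact ⟨_, h2, rfl⟩
  · right
    refine ⟨fun h => h1 (key1.mp h), ?_⟩
    rw [key2, key3, ← he]
    exact ⟨_, h2, rfl⟩

/-- Uniqueness of the Steiner system `S(4,5,11)`. -/
theorem steiner_4_5_11_unique (hβ : Fintype.card β = 11) (hβ' : Fintype.card β' = 11)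
    {E : Set (Finset β)} {E' : Set (Finset β')} (hE : IsSteinerSystem 4 5 E)
    (hE' : IsSteinerSystem 4 5 E') : SetSystemIso E E' := by
  have h12 : Fintype.card (Option β) = 12 := by rw [Fintype.card_option, hβ]
  have h12' : Fintype.card (Option β') = 12 := by rw [Fintype.card_option, hβ']
  have hS := ext_steiner hβ hE
  have hS' := ext_steiner hβ' hE'
  obtain ⟨φ, hφ⟩ := steiner_5_6_12_unique h12 h12' hS hS'
  have := aut_five_transitive h12' hS'
  have : MulAction.IsPretransitive (setSystemAut (extSys E')) (Option β') := by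
    rw [← MulAction.is_one_pretransitive_iff]
    exact MulAction.isMultiplyPretransitive_of_le (n := 5) (by norm_num)
      (by rw [Nat.card_eq_fintype_card, h12']; norm_num)
  obtain ⟨⟨k, hk⟩, hk0⟩ := MulAction.exists_smul_eq (setSystemAut (extSys E')) (φ none) none
  have hk0' : k (φ none) = none := hk0
  exact ⟨Equiv.removeNone (φ.trans k),
    iso_of_ext_iso hE hE' (φ.trans k) (image_trans_aut φ hφ hk) (by simp [hk0'])⟩

/-- An embedding of `Fin 4` extended by the new point. -/
def optEmb (x : Fin 4 ↪ β) : Fin 5 ↪ Option β :=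
  (finSuccEquiv 4).toEmbedding.trans x.optionMap

omit [Fintype β] [DecidableEq β] in
theorem optEmb_zero (x : Fin 4 ↪ β) : optEmb x 0 = none := by
  simp [optEmb]

omit [Fintype β] [DecidableEq β] in
theorem optEmb_succ (x : Fin 4 ↪ β) (i : Fin 4) : optEmb x i.succ = some (x i) := by
  simp [optEmb]

/-- The automorphism group of an `S(4,5,11)` is 4-transitive. -/
theorem aut11_four_transitive (hβ : Fintype.card β = 11) {E : Set (Finset β)}
    (hE : IsSteinerSystem 4 5 E) : MulAction.IsMultiplyPretransitive (setSystemAut E) β 4 := by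
  have h12 : Fintype.card (Option β) = 12 := by rw [Fintype.card_option, hβ]
  have hS := ext_steiner hβ hE
  have htr := aut_five_transitive h12 hS
  rw [MulAction.isMultiplyPretransitive_iff] at htr ⊢
  intro x y
  obtain ⟨⟨g, hg⟩, h⟩ := htr (optEmb x) (optEmb y)
  have h0 : g none = none := by
    have := congrArg (fun f => f 0) h
    simpa [optEmb_zero] using this
  have hi : ∀ i, g (some (x i)) = some (y i) := by
    intro i
    have := congrArg (fun f => f i.succ) h
    simpa [optEmb_succ] using this
  have hmem : Equiv.removeNone g ∈ setSystemAut E := by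
    rw [mem_aut_iff_image]
    exact iso_of_ext_iso hE hE g ((mem_aut_iff_image g).mp hg) h0
  refine ⟨⟨_, hmem⟩, ?_⟩
  refine DFunLike.ext _ _ (fun i => ?_)
  apply Option.some_injective
  show some (Equiv.removeNone g (x i)) = some (y i)
  rw [← apply_some_of_none g h0, hi]

/-- An automorphism of an `S(4,5,11)` fixing four points is trivial. -/
theorem aut11_sharp (hβ : Fintype.card β = 11) {E : Set (Finset β)}
    (hE : IsSteinerSystem 4 5 E) (x : Fin 4 ↪ β) {g : Equiv.Perm β} (hg : g ∈ setSystemAut E)
    (hx : ∀ i, g (x i) = x i) : g = 1 := by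
  have h12 : Fintype.card (Option β) = 12 := by rw [Fintype.card_option, hβ]
  have hS := ext_steiner hβ hE
  have hmem : Equiv.optionCongr g ∈ setSystemAut (extSys E) := by
    rw [mem_aut_iff_image]
    exact ext_iso hβ hβ hE hE g ((mem_aut_iff_image g).mp hg)
  have h1 : Equiv.optionCongr g = 1 := by
    apply aut_sharp h12 hS (optEmb x) hmem
    intro j
    refine Fin.cases ?_ (fun i => ?_) j
    · rw [optEmb_zero]; simp
    · rw [optEmb_succ]; simp [hx]
  ext a
  have h2 := congrArg (fun f => f (some a)) h1
  simpa using h2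

end Cfsg.Agent.Lib.Helper9.S12
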