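import Mathlib
import Cfsg.Prelude.Def_Sporadic_a
import Cfsg.Agent.Lib.Helper9.S11Uniq

set_option autoImplicit false

namespace Cfsg.Agent.Lib.Helper9.HS

open Cfsg
open scoped Pointwise

/-! ### The point-block graph of a set system: functoriality and the stabiliser of the
extra vertex -/

section General

variable {α β : Type*} [DecidableEq α] [DecidableEq β]

omit [DecidableEq α] in
theorem image_mem_iff (e : α ≃ β) {B : Set (Finset α)} {B' : Set (Finset β)}
    (he : (fun b => b.image e) '' B = B') (b : Finset α) : b.image e ∈ B' ↔ b ∈ B := by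
  rw [← he]
  constructor
  · rintro ⟨b0, hb0, h⟩
    have h1 : b0 = b := Finset.image_injective e.injective h
    exact h1 ▸ hb0
  · exact fun h => ⟨b, h, rfl⟩

/-- The bijection between blocks induced by an isomorphism of set systems. -/
def blockEquiv (e : α ≃ β) {B : Set (Finset α)} {B' : Set (Finset β)}
    (he : (fun b => b.image e) '' B = B') : ↥B ≃ ↥B' where
  toFun b := ⟨b.1.image e, (image_mem_iff e he b.1).mpr b.2⟩
  invFun c := ⟨c.1.image e.symm, by
    rw [← image_mem_iff e he, Finset.image_image, Equiv.self_comp_symm, Finset.image_id]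
    exact c.2⟩
  left_inv b := Subtype.ext (by
    show (b.1.image e).image e.symm = b.1
    rw [Finset.image_image, Equiv.symm_comp_self, Finset.image_id])
  right_inv c := Subtype.ext (by
    show (c.1.image e.symm).image e = c.1
    rw [Finset.image_image, Equiv.self_comp_symm, Finset.image_id])

/-- The bijection between the vertices of the point-block graphs. -/
def vertexEquiv (e : α ≃ β) {B : Set (Finset α)} {B' : Set (Finset β)}
    (he : (fun b => b.image e) '' B = B') : Option (α ⊕ ↥B) ≃ Option (β ⊕ ↥B') :=
  Equiv.optionCongr (Equiv.sumCongr e (blockEquiv e he))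

theorem rel_iff (e : α ≃ β) {B : Set (Finset α)} {B' : Set (Finset β)}
    (he : (fun b => b.image e) '' B = B') (x y : Option (α ⊕ ↥B)) :
    pointBlockRel B' (vertexEquiv e he x) (vertexEquiv e he y) ↔ pointBlockRel B x y := by
  rcases x with _ | a | b <;> rcases y with _ | a' | b'
  · exact Iff.rfl
  · exact Iff.rfl
  · exact Iff.rfl
  · exact Iff.rfl
  · exact Iff.rfl
  · show e a ∈ b'.1.image e ↔ a ∈ b'.1
    rw [Finset.mem_image]
    constructor
    · rintro ⟨x, hx, hxa⟩
      rw [← e.injective hxa]; exact hx
    · exact fun h => ⟨a, h, rfl⟩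
  · exact Iff.rfl
  · exact Iff.rfl
  · show Disjoint (b.1.image e) (b'.1.image e) ↔ Disjoint b.1 b'.1
    exact Finset.disjoint_image e.injective

/-- An isomorphism of set systems induces an isomorphism of point-block graphs. -/
def pbgIso (e : α ≃ β) {B : Set (Finset α)} {B' : Set (Finset β)}
    (he : (fun b => b.image e) '' B = B') : pointBlockGraph B ≃g pointBlockGraph B' where
  toEquiv := vertexEquiv e he
  map_rel_iff' := by
    intro x y
    simp only [pointBlockGraph, SimpleGraph.fromRel_adj, rel_iff, ne_eq,
      EmbeddingLike.apply_eq_iff_eq]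

theorem pbgIso_none (e : α ≃ β) {B : Set (Finset α)} {B' : Set (Finset β)}
    (he : (fun b => b.image e) '' B = B') : pbgIso e he none = none := rfl

theorem pbgIso_inl (e : α ≃ β) {B : Set (Finset α)} {B' : Set (Finset β)}
    (he : (fun b => b.image e) '' B = B') (a : α) :
    pbgIso e he (some (Sum.inl a)) = some (Sum.inl (e a)) := rfl

theorem pbgIso_inr (e : α ≃ β) {B : Set (Finset α)} {B' : Set (Finset β)}
    (he : (fun b => b.image e) '' B = B') (b : ↥B) :
    pbgIso e he (some (Sum.inr b)) = some (Sum.inr (blockEquiv e he b)) := rfl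

omit [DecidableEq α] in
theorem adj_none_inl {B : Set (Finset α)} (a : α) :
    (pointBlockGraph B).Adj none (some (Sum.inl a)) := by
  simp [pointBlockGraph, SimpleGraph.fromRel_adj, pointBlockRel]

omit [DecidableEq α] in
theorem not_adj_none_inr {B : Set (Finset α)} (b : ↥B) :
    ¬ (pointBlockGraph B).Adj none (some (Sum.inr b)) := by
  simp [pointBlockGraph, SimpleGraph.fromRel_adj, pointBlockRel]

omit [DecidableEq α] in
theorem adj_inl_inr {B : Set (Finset α)} (a : α) (b : ↥B) :
    (pointBlockGraph B).Adj (some (Sum.inl a)) (some (Sum.inr b)) ↔ a ∈ b.1 := by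
  simp [pointBlockGraph, SimpleGraph.fromRel_adj, pointBlockRel]

omit [DecidableEq α] in
theorem not_adj_inl_inl {B : Set (Finset α)} (a a' : α) :
    ¬ (pointBlockGraph B).Adj (some (Sum.inl a)) (some (Sum.inl a')) := by
  simp [pointBlockGraph, SimpleGraph.fromRel_adj, pointBlockRel]

omit [DecidableEq α] in
theorem adj_inr_inr {B : Set (Finset α)} (b b' : ↥B) :
    (pointBlockGraph B).Adj (some (Sum.inr b)) (some (Sum.inr b')) ↔
      b ≠ b' ∧ Disjoint b.1 b'.1 := by
  simp [pointBlockGraph, SimpleGraph.fromRel_adj, pointBlockRel, disjoint_comm]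

/-- The graph automorphism induced by an automorphism of the set system. -/
def autOfPerm {B : Set (Finset α)} (σ : setSystemAut B) :
    pointBlockGraph B ≃g pointBlockGraph B :=
  pbgIso σ.1 ((S12.mem_aut_iff_image σ.1).mp σ.2)

variable [Finite α]

/-- Every graph automorphism fixing the extra vertex comes from an automorphism of the set
system. -/
theorem exists_perm_of_fix {B : Set (Finset α)}
    (φ : pointBlockGraph B ≃g pointBlockGraph B) (h0 : φ none = none) :
    ∃ σ : setSystemAut B, autOfPerm σ = φ := by
  have hpt : ∀ a : α, ∃ a' : α, φ (some (Sum.inl a)) = some (Sum.inl a') := by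
    intro a
    have h := φ.map_rel_iff.mpr (adj_none_inl (B := B) a)
    rw [h0] at h
    rcases hx : φ (some (Sum.inl a)) with _ | a' | b
    · rw [hx] at h; exact absurd h (SimpleGraph.irrefl _)
    · exact ⟨a', rfl⟩
    · rw [hx] at h; exact absurd h (not_adj_none_inr b)
  have hbl : ∀ b : ↥B, ∃ b' : ↥B, φ (some (Sum.inr b)) = some (Sum.inr b') := by
    intro b
    rcases hx : φ (some (Sum.inr b)) with _ | a' | b'
    · rw [← h0] at hx
      exact absurd (φ.injective hx) (by simp)
    · have h := adj_none_inl (B := B) a'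
      rw [← hx, ← h0, φ.map_rel_iff] at h
      exact absurd h (not_adj_none_inr b)
    · exact ⟨b', rfl⟩
  choose s hs using hpt
  choose t ht using hbl
  have hinj : Function.Injective s := by
    intro a a' h
    have h1 : φ (some (Sum.inl a)) = φ (some (Sum.inl a')) := by rw [hs, hs, h]
    simpa using φ.injective h1
  let σ : Equiv.Perm α := Equiv.ofBijective s (Finite.injective_iff_bijective.mp hinj)
  have hσ : ∀ a, σ a = s a := fun a => rfl
  have himg : ∀ b : ↥B, (t b).1 = b.1.image σ := by
    intro b
    ext x
    obtain ⟨a, rfl⟩ := σ.surjective x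
    rw [← adj_inl_inr, hσ, ← hs, ← ht, φ.map_rel_iff, adj_inl_inr, Finset.mem_image]
    constructor
    · exact fun h => ⟨a, h, rfl⟩
    · rintro ⟨a', ha', h⟩
      rw [← σ.injective h]; exact ha'
  have hmem : σ ∈ setSystemAut B := by
    rw [S12.mem_aut_iff_image]
    apply Set.eq_of_subset_of_ncard_le
    · rintro _ ⟨b, hb, rfl⟩
      have h1 : (t ⟨b, hb⟩).1 = b.image σ := himg ⟨b, hb⟩
      show b.image σ ∈ B
      rw [← h1]
      exact (t ⟨b, hb⟩).2
    · rw [Set.ncard_image_of_injective _ (Finset.image_injective σ.injective)]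
    · exact Set.toFinite _
  refine ⟨⟨σ, hmem⟩, ?_⟩
  apply RelIso.ext
  intro x
  rcases x with _ | a | b
  · exact h0.symm
  · rw [hs]; rfl
  · rw [ht]
    show some (Sum.inr _) = _
    congr 2
    exact Subtype.ext (himg b).symm

/-- The stabiliser of the extra vertex in the automorphism group of the point-block graph
has the order of the automorphism group of the set system. -/
theorem card_stabilizer_none {B : Set (Finset α)} :
    Nat.card (MulAction.stabilizer (pointBlockGraph B ≃g pointBlockGraph B)
      (none : Option (α ⊕ ↥B))) = Nat.card (setSystemAut B) := by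
  symm
  apply Nat.card_eq_of_bijective
    (fun σ => (⟨autOfPerm σ, rfl⟩ : MulAction.stabilizer (pointBlockGraph B ≃g pointBlockGraph B)
      (none : Option (α ⊕ ↥B))))
  constructor
  · intro σ σ' h
    have h1 : autOfPerm σ = autOfPerm σ' := congrArg Subtype.val h
    apply Subtype.ext
    ext a
    have h2 := congrArg (fun φ => φ (some (Sum.inl a))) h1
    simpa [autOfPerm, pbgIso_inl] using h2
  · rintro ⟨φ, hφ⟩
    obtain ⟨σ, hσ⟩ := exists_perm_of_fix φ hφ
    exact ⟨σ, Subtype.ext hσ⟩

end General

/-- The permutation underlying a graph automorphism, as a homomorphism. -/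
def autToPerm {V : Type*} (G : SimpleGraph V) : (G ≃g G) →* Equiv.Perm V where
  toFun φ := φ.toEquiv
  map_one' := rfl
  map_mul' _ _ := rfl

theorem autToPerm_apply {V : Type*} (G : SimpleGraph V) (φ : G ≃g G) (v : V) :
    autToPerm G φ v = φ v := rfl

theorem autToPerm_injective {V : Type*} (G : SimpleGraph V) :
    Function.Injective (autToPerm G) := by
  intro φ ψ h
  apply RelIso.ext
  intro v
  exact congrArg (fun σ : Equiv.Perm V => σ v) h

end Cfsg.Agent.Lib.Helper9.HS
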