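import Mathlib
import Cfsg.Prelude.Def_Sporadic_a
import Cfsg.Agent.Lib.Helper9.HSGraph
import Cfsg.Agent.Lib.Helper9.M24Trans

set_option autoImplicit false

namespace Cfsg.Agent.Lib.Helper9.HS

open Cfsg

/-! ### General lemmas for the simplicity of the Higman–Sims group -/

/-- A normal subgroup of order 100 contains a subgroup of order 25 that is normal in the
whole group (its Sylow 5-subgroup). -/
theorem exists_normal_card25 {G : Type*} [Group G] [Finite G] (N : Subgroup G) [N.Normal]
    (hN : Nat.card N = 100) : ∃ P : Subgroup G, P.Normal ∧ Nat.card P = 25 ∧ P ≤ N := by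
  have : Fact (Nat.Prime 5) := ⟨by norm_num⟩
  obtain ⟨S⟩ : Nonempty (Sylow 5 N) := Sylow.nonempty
  have hS : Nat.card S = 25 := by
    obtain ⟨k, hk⟩ := IsPGroup.iff_card.mp S.isPGroup'
    have h1 : Nat.card S ∣ 100 := hN ▸ (S : Subgroup N).card_subgroup_dvd_card
    have h2 : 5 ^ 2 ∣ Nat.card S := S.pow_dvd_card_of_pow_dvd_card (by rw [hN]; norm_num)
    rw [hk] at h1 h2 ⊢
    have hk3 : k < 3 := by
      by_contra hcon
      have h3 : 5 ^ 3 ∣ 5 ^ k := pow_dvd_pow 5 (by omega)
      have h4 := h3.trans h1
      norm_num at h4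
    interval_cases k
    · norm_num at h2
    · norm_num at h2
    · norm_num
  have hidx : (S : Subgroup N).index = 4 := by
    have h1 := Subgroup.card_mul_index (S : Subgroup N)
    rw [hS, hN] at h1
    omega
  have h1 := card_sylow_modEq_one 5 N
  have h2 := S.card_dvd_index
  rw [hidx] at h2
  have h3 : Nat.card (Sylow 5 N) = 1 := by
    have hle := Nat.le_of_dvd (by norm_num) h2
    unfold Nat.ModEq at h1
    interval_cases (Nat.card (Sylow 5 N)) <;> simp_all
  have : Subsingleton (Sylow 5 N) := (Nat.card_eq_one_iff_unique.mp h3).1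
  have := Sylow.characteristic_of_subsingleton S
  refine ⟨(S : Subgroup N).map N.subtype, ConjAct.normal_of_characteristic_of_normal, ?_, ?_⟩
  · rw [← hS]
    exact (Nat.card_congr
      ((S : Subgroup N).equivMapOfInjective N.subtype N.subtype_injective).toEquiv).symm
  · exact Subgroup.map_subtype_le _

/-- A simplicity criterion: a faithful transitive action on a set whose point stabiliser is
simple of order 443520 and has orbit unions (containing the point) of sizes only
1, 23, 78 and 100, for a group of order 44352000. -/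
theorem simple_of_rank3 {G X : Type*} [Group G] [Finite G] [MulAction G X] [FaithfulSMul G X]
    (x0 : X) (htrans : ∀ x : X, ∃ g : G, g • x0 = x)
    (hK : IsSimpleGroup (MulAction.stabilizer G x0))
    (hKcard : Nat.card (MulAction.stabilizer G x0) = 443520)
    (hinv : ∀ S : Set X, x0 ∈ S → (∀ k ∈ MulAction.stabilizer G x0, ∀ s ∈ S, k • s ∈ S) →
      S.ncard = 1 ∨ S.ncard = 23 ∨ S.ncard = 78 ∨ S.ncard = 100)
    (hG : Nat.card G = 44352000) : IsSimpleGroup G := by
  have horb : ∀ N : Subgroup G, N.Normal → (MulAction.orbit N x0).ncard = 1 ∨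
      (MulAction.orbit N x0).ncard = 23 ∨ (MulAction.orbit N x0).ncard = 78 ∨
      (MulAction.orbit N x0).ncard = 100 := by
    intro N hN
    apply hinv
    · exact MulAction.mem_orbit_self x0
    · rintro k hk _ ⟨n, rfl⟩
      refine ⟨⟨k * n * k⁻¹, hN.conj_mem n n.2 k⟩, ?_⟩
      show (k * (n : G) * k⁻¹) • x0 = k • ((n : G) • x0)
      have h1 : k⁻¹ • x0 = x0 := (MulAction.stabilizer G x0).inv_mem hk
      rw [mul_smul, mul_smul, h1]
  have hcardN : ∀ N : Subgroup G, Nat.card N =
      (MulAction.orbit N x0).ncard * Nat.card ↥(N ⊓ MulAction.stabilizer G x0) :=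
    fun N => Cfsg.Agent.Lib.Helper9.card_eq_orbit_mul_stab' N x0
  have htriv : ∀ N : Subgroup G, N.Normal → (MulAction.orbit N x0).ncard = 1 → N = ⊥ := by
    intro N hN h1
    rw [Set.ncard_eq_one] at h1
    obtain ⟨y, hy⟩ := h1
    have hfix : ∀ n ∈ N, n • x0 = x0 := by
      intro n hn
      have h2 : n • x0 ∈ MulAction.orbit N x0 := ⟨⟨n, hn⟩, rfl⟩
      have h3 : x0 ∈ MulAction.orbit N x0 := MulAction.mem_orbit_self x0
      rw [hy, Set.mem_singleton_iff] at h2 h3
      rw [h2, h3]
    rw [Subgroup.eq_bot_iff_forall]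
    intro n hn
    apply FaithfulSMul.eq_of_smul_eq_smul (α := X)
    intro x
    obtain ⟨g, rfl⟩ := htrans x
    have h4 : n * g = g * (g⁻¹ * n * g) := by group
    have h5 : g⁻¹ * n * g ∈ N := by
      have := hN.conj_mem n hn g⁻¹
      simpa using this
    rw [one_smul, ← mul_smul, h4, mul_smul, hfix _ h5]
  have hdisj : ∀ N : Subgroup G, N.Normal → N ⊓ MulAction.stabilizer G x0 = ⊥ →
      Nat.card N = 1 ∨ Nat.card N = 23 ∨ Nat.card N = 78 ∨ Nat.card N = 100 := by
    intro N hN hNK
    have h1 := hcardN N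
    rw [hNK, Subgroup.card_bot, mul_one] at h1
    rw [h1]
    exact horb N hN
  have : Nontrivial G := Finite.one_lt_card_iff_nontrivial.mp (by rw [hG]; norm_num)
  refine ⟨fun N hN => ?_⟩
  have hsub : (N.subgroupOf (MulAction.stabilizer G x0)).Normal := hN.subgroupOf _
  rcases hsub.eq_bot_or_eq_top with h | h
  · rw [Subgroup.subgroupOf_eq_bot, disjoint_iff] at h
    rcases hdisj N hN h with h1 | h1 | h1 | h1
    · exact Or.inl (Subgroup.eq_bot_of_card_eq N h1)
    · exfalso
      have h2 := N.card_subgroup_dvd_card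
      rw [h1, hG] at h2
      norm_num at h2
    · exfalso
      have h2 := N.card_subgroup_dvd_card
      rw [h1, hG] at h2
      norm_num at h2
    · exfalso
      obtain ⟨P, hPn, hP25, hPN⟩ := exists_normal_card25 N h1
      have hPK : P ⊓ MulAction.stabilizer G x0 = ⊥ :=
        le_bot_iff.mp (h ▸ inf_le_inf_right _ hPN)
      rcases hdisj P hPn hPK with h2 | h2 | h2 | h2 <;> omega
  · rw [Subgroup.subgroupOf_eq_top] at h
    have h1 := hcardN N
    rw [inf_eq_right.mpr h, hKcard] at h1
    have hdvd := N.card_subgroup_dvd_card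
    rw [h1, hG] at hdvd
    rcases horb N hN with h2 | h2 | h2 | h2
    · exfalso
      have h3 := htriv N hN h2
      rw [h3] at h
      have h4 : MulAction.stabilizer G x0 = ⊥ := le_bot_iff.mp h
      rw [h4, Subgroup.card_bot] at hKcard
      omega
    · exfalso
      rw [h2] at hdvd
      norm_num at hdvd
    · exfalso
      rw [h2] at hdvd
      norm_num at hdvd
    · right
      apply Subgroup.eq_top_of_card_eq
      rw [h1, h2, hG]

/-- Conjugation by a graph isomorphism, as an isomorphism of automorphism groups. -/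
def autCongr {V W : Type*} {G : SimpleGraph V} {G' : SimpleGraph W} (ι : G ≃g G') :
    (G ≃g G) ≃* (G' ≃g G') where
  toFun φ := (ι.symm.trans φ).trans ι
  invFun ψ := (ι.trans ψ).trans ι.symm
  left_inv φ := by
    apply RelIso.ext
    intro v
    show ι.symm (ι (φ (ι.symm (ι v)))) = φ v
    rw [RelIso.symm_apply_apply, RelIso.symm_apply_apply]
  right_inv ψ := by
    apply RelIso.ext
    intro v
    show ι (ι.symm (ψ (ι (ι.symm v)))) = ψ v
    rw [RelIso.apply_symm_apply, RelIso.apply_symm_apply]
  map_mul' φ ψ := by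
    apply RelIso.ext
    intro v
    show ι (φ (ψ (ι.symm v))) = ι (φ (ι.symm (ι (ψ (ι.symm v)))))
    rw [RelIso.symm_apply_apply]

theorem autCongr_apply {V W : Type*} {G : SimpleGraph V} {G' : SimpleGraph W} (ι : G ≃g G')
    (φ : G ≃g G) (w : W) : autCongr ι φ w = ι (φ (ι.symm w)) := rfl

section Hom

variable {α : Type*} [DecidableEq α]

theorem autOfPerm_mul {B : Set (Finset α)} (σ τ : setSystemAut B) :
    autOfPerm (σ * τ) = autOfPerm σ * autOfPerm τ := by
  apply RelIso.ext
  intro x
  rcases x with _ | a | b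
  · rfl
  · rfl
  · show some (Sum.inr _) = some (Sum.inr _)
    congr 2
    apply Subtype.ext
    show b.1.image (σ.1 * τ.1) = (b.1.image τ.1).image σ.1
    rw [Finset.image_image]
    rfl

/-- `autOfPerm` as a homomorphism. -/
def autOfPermHom (B : Set (Finset α)) :
    setSystemAut B →* (pointBlockGraph B ≃g pointBlockGraph B) :=
  MonoidHom.mk' autOfPerm autOfPerm_mul

theorem autOfPermHom_injective (B : Set (Finset α)) :
    Function.Injective (autOfPermHom B) := by
  intro σ σ' h
  apply Subtype.ext
  ext a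
  have h2 := congrArg (fun φ : pointBlockGraph B ≃g pointBlockGraph B =>
    φ (some (Sum.inl a))) h
  simpa [autOfPermHom, autOfPerm, pbgIso_inl] using h2

theorem autOfPermHom_none (B : Set (Finset α)) (σ : setSystemAut B) :
    autOfPermHom B σ none = none := rfl

end Hom

/-- A homomorphism from a simple group of order 443520 to the units of `ℤ` is trivial. -/
theorem hom_units_trivial {M : Type*} [Group M] [IsSimpleGroup M] (hM : Nat.card M = 443520)
    (g : M →* ℤˣ) (m : M) : g m = 1 := by
  rcases g.normal_ker.eq_bot_or_eq_top with h | h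
  · exfalso
    have hinj : Function.Injective g := (MonoidHom.ker_eq_bot_iff g).mp h
    have h1 := Nat.card_le_card_of_injective g hinj
    rw [hM] at h1
    have h2 : Nat.card ℤˣ = 2 := by
      rw [Nat.card_eq_fintype_card]; rfl
    omega
  · have h1 : m ∈ g.ker := by rw [h]; exact Subgroup.mem_top m
    exact h1

end Cfsg.Agent.Lib.Helper9.HS
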