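import Mathlib
import Cfsg.Prelude.Def_Sporadic_a
import Cfsg.Prelude.Def_Sporadic
import Cfsg.Agent.Lib.Helper9.HSSimpleGen
import Cfsg.Agent.Lib.Helper9.HSConc2
import Cfsg.Agent.Lib.Helper9.HSAut

set_option autoImplicit false

namespace Cfsg.Agent.Lib.Helper9.HS

open Cfsg

/-! ### The even automorphisms of the concrete graph form a simple group -/

/-- The sign of an automorphism of the concrete graph. -/
def sgn : (Γc ≃g Γc) →* ℤˣ := Equiv.Perm.sign.comp (autToPerm Γc)

/-- The group of even automorphisms of the concrete graph. -/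
def Hc : Subgroup (Γc ≃g Γc) := sgn.ker

instance finite_aut_conc : Finite (Γc ≃g Γc) :=
  Finite.of_injective (autToPerm Γc) (autToPerm_injective Γc)

theorem mem_Hc {φ : Γc ≃g Γc} : φ ∈ Hc ↔ Equiv.Perm.sign (autToPerm Γc φ) = 1 := Iff.rfl

theorem card_aut_conc : Nat.card (Γc ≃g Γc) = 88704000 := by
  rw [← card_aut (α := Fin 22) (by simp) B0_steiner]
  exact (Nat.card_congr (autCongr isoConc).toEquiv).symm

theorem index_Hc : Hc.index = 2 := by
  rw [Subgroup.index_eq_two_iff]
  obtain ⟨φ0, hφ0, -⟩ := conc_odd_fix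
  refine ⟨φ0, fun b => ?_⟩
  have hb : sgn (b * φ0) = sgn b * -1 := by
    rw [map_mul]
    congr 1
  rcases Int.units_eq_one_or (sgn b) with h | h
  · refine Or.inr ⟨h, ?_⟩
    intro h'
    have h2 : sgn (b * φ0) = 1 := h'
    rw [hb, h] at h2
    exact absurd h2 (by decide)
  · refine Or.inl ⟨?_, ?_⟩
    · show sgn (b * φ0) = 1
      rw [hb, h]
      decide
    · intro h'
      have h2 : sgn b = 1 := h'
      rw [h] at h2
      exact absurd h2 (by decide)

theorem card_Hc : Nat.card Hc = 44352000 := by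
  have h1 := Subgroup.card_mul_index Hc
  rw [index_Hc, card_aut_conc] at h1
  omega

theorem Hc_trans (x : Fin 100) : ∃ g : Hc, g • (0 : Fin 100) = x := by
  obtain ⟨φ, hs, h0⟩ := conc_trans x
  exact ⟨⟨φ, mem_Hc.mpr hs⟩, h0⟩

theorem card_stab_Hc : Nat.card (MulAction.stabilizer Hc (0 : Fin 100)) = 443520 := by
  have h1 := Subgroup.card_mul_index (MulAction.stabilizer Hc (0 : Fin 100))
  have horb : MulAction.orbit Hc (0 : Fin 100) = Set.univ := by
    ext x
    simp only [Set.mem_univ, iff_true]
    obtain ⟨g, hg⟩ := Hc_trans x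
    exact ⟨g, hg⟩
  have h100 : Nat.card (Fin 100) = 100 := by
    rw [Nat.card_eq_fintype_card, Fintype.card_fin]
  rw [MulAction.index_stabilizer, horb, Set.ncard_univ, card_Hc, h100] at h1
  omega

/-- The embedding of the automorphism group of the concrete Steiner system. -/
noncomputable def Θ : setSystemAut B0 →* (Γc ≃g Γc) :=
  (autCongr isoConc).toMonoidHom.comp (autOfPermHom B0)

theorem Θ_injective : Function.Injective Θ :=
  (autCongr isoConc).injective.comp (autOfPermHom_injective B0)

theorem Θ_zero (σ : setSystemAut B0) : Θ σ 0 = 0 := by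
  show isoConc (autOfPermHom B0 σ (isoConc.symm 0)) = 0
  have h1 : isoConc.symm 0 = none := by
    rw [RelIso.symm_apply_eq]
    rfl
  rw [h1, autOfPermHom_none]
  rfl

theorem simple_stab_Hc : IsSimpleGroup (MulAction.stabilizer Hc (0 : Fin 100)) := by
  obtain ⟨-, -, M, -, hMs, hMc⟩ :=
    Cfsg.Agent.S0414.result (α := Fin 22) (by simp) B0_steiner
  have := hMs
  have hev : ∀ m : M, Θ (m : setSystemAut B0) ∈ Hc := fun m =>
    hom_units_trivial hMc ((sgn.comp Θ).comp M.subtype) m
  let f : M →* Hc := (Θ.comp M.subtype).codRestrict Hc hev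
  have hf : Function.Injective f := by
    intro m m' h
    have h1 : Θ (m : setSystemAut B0) = Θ (m' : setSystemAut B0) := congrArg Subtype.val h
    exact Subtype.ext (Θ_injective h1)
  have hle : f.range ≤ MulAction.stabilizer Hc (0 : Fin 100) := by
    rintro _ ⟨m, rfl⟩
    exact Θ_zero (m : setSystemAut B0)
  have hcard : Nat.card f.range = 443520 := by
    rw [← hMc]
    exact (Nat.card_congr (MonoidHom.ofInjective hf).toEquiv).symm
  have heq : f.range = MulAction.stabilizer Hc (0 : Fin 100) :=
    Subgroup.eq_of_le_of_card_ge hle (by rw [hcard, card_stab_Hc])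
  exact ((MulEquiv.subgroupCongr heq.symm).trans (MonoidHom.ofInjective hf).symm).isSimpleGroup

theorem ncard_setOf (q : Fin 100 → Prop) [DecidablePred q] :
    Set.ncard {i : Fin 100 | q i} = (Finset.univ.filter q).card := by
  rw [Set.ncard_eq_toFinset_card']
  congr 1
  ext i
  simp

theorem inv_sets (S : Set (Fin 100)) (h0 : (0 : Fin 100) ∈ S)
    (hS : ∀ k ∈ MulAction.stabilizer Hc (0 : Fin 100), ∀ s ∈ S, k • s ∈ S) :
    S.ncard = 1 ∨ S.ncard = 23 ∨ S.ncard = 78 ∨ S.ncard = 100 := by
  classical
  have key : ∀ i : Fin 100, i ∈ S ↔ (⟨baseOf i.val, baseOf_lt i.val⟩ : Fin 100) ∈ S := by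
    intro i
    obtain ⟨φ, hs, hφ0, hφ⟩ := conc_stab_trans i
    have hk : (⟨φ, mem_Hc.mpr hs⟩ : Hc) ∈ MulAction.stabilizer Hc (0 : Fin 100) := hφ0
    constructor
    · intro hi
      have h1 := hS _ ((MulAction.stabilizer Hc (0 : Fin 100)).inv_mem hk) i hi
      have h2 : (⟨φ, mem_Hc.mpr hs⟩ : Hc)⁻¹ • i =
          (⟨baseOf i.val, baseOf_lt i.val⟩ : Fin 100) := by
        rw [inv_smul_eq_iff]
        exact hφ.symm
      rw [h2] at h1
      exact h1
    · intro hb
      have h1 := hS _ hk _ hb
      have h2 : (⟨φ, mem_Hc.mpr hs⟩ : Hc) • (⟨baseOf i.val, baseOf_lt i.val⟩ : Fin 100) = i := hφ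
      rw [h2] at h1
      exact h1
  have hset : S = {i : Fin 100 | i.val = 0 ∨ (i.val ≠ 0 ∧ i.val ≤ 22 ∧ (1 : Fin 100) ∈ S) ∨
      (22 < i.val ∧ (23 : Fin 100) ∈ S)} := by
    ext i
    rw [key i, Set.mem_ofPred_eq]
    by_cases hi0 : i.val = 0
    · have h1 : (⟨baseOf i.val, baseOf_lt i.val⟩ : Fin 100) = 0 := by
        apply Fin.ext
        show baseOf i.val = 0
        rw [baseOf, if_pos hi0]
      rw [h1]
      simp [hi0, h0]
    · by_cases hi : i.val ≤ 22
      · have h1 : (⟨baseOf i.val, baseOf_lt i.val⟩ : Fin 100) = 1 := by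
          apply Fin.ext
          show baseOf i.val = 1
          rw [baseOf, if_neg hi0, if_pos hi]
        rw [h1]
        have h2 : ¬ 22 < i.val := by omega
        simp [hi0, hi, h2]
      · have h1 : (⟨baseOf i.val, baseOf_lt i.val⟩ : Fin 100) = 23 := by
          apply Fin.ext
          show baseOf i.val = 23
          rw [baseOf, if_neg hi0, if_neg hi]
        rw [h1]
        have h2 : 22 < i.val := by omega
        simp [hi0, hi, h2]
  rw [hset]
  by_cases hp : (1 : Fin 100) ∈ S <;> by_cases hb : (23 : Fin 100) ∈ S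
  · right; right; right
    simp only [hp, hb, and_true]
    rw [ncard_setOf]
    decide +kernel
  · right; left
    simp only [hp, hb, and_true, and_false, or_false]
    rw [ncard_setOf]
    decide +kernel
  · right; right; left
    simp only [hp, hb, and_true, and_false, false_or]
    rw [ncard_setOf]
    decide +kernel
  · left
    simp only [hp, hb, and_false, or_false]
    rw [ncard_setOf]
    decide +kernel

/-- The group of even automorphisms of the concrete graph is simple. -/
theorem simple_Hc : IsSimpleGroup Hc :=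
  simple_of_rank3 (G := Hc) (X := Fin 100) 0 Hc_trans simple_stab_Hc card_stab_Hc inv_sets
    card_Hc

/-- The automorphism group of the point-block graph of a Steiner system `S(3,6,22)`
contains a simple subgroup of order 44352000. -/
theorem exists_isHS {α : Type*} [Fintype α] (hα : Fintype.card α = 22) {B : Set (Finset α)}
    (hB : IsSteinerSystem 3 6 B) :
    ∃ H : Subgroup (pointBlockGraph B ≃g pointBlockGraph B), IsHS H := by
  classical
  obtain ⟨ι, -⟩ := exists_iso_conc hα hB
  let e : (Γc ≃g Γc) ≃* (pointBlockGraph B ≃g pointBlockGraph B) := (autCongr ι).symm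
  let E : Hc ≃* Hc.map e.toMonoidHom := Hc.equivMapOfInjective e.toMonoidHom e.injective
  refine ⟨Hc.map e.toMonoidHom, ?_, ?_⟩
  · have := simple_Hc
    exact E.symm.isSimpleGroup
  · rw [← card_Hc]
    exact (Nat.card_congr E.toEquiv).symm

end Cfsg.Agent.Lib.Helper9.HS
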