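import Mathlib
import Cfsg.Prelude.Def_Sporadic_a
import Cfsg.Agent.Lib.Helper9.HSData
import Cfsg.Agent.Lib.Helper9.HSGraph

set_option autoImplicit false

namespace Cfsg.Agent.Lib.Helper9.HS

open Cfsg

/-! ### A concrete Steiner system `S(3,6,22)` -/

/-- The mask of the `j`-th block. -/
def msk (j : ℕ) : ℕ := L0.getD j 0

/-- The subset of `Fin 22` with bit mask `m`. -/
def ofM (m : ℕ) : Finset (Fin 22) := Finset.univ.filter (fun i => m.testBit i.val = true)

theorem mem_ofM {m : ℕ} {i : Fin 22} : i ∈ ofM m ↔ m.testBit i.val = true := by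
  simp [ofM]

theorem testBit_ge {m i : ℕ} (hm : m < 4194304) (hi : ¬ i < 22) : m.testBit i = false := by
  apply Nat.testBit_lt_two_pow
  calc m < 2 ^ 22 := hm
    _ ≤ 2 ^ i := Nat.pow_le_pow_right (by norm_num) (by omega)

theorem ofM_disjoint {m n : ℕ} (hm : m < 4194304) :
    Disjoint (ofM m) (ofM n) ↔ m &&& n = 0 := by
  rw [Finset.disjoint_left]
  constructor
  · intro h
    apply Nat.eq_of_testBit_eq
    intro i
    rw [Nat.testBit_and, Nat.zero_testBit]
    by_cases hi : i < 22
    · have h1 := @h ⟨i, hi⟩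
      simp only [mem_ofM] at h1
      cases hmi : m.testBit i
      · simp
      · simpa using h1 hmi
    · simp [testBit_ge hm hi]
  · intro h i hi hi'
    rw [mem_ofM] at hi hi'
    have h1 : (m &&& n).testBit i.val = true := by rw [Nat.testBit_and, hi, hi']; rfl
    rw [h, Nat.zero_testBit] at h1
    exact Bool.false_ne_true h1

theorem ofM_inj {m n : ℕ} (hm : m < 4194304) (hn : n < 4194304) (h : ofM m = ofM n) : m = n := by
  apply Nat.eq_of_testBit_eq
  intro i
  by_cases hi : i < 22
  · have h1 : (⟨i, hi⟩ : Fin 22) ∈ ofM m ↔ (⟨i, hi⟩ : Fin 22) ∈ ofM n := by rw [h]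
    simp only [mem_ofM] at h1
    cases hmi : m.testBit i <;> cases hni : n.testBit i <;> simp_all
  · rw [testBit_ge hm hi, testBit_ge hn hi]

/-- The `j`-th block. -/
def blk (j : Fin 77) : Finset (Fin 22) := ofM (msk j.val)

theorem msk_lt : ∀ j : Fin 77, msk j.val < 4194304 := by decide +kernel

theorem msk_inj : ∀ j k : Fin 77, msk j.val = msk k.val → j = k := by decide +kernel

set_option maxRecDepth 100000 in
theorem card_blk : ∀ j : Fin 77, (blk j).card = 6 := by decide +kernel

theorem blk_injective : Function.Injective blk := by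
  intro j k h
  exact msk_inj j k (ofM_inj (msk_lt j) (msk_lt k) h)

/-- The block `j` contains the points `a`, `b`, `c`. -/
def tri (j a b c : ℕ) : Bool := (msk j).testBit a && (msk j).testBit b && (msk j).testBit c

/-- Every triple of distinct points lies in exactly one block (Boolean check). -/
def triOK : Bool :=
  (List.range 22).all fun a => (List.range 22).all fun b => (List.range 22).all fun c =>
    (a == b || a == c || b == c) ||
      (((List.range 77).filter (fun j => tri j a b c)).length == 1)

set_option maxRecDepth 100000 in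
theorem triOK_true : triOK = true := by decide +kernel

theorem triple_unique (a b c : Fin 22) (hab : a ≠ b) (hac : a ≠ c) (hbc : b ≠ c) :
    ∃ j : Fin 77, tri j.val a.val b.val c.val = true ∧
      ∀ j' : Fin 77, tri j'.val a.val b.val c.val = true → j' = j := by
  have h := triOK_true
  simp only [triOK, List.all_eq_true, List.mem_range, Bool.or_eq_true, beq_iff_eq] at h
  have h1 := h a.val a.isLt b.val b.isLt c.val c.isLt
  have hab' : a.val ≠ b.val := fun h' => hab (Fin.ext h')
  have hac' : a.val ≠ c.val := fun h' => hac (Fin.ext h')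
  have hbc' : b.val ≠ c.val := fun h' => hbc (Fin.ext h')
  have h2 : ((List.range 77).filter (fun j => tri j a.val b.val c.val)).length = 1 := by
    rcases h1 with (((h1 | h1) | h1) | h1)
    · exact absurd h1 hab'
    · exact absurd h1 hac'
    · exact absurd h1 hbc'
    · exact h1
  obtain ⟨j0, hj0⟩ := List.length_eq_one_iff.mp h2
  have hmem : ∀ j : ℕ, (j < 77 ∧ tri j a.val b.val c.val = true) ↔ j = j0 := by
    intro j
    have h3 : j ∈ (List.range 77).filter (fun j => tri j a.val b.val c.val) ↔ j ∈ [j0] := by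
      rw [hj0]
    rw [List.mem_filter, List.mem_range, List.mem_singleton] at h3
    exact h3
  obtain ⟨hlt, htri⟩ := (hmem j0).mpr rfl
  refine ⟨⟨j0, hlt⟩, htri, ?_⟩
  intro j' hj'
  exact Fin.ext ((hmem j'.val).mp ⟨j'.isLt, hj'⟩)

/-- The concrete Steiner system. -/
abbrev B0 : Set (Finset (Fin 22)) := Set.range blk

theorem B0_steiner : IsSteinerSystem 3 6 B0 := by
  refine ⟨?_, ?_⟩
  · rintro _ ⟨j, rfl⟩
    exact card_blk j
  · intro T hT
    obtain ⟨a, b, c, hab, hac, hbc, rfl⟩ := Finset.card_eq_three.mp hT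
    obtain ⟨j, hj, huniq⟩ := triple_unique a b c hab hac hbc
    have key : ∀ j' : Fin 77, ({a, b, c} : Finset (Fin 22)) ⊆ blk j' ↔
        tri j'.val a.val b.val c.val = true := by
      intro j'
      simp only [Finset.insert_subset_iff, Finset.singleton_subset_iff, blk, mem_ofM, tri,
        Bool.and_eq_true, and_assoc]
    refine ⟨blk j, ⟨⟨j, rfl⟩, (key j).mpr hj⟩, ?_⟩
    rintro _ ⟨⟨j', rfl⟩, hsub⟩
    rw [huniq j' ((key j').mp hsub)]

end Cfsg.Agent.Lib.Helper9.HS
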