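import Mathlib
import Cfsg.Agent.Lib.Helper9.J2Data

set_option autoImplicit false

namespace Cfsg.Agent.Lib.Helper9.J2

/-! ### The Hall-Janko graph on `Fin 100` and its automorphisms -/

/-- Adjacency of the Hall-Janko graph on codes. -/
def adjN (i j : ℕ) : Bool := (rows.getD i 0).testBit j

/-- The group of automorphisms of the Hall-Janko graph, as permutations of `Fin 100`. -/
def AutP : Subgroup (Equiv.Perm (Fin 100)) where
  carrier := {σ | ∀ i j : Fin 100, adjN (σ i).val (σ j).val = adjN i.val j.val}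
  mul_mem' := by
    intro σ τ hσ hτ i j
    show adjN (σ (τ i)).val (σ (τ j)).val = _
    rw [hσ, hτ]
  one_mem' := fun _ _ => rfl
  inv_mem' := by
    intro σ hσ i j
    have h := hσ (σ⁻¹ i) (σ⁻¹ j)
    rw [show σ (σ⁻¹ i) = i from Equiv.apply_symm_apply σ i,
      show σ (σ⁻¹ j) = j from Equiv.apply_symm_apply σ j] at h
    exact h.symm

theorem mem_AutP {σ : Equiv.Perm (Fin 100)} :
    σ ∈ AutP ↔ ∀ i j : Fin 100, adjN (σ i).val (σ j).val = adjN i.val j.val := Iff.rfl

/-- The pointwise stabiliser of a list of points. -/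
def fixL (l : List (Fin 100)) : Subgroup (Equiv.Perm (Fin 100)) where
  carrier := {σ | ∀ y ∈ l, σ y = y}
  mul_mem' := by
    intro σ τ hσ hτ y hy
    show σ (τ y) = y
    rw [hτ y hy, hσ y hy]
  one_mem' := fun _ _ => rfl
  inv_mem' := by
    intro σ hσ y hy
    exact Equiv.Perm.inv_eq_iff_eq.mpr (hσ y hy).symm

theorem mem_fixL {l : List (Fin 100)} {σ : Equiv.Perm (Fin 100)} :
    σ ∈ fixL l ↔ ∀ y ∈ l, σ y = y := Iff.rfl

theorem inf_fixL_cons (S : Subgroup (Equiv.Perm (Fin 100))) (x : Fin 100) (l : List (Fin 100)) :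
    (S ⊓ fixL l) ⊓ MulAction.stabilizer (Equiv.Perm (Fin 100)) x = S ⊓ fixL (x :: l) := by
  ext σ
  simp only [Subgroup.mem_inf, mem_fixL, MulAction.mem_stabilizer_iff, Equiv.Perm.smul_def,
    List.mem_cons, forall_eq_or_imp]
  tauto

/-- Orbit-stabiliser for a subgroup acting through the ambient group. -/
theorem card_orbit_mul {G X : Type*} [Group G] [MulAction G X] (H : Subgroup G) (b : X) :
    Nat.card H = (MulAction.orbit H b).ncard * Nat.card ↥(H ⊓ MulAction.stabilizer G b) := by
  have h1 := Subgroup.card_mul_index (MulAction.stabilizer H b)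
  rw [MulAction.index_stabilizer] at h1
  have h2 : MulAction.stabilizer H b = (MulAction.stabilizer G b).subgroupOf H := by
    ext x
    rw [Subgroup.mem_subgroupOf, MulAction.mem_stabilizer_iff, MulAction.mem_stabilizer_iff]
    rfl
  have h3 : Nat.card (MulAction.stabilizer H b) =
      Nat.card ↥(H ⊓ MulAction.stabilizer G b) := by
    rw [h2, ← Subgroup.inf_subgroupOf_right, inf_comm]
    exact Nat.card_congr (Subgroup.subgroupOfEquivOfLe inf_le_left).toEquiv
  rw [← h1, h3, mul_comm]

/-! ### Upper bounds along a chain of stabilisers -/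

/-- The candidates for the image of `x` under an automorphism fixing the points of `l`. -/
def candL (l : List (Fin 100)) (x : Fin 100) : List (Fin 100) :=
  (List.finRange 100).filter (fun w => l.all (fun y =>
    (adjN w.val y.val == adjN x.val y.val) && (w != y)))

theorem orbit_subset_cand (l : List (Fin 100)) (x : Fin 100) (hx : x ∉ l) :
    MulAction.orbit ↥(AutP ⊓ fixL l) x ⊆ {w | w ∈ candL l x} := by
  rintro _ ⟨⟨g, hg⟩, rfl⟩
  rw [Subgroup.mem_inf] at hg
  show g x ∈ candL l x
  rw [candL, List.mem_filter]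
  refine ⟨List.mem_finRange _, ?_⟩
  rw [List.all_eq_true]
  intro y hy
  rw [Bool.and_eq_true, beq_iff_eq, bne_iff_ne]
  have h1 := hg.1 x y
  rw [hg.2 y hy] at h1
  refine ⟨h1, fun h2 => hx ?_⟩
  have h3 : g x = g y := by rw [h2, hg.2 y hy]
  rw [g.injective h3]
  exact hy

theorem upper_step (l : List (Fin 100)) (x : Fin 100) (c : ℕ) (hx : x ∉ l)
    (h : (candL l x).length ≤ c) :
    Nat.card ↥(AutP ⊓ fixL l) ≤ c * Nat.card ↥(AutP ⊓ fixL (x :: l)) := by
  rw [card_orbit_mul (AutP ⊓ fixL l) x, inf_fixL_cons]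
  apply Nat.mul_le_mul_right
  have h1 : ({w | w ∈ candL l x} : Set (Fin 100)) = ↑(candL l x).toFinset := by
    ext w
    simp
  have h2 : (MulAction.orbit ↥(AutP ⊓ fixL l) x).ncard ≤ ({w | w ∈ candL l x} : Set (Fin 100)).ncard :=
    Set.ncard_le_ncard (orbit_subset_cand l x hx) (Set.toFinite _)
  rw [h1, Set.ncard_coe_finset] at h2
  exact h2.trans ((List.toFinset_card_le _).trans h)

/-- The condition that the vertices after the first `m` in the ordering are determined by their
adjacencies to the earlier ones. -/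
def rigidOK (ord : List (Fin 100)) (m : ℕ) : Bool :=
  (List.finRange 100).all (fun w => ord.contains w) && (ord.length == 100) &&
  (List.range 100).all (fun k => decide (k < m) || (List.finRange 100).all (fun w =>
    w == ord.getD k 0 || (List.range k).any (fun j =>
      adjN w.val (ord.getD j 0).val != adjN (ord.getD k 0).val (ord.getD j 0).val)))

theorem rigid (ord : List (Fin 100)) (m : ℕ) (h : rigidOK ord m = true)
    (σ : Equiv.Perm (Fin 100)) (hσ : σ ∈ AutP)
    (hfix : ∀ j < m, σ (ord.getD j 0) = ord.getD j 0) : σ = 1 := by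
  simp only [rigidOK, Bool.and_eq_true, List.all_eq_true, List.mem_finRange, forall_const,
    List.contains_iff_mem, beq_iff_eq, List.mem_range, Bool.or_eq_true, decide_eq_true_eq,
    List.any_eq_true, bne_iff_ne, ne_eq] at h
  obtain ⟨⟨h1, h2⟩, h3⟩ := h
  have key : ∀ k, k ≤ 100 → ∀ j < k, σ (ord.getD j 0) = ord.getD j 0 := by
    intro k
    induction k with
    | zero => intro _ j hj; omega
    | succ k ih =>
      intro hk j hj
      have ih' := ih (by omega)
      rcases Nat.lt_succ_iff_lt_or_eq.mp hj with hj' | rfl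
      · exact ih' j hj'
      · rcases h3 j (by omega) with hm | hr
        · exact hfix j hm
        · rcases hr (σ (ord.getD j 0)) with he | ⟨i, hi, hne⟩
          · exact he
          · exfalso
            apply hne
            have := hσ (ord.getD j 0) (ord.getD i 0)
            rw [ih' i hi] at this
            exact this
  apply Equiv.ext
  intro w
  have hw := h1 w
  obtain ⟨j, hj, rfl⟩ := List.mem_iff_getElem.mp hw
  have : ord.getD j 0 = ord[j] := by
    rw [List.getD_eq_getElem?_getD, List.getElem?_eq_getElem hj]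
    rfl
  rw [← this]
  exact key 100 le_rfl j (by omega)

/-! ### Automorphisms given by tables -/

/-- The conditions for a pair of tables to define an automorphism of the graph. -/
def tblOK (T Ti : List ℕ) : Bool :=
  (List.range 100).all (fun i => decide (T.getD i 0 < 100) && decide (Ti.getD i 0 < 100) &&
    (Ti.getD (T.getD i 0) 0 == i) && (T.getD (Ti.getD i 0) 0 == i)) &&
  (List.range 100).all (fun i => (List.range 100).all (fun j =>
    adjN (T.getD i 0) (T.getD j 0) == adjN i j))

theorem tblOK_spec {T Ti : List ℕ} (h : tblOK T Ti = true) (i : ℕ) (hi : i < 100) :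
    T.getD i 0 < 100 ∧ Ti.getD i 0 < 100 ∧ Ti.getD (T.getD i 0) 0 = i ∧
      T.getD (Ti.getD i 0) 0 = i := by
  simp only [tblOK, Bool.and_eq_true, List.all_eq_true, List.mem_range, decide_eq_true_eq,
    beq_iff_eq] at h
  obtain ⟨⟨⟨h1, h2⟩, h3⟩, h4⟩ := h.1 i hi
  exact ⟨h1, h2, h3, h4⟩

theorem tblOK_adj {T Ti : List ℕ} (h : tblOK T Ti = true) (i : ℕ) (hi : i < 100) (j : ℕ)
    (hj : j < 100) : adjN (T.getD i 0) (T.getD j 0) = adjN i j := by
  simp only [tblOK, Bool.and_eq_true, List.all_eq_true, List.mem_range, decide_eq_true_eq,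
    beq_iff_eq] at h
  exact h.2 i hi j hj

/-- The permutation given by a table and its inverse. -/
def tblPerm (T Ti : List ℕ) (h : tblOK T Ti = true) : Equiv.Perm (Fin 100) where
  toFun i := ⟨T.getD i.val 0, (tblOK_spec h i.val i.isLt).1⟩
  invFun i := ⟨Ti.getD i.val 0, (tblOK_spec h i.val i.isLt).2.1⟩
  left_inv i := Fin.ext (tblOK_spec h i.val i.isLt).2.2.1
  right_inv i := Fin.ext (tblOK_spec h i.val i.isLt).2.2.2

theorem tblPerm_apply (T Ti : List ℕ) (h : tblOK T Ti = true) (i : Fin 100) :
    (tblPerm T Ti h i).val = T.getD i.val 0 := rfl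

theorem tblPerm_inv_apply (T Ti : List ℕ) (h : tblOK T Ti = true) (i : Fin 100) :
    ((tblPerm T Ti h)⁻¹ i).val = Ti.getD i.val 0 := rfl

theorem tblPerm_mem (T Ti : List ℕ) (h : tblOK T Ti = true) : tblPerm T Ti h ∈ AutP :=
  fun i j => tblOK_adj h i.val i.isLt j.val j.isLt

/-- The condition that the fifth power of a table is the identity. -/
def pow5OK (T : List ℕ) : Bool :=
  (List.range 100).all (fun i =>
    T.getD (T.getD (T.getD (T.getD (T.getD i 0) 0) 0) 0) 0 == i)

theorem tblPerm_pow5 (T Ti : List ℕ) (h : tblOK T Ti = true) (h5 : pow5OK T = true) :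
    (tblPerm T Ti h) ^ 5 = 1 := by
  simp only [pow5OK, List.all_eq_true, List.mem_range, beq_iff_eq] at h5
  apply Equiv.ext
  intro i
  have h1 : (tblPerm T Ti h) ^ 5 = tblPerm T Ti h * (tblPerm T Ti h * (tblPerm T Ti h *
      (tblPerm T Ti h * tblPerm T Ti h))) := by
    simp only [pow_succ, pow_zero, one_mul, mul_assoc]
  rw [h1]
  exact Fin.ext (h5 i.val i.isLt)

set_option maxRecDepth 100000 in
theorem TA_ok : tblOK TA TAi = true := by decide +kernel

set_option maxRecDepth 100000 in
theorem TB_ok : tblOK TB TBi = true := by decide +kernel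

set_option maxRecDepth 100000 in
theorem T0_ok : tblOK T0 T0i = true := by decide +kernel

set_option maxRecDepth 100000 in
theorem TA_pow5 : pow5OK TA = true := by decide +kernel

set_option maxRecDepth 100000 in
theorem TB_pow5 : pow5OK TB = true := by decide +kernel

/-- The first generator, of order 5. -/
def gA : Equiv.Perm (Fin 100) := tblPerm TA TAi TA_ok

/-- The second generator, of order 5. -/
def gB : Equiv.Perm (Fin 100) := tblPerm TB TBi TB_ok

theorem gA_pow5 : gA ^ 5 = 1 := tblPerm_pow5 TA TAi TA_ok TA_pow5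

theorem gB_pow5 : gB ^ 5 = 1 := tblPerm_pow5 TB TBi TB_ok TB_pow5

/-- The group generated by the two automorphisms of order 5. -/
def M : Subgroup (Equiv.Perm (Fin 100)) := Subgroup.closure {gA, gB}

theorem gA_mem : gA ∈ M := Subgroup.subset_closure (by simp)

theorem gB_mem : gB ∈ M := Subgroup.subset_closure (by simp)

theorem M_le_AutP : M ≤ AutP := by
  rw [M, Subgroup.closure_le]
  rintro σ (rfl | rfl)
  · exact tblPerm_mem TA TAi TA_ok
  · exact tblPerm_mem TB TBi TB_ok

/-! ### Words in the generators -/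

/-- One step of a word: `0, 1, 2` stand for `gA`, `gB`, `gA⁻¹`, anything else for `gB⁻¹`. -/
def stepN (c x : ℕ) : ℕ :=
  if c = 0 then TA.getD x 0 else if c = 1 then TB.getD x 0
  else if c = 2 then TAi.getD x 0 else TBi.getD x 0

/-- The image of a vertex under a word. -/
def evalW (w : List ℕ) (x : ℕ) : ℕ := w.foldr stepN x

theorem exists_word (w : List ℕ) :
    ∃ g ∈ M, ∀ i : Fin 100, (g i).val = evalW w i.val := by
  induction w with
  | nil => exact ⟨1, M.one_mem, fun _ => rfl⟩
  | cons c w ih =>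
    obtain ⟨g, hg, h⟩ := ih
    by_cases h0 : c = 0
    · refine ⟨gA * g, M.mul_mem gA_mem hg, fun i => ?_⟩
      show TA.getD (g i).val 0 = stepN c (evalW w i.val)
      rw [h, stepN, if_pos h0]
    by_cases h1 : c = 1
    · refine ⟨gB * g, M.mul_mem gB_mem hg, fun i => ?_⟩
      show TB.getD (g i).val 0 = stepN c (evalW w i.val)
      rw [h, stepN, if_neg h0, if_pos h1]
    by_cases h2 : c = 2
    · refine ⟨gA⁻¹ * g, M.mul_mem (M.inv_mem gA_mem) hg, fun i => ?_⟩
      show TAi.getD (g i).val 0 = stepN c (evalW w i.val)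
      rw [h, stepN, if_neg h0, if_neg h1, if_pos h2]
    · refine ⟨gB⁻¹ * g, M.mul_mem (M.inv_mem gB_mem) hg, fun i => ?_⟩
      show TBi.getD (g i).val 0 = stepN c (evalW w i.val)
      rw [h, stepN, if_neg h0, if_neg h1, if_neg h2]

/-- The condition that the words of `lv` fix the points of `l` and move `x` to the listed,
pairwise distinct, targets. -/
def stepOK (l : List (Fin 100)) (x : Fin 100) (lv : List (ℕ × List ℕ)) : Bool :=
  decide ((lv.map Prod.fst).Nodup) &&
  lv.all (fun p => (evalW p.2 x.val == p.1) && l.all (fun y => evalW p.2 y.val == y.val))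

theorem level_mem (l : List (Fin 100)) (x : Fin 100) (lv : List (ℕ × List ℕ))
    (h : stepOK l x lv = true) (t : ℕ) (ht : t ∈ lv.map Prod.fst) :
    ∃ g : Equiv.Perm (Fin 100), g ∈ M ⊓ fixL l ∧ (g x).val = t := by
  simp only [stepOK, Bool.and_eq_true, decide_eq_true_eq, List.all_eq_true, beq_iff_eq] at h
  obtain ⟨p, hp, rfl⟩ := List.mem_map.mp ht
  obtain ⟨g, hg, hgw⟩ := exists_word p.2
  refine ⟨g, Subgroup.mem_inf.mpr ⟨hg, fun y hy => Fin.ext ?_⟩, ?_⟩
  · rw [hgw]
    exact (h.2 p hp).2 y hy
  · rw [hgw]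
    exact (h.2 p hp).1

theorem lower_step (l : List (Fin 100)) (x : Fin 100) (lv : List (ℕ × List ℕ))
    (h : stepOK l x lv = true) :
    lv.length * Nat.card ↥(M ⊓ fixL (x :: l)) ≤ Nat.card ↥(M ⊓ fixL l) := by
  rw [card_orbit_mul (M ⊓ fixL l) x, inf_fixL_cons]
  apply Nat.mul_le_mul_right
  have hnd : (lv.map Prod.fst).Nodup := by
    simp only [stepOK, Bool.and_eq_true, decide_eq_true_eq] at h
    exact h.1
  have h1 : (↑(lv.map Prod.fst).toFinset : Set ℕ) ⊆
      Fin.val '' (MulAction.orbit ↥(M ⊓ fixL l) x) := by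
    intro t ht
    rw [Finset.mem_coe, List.mem_toFinset] at ht
    obtain ⟨g, hg, hgx⟩ := level_mem l x lv h t ht
    exact ⟨g x, ⟨⟨g, hg⟩, rfl⟩, hgx⟩
  have h2 := Set.ncard_le_ncard h1 (Set.toFinite _)
  rw [Set.ncard_coe_finset, List.toFinset_card_of_nodup hnd, List.length_map,
    Set.ncard_image_of_injective _ Fin.val_injective] at h2
  exact h2

end Cfsg.Agent.Lib.Helper9.J2
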