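import Mathlib
import Cfsg.Agent.Lib.Helper9.J2Graph

set_option autoImplicit false

namespace Cfsg.Agent.Lib.Helper9.J2

/-! ### The order of the automorphism group is at most 1209600 -/

set_option maxRecDepth 100000 in
theorem cand0 : (candL [] 0).length ≤ 100 := by decide +kernel

set_option maxRecDepth 100000 in
theorem cand1 : (candL [0] 37).length ≤ 63 := by decide +kernel

set_option maxRecDepth 100000 in
theorem cand2 : (candL [37, 0] 39).length ≤ 24 := by decide +kernel

set_option maxRecDepth 100000 in
theorem cand3 : (candL [39, 37, 0] 1).length ≤ 4 := by decide +kernel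

set_option maxRecDepth 100000 in
theorem cand4 : (candL [1, 39, 37, 0] 62).length ≤ 2 := by decide +kernel

set_option maxRecDepth 100000 in
theorem ord0_ok : rigidOK ord0 5 = true := by decide +kernel

set_option maxRecDepth 100000 in
theorem ord0_base : ∀ j : Fin 5, ord0.getD j.val 0 ∈ [(62 : Fin 100), 1, 39, 37, 0] := by
  decide +kernel

theorem fix_bot : AutP ⊓ fixL [62, 1, 39, 37, 0] = ⊥ := by
  rw [Subgroup.eq_bot_iff_forall]
  intro σ hσ
  rw [Subgroup.mem_inf] at hσ
  apply rigid ord0 5 ord0_ok σ hσ.1
  intro j hj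
  exact hσ.2 _ (ord0_base ⟨j, hj⟩)

theorem inf_fixL_nil (S : Subgroup (Equiv.Perm (Fin 100))) : S ⊓ fixL [] = S := by
  apply inf_eq_left.mpr
  intro σ _ y hy
  exact absurd hy List.not_mem_nil

theorem card_AutP_le : Nat.card AutP ≤ 1209600 := by
  have h0 := upper_step [] 0 100 (by decide) cand0
  have h1 := upper_step [0] 37 63 (by decide) cand1
  have h2 := upper_step [37, 0] 39 24 (by decide) cand2
  have h3 := upper_step [39, 37, 0] 1 4 (by decide) cand3
  have h4 := upper_step [1, 39, 37, 0] 62 2 (by decide) cand4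
  have h5 : Nat.card ↥(AutP ⊓ fixL [62, 1, 39, 37, 0]) = 1 := by
    rw [fix_bot]
    exact Subgroup.card_bot
  rw [inf_fixL_nil] at h0
  rw [h5] at h4
  omega

/-! ### The order of the group generated by the two elements of order 5 -/

set_option maxRecDepth 100000 in
theorem lv0_ok : stepOK [] 0 lv0 = true := by decide +kernel

set_option maxRecDepth 100000 in
theorem lv1_ok : stepOK [0] 37 lv1 = true := by decide +kernel

set_option maxRecDepth 100000 in
theorem lv2_ok : stepOK [37, 0] 39 lv2 = true := by decide +kernel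

set_option maxRecDepth 100000 in
theorem lv3_ok : stepOK [39, 37, 0] 1 lv3 = true := by decide +kernel

set_option maxRecDepth 100000 in
theorem lv4_ok : stepOK [1, 39, 37, 0] 62 lv4 = true := by decide +kernel

set_option maxRecDepth 100000 in
theorem lvN_ok : stepOK [0] 1 lvN = true := by decide +kernel

theorem lv0_length : lv0.length = 100 := by decide +kernel

theorem lv1_length : lv1.length = 63 := by decide +kernel

theorem lv2_length : lv2.length = 24 := by decide +kernel

theorem lv3_length : lv3.length = 2 := by decide +kernel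

theorem lv4_length : lv4.length = 2 := by decide +kernel

instance finite_M : Finite ↥M := inferInstance

theorem card_M_ge : 604800 ≤ Nat.card M := by
  have h0 := lower_step [] 0 lv0 lv0_ok
  have h1 := lower_step [0] 37 lv1 lv1_ok
  have h2 := lower_step [37, 0] 39 lv2 lv2_ok
  have h3 := lower_step [39, 37, 0] 1 lv3 lv3_ok
  have h4 := lower_step [1, 39, 37, 0] 62 lv4 lv4_ok
  have h5 : 1 ≤ Nat.card ↥(M ⊓ fixL [62, 1, 39, 37, 0]) := Nat.card_pos
  rw [inf_fixL_nil, lv0_length] at h0
  rw [lv1_length] at h1
  rw [lv2_length] at h2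
  rw [lv3_length] at h3
  rw [lv4_length] at h4
  omega

/-! ### An odd automorphism -/

/-- The product of a list of transpositions. -/
def swProd (l : List (Fin 100 × Fin 100)) : Equiv.Perm (Fin 100) :=
  (l.map (fun p => Equiv.swap p.1 p.2)).prod

theorem sign_swProd (l : List (Fin 100 × Fin 100)) (h : ∀ p ∈ l, p.1 ≠ p.2) :
    Equiv.Perm.sign (swProd l) = (-1) ^ l.length := by
  induction l with
  | nil => simp [swProd]
  | cons p l ih =>
    have h1 : swProd (p :: l) = Equiv.swap p.1 p.2 * swProd l := by simp [swProd]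
    rw [h1, map_mul, Equiv.Perm.sign_swap (h p List.mem_cons_self),
      ih (fun q hq => h q (List.mem_cons_of_mem _ hq)), List.length_cons, pow_succ, mul_comm]

set_option maxRecDepth 100000 in
theorem swProd_apply : ∀ i : Fin 100, (swProd sw0 i).val = T0.getD i.val 0 := by
  decide +kernel

set_option maxRecDepth 100000 in
theorem sw0_ne : ∀ p ∈ sw0, p.1 ≠ p.2 := by decide +kernel

/-- An odd automorphism. -/
def gT : Equiv.Perm (Fin 100) := tblPerm T0 T0i T0_ok

theorem gT_mem : gT ∈ AutP := tblPerm_mem T0 T0i T0_ok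

theorem sign_gT : Equiv.Perm.sign gT = -1 := by
  have h1 : gT = swProd sw0 := by
    apply Equiv.ext
    intro i
    exact Fin.ext (swProd_apply i).symm
  rw [h1, sign_swProd sw0 sw0_ne]
  decide

theorem sign_of_pow5 (g : Equiv.Perm (Fin 100)) (h : g ^ 5 = 1) : Equiv.Perm.sign g = 1 := by
  have h1 : (Equiv.Perm.sign g) ^ 5 = 1 := by rw [← map_pow, h, map_one]
  rcases Int.units_eq_one_or (Equiv.Perm.sign g) with h2 | h2
  · exact h2
  · rw [h2] at h1
    exact absurd h1 (by decide)

theorem sign_M {g : Equiv.Perm (Fin 100)} (hg : g ∈ M) : Equiv.Perm.sign g = 1 := by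
  have h : M ≤ (Equiv.Perm.sign (α := Fin 100)).ker := by
    rw [M, Subgroup.closure_le]
    rintro σ (rfl | rfl)
    · exact sign_of_pow5 _ gA_pow5
    · exact sign_of_pow5 _ gB_pow5
  exact h hg

theorem card_M : Nat.card M = 604800 := by
  apply le_antisymm _ card_M_ge
  have h1 := (M.subgroupOf AutP).card_mul_index
  have h2 : Nat.card ↥(M.subgroupOf AutP) = Nat.card M :=
    Nat.card_congr (Subgroup.subgroupOfEquivOfLe M_le_AutP).toEquiv
  have h3 : (M.subgroupOf AutP).index ≠ 1 := by
    intro h
    have h4 : AutP ≤ M := Subgroup.relIndex_eq_one.mp h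
    have h5 := sign_M (h4 gT_mem)
    rw [sign_gT] at h5
    exact absurd h5 (by decide)
  have h4 : (M.subgroupOf AutP).index ≠ 0 := by
    intro h
    rw [h, mul_zero] at h1
    have : 0 < Nat.card AutP := Nat.card_pos
    omega
  have h5 := card_AutP_le
  rw [h2] at h1
  have h6 : 2 ≤ (M.subgroupOf AutP).index := by omega
  nlinarith

end Cfsg.Agent.Lib.Helper9.J2
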