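import Mathlib
import Cfsg.Agent.Lib.Helper9.J2Order

set_option autoImplicit false

namespace Cfsg.Agent.Lib.Helper9.J2

/-! ### The group generated by the two elements of order 5 is simple -/

/-- A normal subgroup containing a Sylow `p`-subgroup contains every element of order
dividing `p`. -/
theorem mem_of_pow_prime {G : Type*} [Group G] [Finite G] {p : ℕ} [Fact p.Prime]
    (N : Subgroup G) (hN : N.Normal) (Q : Sylow p G) (hQ : (Q : Subgroup G) ≤ N) (x : G)
    (hx : x ^ p = 1) : x ∈ N := by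
  have hpg : IsPGroup p (Subgroup.zpowers x) := by
    rintro ⟨g, hg⟩
    obtain ⟨k, rfl⟩ := Subgroup.mem_zpowers_iff.mp hg
    refine ⟨1, Subtype.ext ?_⟩
    show (x ^ k) ^ p ^ 1 = 1
    rw [pow_one, ← zpow_natCast, ← zpow_mul, mul_comm, zpow_mul, zpow_natCast, hx, one_zpow]
  obtain ⟨Q', hQ'⟩ := hpg.exists_le_sylow
  obtain ⟨g, hg⟩ := MulAction.exists_smul_eq G Q Q'
  have hz : x ∈ ((g • Q : Sylow p G) : Subgroup G) := by
    rw [hg]
    exact hQ' (Subgroup.mem_zpowers x)
  rw [Sylow.smul_def, Sylow.pointwise_smul_def, Subgroup.mem_smul_pointwise_iff_exists] at hz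
  obtain ⟨s, hs, rfl⟩ := hz
  exact hN.conj_mem s (hQ hs) g

set_option maxRecDepth 100000 in
theorem lv0_all : ∀ i : Fin 100, i.val ∈ lv0.map Prod.fst := by decide +kernel

set_option maxRecDepth 100000 in
theorem lvN_all : ∀ w : Fin 100, adjN 0 w.val = true → w.val ∈ lvN.map Prod.fst := by
  decide +kernel

set_option maxRecDepth 100000 in
theorem lv1_all : ∀ w : Fin 100, w ≠ 0 → adjN 0 w.val = false → w.val ∈ lv1.map Prod.fst := by
  decide +kernel

theorem M_trans (i : Fin 100) : ∃ g ∈ M, g 0 = i := by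
  obtain ⟨g, hg, h⟩ := level_mem [] 0 lv0 lv0_ok i.val (lv0_all i)
  exact ⟨g, (Subgroup.mem_inf.mp hg).1, Fin.ext h⟩

theorem K_trans_nb (w : Fin 100) (hw : adjN 0 w.val = true) :
    ∃ g ∈ M, g 0 = 0 ∧ g 1 = w := by
  obtain ⟨g, hg, h⟩ := level_mem [0] 1 lvN lvN_ok w.val (lvN_all w hw)
  rw [Subgroup.mem_inf] at hg
  exact ⟨g, hg.1, hg.2 0 (by simp), Fin.ext h⟩

theorem K_trans_non (w : Fin 100) (hw0 : w ≠ 0) (hw : adjN 0 w.val = false) :
    ∃ g ∈ M, g 0 = 0 ∧ g 37 = w := by
  obtain ⟨g, hg, h⟩ := level_mem [0] 37 lv1 lv1_ok w.val (lv1_all w hw0 hw)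
  rw [Subgroup.mem_inf] at hg
  exact ⟨g, hg.1, hg.2 0 (by simp), Fin.ext h⟩

set_option maxRecDepth 100000 in
theorem card_nb : ((Finset.univ : Finset (Fin 100)).filter
    (fun w => w = 0 ∨ adjN 0 w.val = true)).card = 37 := by decide +kernel

set_option maxRecDepth 100000 in
theorem card_non : ((Finset.univ : Finset (Fin 100)).filter
    (fun w => adjN 0 w.val = false)).card = 64 := by decide +kernel

theorem adj00 : adjN 0 (0 : Fin 100).val = false := by decide +kernel

instance pretrans_M : MulAction.IsPretransitive ↥M (Fin 100) := by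
  refine ⟨fun x y => ?_⟩
  obtain ⟨g, hg, hgx⟩ := M_trans x
  obtain ⟨h, hh, hhy⟩ := M_trans y
  refine ⟨⟨h * g⁻¹, M.mul_mem hh (M.inv_mem hg)⟩, ?_⟩
  show (h * g⁻¹) x = y
  rw [Equiv.Perm.mul_apply, ← hgx, show g⁻¹ (g 0) = 0 from Equiv.symm_apply_apply g 0, hhy]

theorem fact5 : Fact (Nat.Prime 5) := ⟨by norm_num⟩

theorem simple_M : IsSimpleGroup ↥M := by
  have hcard := card_M
  have : Nontrivial ↥M := Finite.one_lt_card_iff_nontrivial.mp (by rw [hcard]; norm_num)
  have := fact5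
  refine ⟨fun N hN => ?_⟩
  by_cases hbot : N = ⊥
  · exact Or.inl hbot
  right
  -- membership in the orbit
  have hmemO : ∀ y : Fin 100, y ∈ MulAction.orbit N (0 : Fin 100) ↔
      ∃ n : Equiv.Perm (Fin 100), ∃ hn : n ∈ M, (⟨n, hn⟩ : ↥M) ∈ N ∧ n 0 = y := by
    intro y
    constructor
    · rintro ⟨⟨⟨n, hn⟩, hnN⟩, rfl⟩
      exact ⟨n, hn, hnN, rfl⟩
    · rintro ⟨n, hn, hnN, rfl⟩
      exact ⟨⟨⟨n, hn⟩, hnN⟩, rfl⟩
  have h0O : (0 : Fin 100) ∈ MulAction.orbit N (0 : Fin 100) := MulAction.mem_orbit_self 0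
  -- invariance under the stabiliser of 0
  have hinv : ∀ k ∈ M, k 0 = 0 → ∀ y ∈ MulAction.orbit N (0 : Fin 100),
      k y ∈ MulAction.orbit N (0 : Fin 100) := by
    intro k hk hk0 y hy
    obtain ⟨n, hn, hnN, rfl⟩ := (hmemO y).mp hy
    refine (hmemO _).mpr ⟨k * n * k⁻¹, M.mul_mem (M.mul_mem hk hn) (M.inv_mem hk), ?_, ?_⟩
    · exact hN.conj_mem ⟨n, hn⟩ hnN ⟨k, hk⟩
    · have h1 : k⁻¹ 0 = 0 := Equiv.Perm.inv_eq_iff_eq.mpr hk0.symm
      rw [Equiv.Perm.mul_apply, Equiv.Perm.mul_apply, h1]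
  have hA : (∃ y ∈ MulAction.orbit N (0 : Fin 100), adjN 0 y.val = true) →
      ∀ w : Fin 100, adjN 0 w.val = true → w ∈ MulAction.orbit N (0 : Fin 100) := by
    rintro ⟨y, hy, hy1⟩ w hw
    obtain ⟨g1, hg1, hg10, hg11⟩ := K_trans_nb y hy1
    obtain ⟨g2, hg2, hg20, hg21⟩ := K_trans_nb w hw
    have h1 := hinv (g2 * g1⁻¹) (M.mul_mem hg2 (M.inv_mem hg1))
      (by rw [Equiv.Perm.mul_apply, Equiv.Perm.inv_eq_iff_eq.mpr hg10.symm, hg20]) y hy
    rw [Equiv.Perm.mul_apply, ← hg11, show g1⁻¹ (g1 1) = 1 from Equiv.symm_apply_apply g1 1,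
      hg21] at h1
    exact h1
  have hB : (∃ y ∈ MulAction.orbit N (0 : Fin 100), y ≠ 0 ∧ adjN 0 y.val = false) →
      ∀ w : Fin 100, w ≠ 0 → adjN 0 w.val = false → w ∈ MulAction.orbit N (0 : Fin 100) := by
    rintro ⟨y, hy, hy0, hy1⟩ w hw0 hw
    obtain ⟨g1, hg1, hg10, hg11⟩ := K_trans_non y hy0 hy1
    obtain ⟨g2, hg2, hg20, hg21⟩ := K_trans_non w hw0 hw
    have h1 := hinv (g2 * g1⁻¹) (M.mul_mem hg2 (M.inv_mem hg1))
      (by rw [Equiv.Perm.mul_apply, Equiv.Perm.inv_eq_iff_eq.mpr hg10.symm, hg20]) y hy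
    rw [Equiv.Perm.mul_apply, ← hg11, show g1⁻¹ (g1 37) = 37 from Equiv.symm_apply_apply g1 37,
      hg21] at h1
    exact h1
  have hblock : MulAction.IsBlock ↥M (MulAction.orbit N (0 : Fin 100)) :=
    MulAction.IsBlock.orbit_of_normal 0
  have hdvd : (MulAction.orbit N (0 : Fin 100)).ncard ∣ 100 := by
    have h1 := MulAction.IsBlock.ncard_dvd_card hblock ⟨0, h0O⟩
    rw [Nat.card_eq_fintype_card, Fintype.card_fin] at h1
    exact h1
  -- the orbit is everything
  have huniv : ∀ w : Fin 100, w ∈ MulAction.orbit N (0 : Fin 100) := by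
    by_cases hA' : ∃ y ∈ MulAction.orbit N (0 : Fin 100), adjN 0 y.val = true
    · by_cases hB' : ∃ y ∈ MulAction.orbit N (0 : Fin 100), y ≠ 0 ∧ adjN 0 y.val = false
      · intro w
        by_cases hw0 : w = 0
        · rw [hw0]; exact h0O
        · by_cases hw : adjN 0 w.val = true
          · exact hA hA' w hw
          · exact hB hB' w hw0 (by simpa using hw)
      · exfalso
        have h1 : MulAction.orbit N (0 : Fin 100) = ↑((Finset.univ : Finset (Fin 100)).filter
            (fun w => w = 0 ∨ adjN 0 w.val = true)) := by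
          ext w
          rw [Finset.mem_coe, Finset.mem_filter]
          constructor
          · intro hw
            refine ⟨Finset.mem_univ _, ?_⟩
            by_contra hc
            rw [not_or] at hc
            exact hB' ⟨w, hw, hc.1, by simpa using hc.2⟩
          · rintro ⟨-, rfl | hw⟩
            · exact h0O
            · exact hA hA' w hw
        rw [h1, Set.ncard_coe_finset, card_nb] at hdvd
        omega
    · by_cases hB' : ∃ y ∈ MulAction.orbit N (0 : Fin 100), y ≠ 0 ∧ adjN 0 y.val = false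
      · exfalso
        have h1 : MulAction.orbit N (0 : Fin 100) = ↑((Finset.univ : Finset (Fin 100)).filter
            (fun w => adjN 0 w.val = false)) := by
          ext w
          rw [Finset.mem_coe, Finset.mem_filter]
          constructor
          · intro hw
            refine ⟨Finset.mem_univ _, ?_⟩
            by_contra hc
            exact hA' ⟨w, hw, by simpa using hc⟩
          · rintro ⟨-, hw⟩
            by_cases hw0 : w = 0
            · rw [hw0]; exact h0O
            · exact hB hB' w hw0 hw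
        rw [h1, Set.ncard_coe_finset, card_non] at hdvd
        omega
      · exfalso
        apply hbot
        have hfix : ∀ n : Equiv.Perm (Fin 100), ∀ hn : n ∈ M, (⟨n, hn⟩ : ↥M) ∈ N → n 0 = 0 := by
          intro n hn hnN
          by_contra hc
          have hy : n 0 ∈ MulAction.orbit N (0 : Fin 100) := (hmemO _).mpr ⟨n, hn, hnN, rfl⟩
          by_cases hw : adjN 0 (n 0).val = true
          · exact hA' ⟨n 0, hy, hw⟩
          · exact hB' ⟨n 0, hy, hc, by simpa using hw⟩
        rw [Subgroup.eq_bot_iff_forall]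
        rintro ⟨n, hn⟩ hnN
        apply Subtype.ext
        apply Equiv.ext
        intro i
        obtain ⟨g, hg, rfl⟩ := M_trans i
        have h1 : (⟨g⁻¹ * n * g, M.mul_mem (M.mul_mem (M.inv_mem hg) hn) hg⟩ : ↥M) ∈ N := by
          have h2 := hN.conj_mem ⟨n, hn⟩ hnN ⟨g, hg⟩⁻¹
          rw [inv_inv] at h2
          exact h2
        have h3 := hfix _ _ h1
        rw [Equiv.Perm.mul_apply, Equiv.Perm.mul_apply, Equiv.Perm.inv_eq_iff_eq] at h3
        show n (g 0) = g 0
        exact h3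
  -- the order of N is divisible by 100
  have hcardN := card_orbit_mul (G := ↥M) N (0 : Fin 100)
  have horb : (MulAction.orbit N (0 : Fin 100)).ncard = 100 := by
    have h1 : MulAction.orbit N (0 : Fin 100) = Set.univ := Set.eq_univ_of_forall huniv
    rw [h1, Set.ncard_univ, Nat.card_eq_fintype_card, Fintype.card_fin]
  rw [horb] at hcardN
  have hNdvd : Nat.card N ∣ 604800 := by
    rw [← hcard]
    exact Subgroup.card_subgroup_dvd_card N
  have hNpos : 0 < Nat.card N := Nat.card_pos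
  have h25 : 5 ^ 2 ∣ Nat.card N := by
    rw [hcardN]
    exact Dvd.dvd.mul_right (by norm_num) _
  have ha : 2 ≤ (Nat.card N).factorization 5 :=
    (Nat.Prime.pow_dvd_iff_le_factorization (by norm_num) hNpos.ne').mp h25
  have hb : (Nat.card ↥M).factorization 5 ≤ 2 := by
    by_contra hc
    have h1 : 5 ^ 3 ∣ Nat.card ↥M :=
      (Nat.Prime.pow_dvd_iff_le_factorization (by norm_num) (by rw [hcard]; norm_num)).mpr
        (by omega)
    rw [hcard] at h1
    omega
  have hab : (Nat.card N).factorization 5 ≤ (Nat.card ↥M).factorization 5 := by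
    have h1 : Nat.card N ∣ Nat.card ↥M := Subgroup.card_subgroup_dvd_card N
    exact (Nat.factorization_le_iff_dvd hNpos.ne' (by rw [hcard]; norm_num)).mpr h1 5
  -- a Sylow 5-subgroup of M inside N
  obtain ⟨P⟩ : Nonempty (Sylow 5 ↥N) := inferInstance
  have hPcard : Nat.card ((P : Subgroup ↥N).map N.subtype) =
      5 ^ (Nat.card ↥M).factorization 5 := by
    rw [Nat.card_congr ((P : Subgroup ↥N).equivMapOfInjective N.subtype
      N.subtype_injective).toEquiv.symm, Sylow.card_eq_multiplicity]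
    congr 1
    omega
  have hQle : ((Sylow.ofCard ((P : Subgroup ↥N).map N.subtype) hPcard : Sylow 5 ↥M) :
      Subgroup ↥M) ≤ N := by
    rw [Sylow.coe_ofCard]
    exact Subgroup.map_subtype_le _
  have hgA : (⟨gA, gA_mem⟩ : ↥M) ∈ N :=
    mem_of_pow_prime N hN _ hQle _ (Subtype.ext gA_pow5)
  have hgB : (⟨gB, gB_mem⟩ : ↥M) ∈ N :=
    mem_of_pow_prime N hN _ hQle _ (Subtype.ext gB_pow5)
  have hle : Subgroup.closure {gA, gB} ≤ N.map M.subtype := by
    rw [Subgroup.closure_le]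
    rintro σ (rfl | rfl)
    · exact ⟨⟨gA, gA_mem⟩, hgA, rfl⟩
    · exact ⟨⟨gB, gB_mem⟩, hgB, rfl⟩
  rw [eq_top_iff]
  rintro ⟨m, hm⟩ -
  obtain ⟨n, hn, hnm⟩ := hle hm
  have : n = ⟨m, hm⟩ := Subtype.ext hnm
  rw [← this]
  exact hn

/-- The group generated by the two automorphisms of order 5 is simple of order 604800. -/
theorem exists_simple : ∃ G : Subgroup (Equiv.Perm (Fin 100)),
    IsSimpleGroup G ∧ Nat.card G = 604800 :=
  ⟨M, simple_M, card_M⟩

end Cfsg.Agent.Lib.Helper9.J2
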