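import Mathlib
import Cfsg.Agent.Lib.Helper9.J3Tab
import Cfsg.Agent.Lib.Helper9.J3Nb
import Cfsg.Agent.Lib.Helper9.J3Wd

set_option autoImplicit false

namespace Cfsg.Agent.Lib.Helper9.J3

/-! ### Fast primitives for kernel computations -/

/-- Entry `i` of a packed table with 13 bits per entry. -/
def g13 (T i : ℕ) : ℕ := Nat.land (Nat.shiftRight T (Nat.mul 13 i)) 8191

/-- Entry `i` of a packed table with 7 bits per entry. -/
def g7 (T i : ℕ) : ℕ := Nat.land (Nat.shiftRight T (Nat.mul 7 i)) 127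

/-- Entry `i` of a packed table with 3 bits per entry. -/
def g3 (T i : ℕ) : ℕ := Nat.land (Nat.shiftRight T (Nat.mul 3 i)) 7

/-- Entry `i` of a packed table with 32 bits per entry. -/
def g32 (T i : ℕ) : ℕ := Nat.land (Nat.shiftRight T (Nat.mul 32 i)) 4294967295

/-- Bit `j` of `M`. -/
def tb (M j : ℕ) : Bool := Nat.beq (Nat.land (Nat.shiftRight M j) 1) 1

/-- A bounded universal quantifier, as a loop. -/
def allB (n : ℕ) (f : ℕ → Bool) : Bool := Nat.rec true (fun k ih => Bool.rec false ih (f k)) n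

/-- A loop with an accumulator. -/
def foldN (n : ℕ) (f : ℕ → ℕ → ℕ) (init : ℕ) : ℕ := Nat.rec init (fun k acc => f k acc) n

/-- Conjunction of Booleans. -/
def band (a b : Bool) : Bool := Bool.rec false b a

/-- Evaluation of the argument before the call. -/
def forceN {α : Type} (x : ℕ) (f : ℕ → α) : α := Nat.rec (f 0) (fun m _ => f (Nat.succ m)) x

theorem allB_succ (n : ℕ) (f : ℕ → Bool) :
    allB (n + 1) f = Bool.rec false (allB n f) (f n) := rfl

theorem allB_iff (n : ℕ) (f : ℕ → Bool) : allB n f = true ↔ ∀ k < n, f k = true := by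
  induction n with
  | zero => exact ⟨fun _ k hk => absurd hk (Nat.not_lt_zero k), fun _ => rfl⟩
  | succ n ih =>
    rw [allB_succ]
    constructor
    · intro h k hk
      cases hf : f n with
      | false =>
        rw [hf] at h
        exact absurd h Bool.false_ne_true
      | true =>
        rw [hf] at h
        rcases Nat.lt_succ_iff_lt_or_eq.mp hk with h1 | rfl
        · exact ih.mp h k h1
        · exact hf
    · intro h
      rw [h n (Nat.lt_succ_self n)]
      exact ih.mpr (fun k hk => h k (Nat.lt_succ_of_lt hk))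

theorem band_iff (a b : Bool) : band a b = true ↔ a = true ∧ b = true := by
  cases a <;> cases b <;> decide

theorem forceN_eq {α : Type} (x : ℕ) (f : ℕ → α) : forceN x f = f x := by
  cases x <;> rfl

theorem tb_eq (M j : ℕ) : tb M j = M.testBit j := by
  have h1 : Nat.land (Nat.shiftRight M j) 1 = M / 2 ^ j % 2 := by
    show (M >>> j) &&& 1 = _
    rw [Nat.and_one_is_mod, Nat.shiftRight_eq_div_pow]
  rw [Nat.testBit_eq_decide_div_mod_eq, tb, h1]
  rcases Nat.mod_two_eq_zero_or_one (M / 2 ^ j) with h | h <;> rw [h] <;> rfl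

theorem foldN_succ (n : ℕ) (f : ℕ → ℕ → ℕ) (init : ℕ) :
    foldN (n + 1) f init = f n (foldN n f init) := rfl

theorem testBit_one_shiftLeft (k j : ℕ) : (1 <<< k).testBit j = decide (k = j) := by
  rw [Nat.one_shiftLeft, Nat.testBit_two_pow]

theorem testBit_foldN_or (f : ℕ → ℕ) (n j : ℕ) :
    (foldN n (fun t acc => Nat.lor acc (Nat.shiftLeft 1 (f t))) 0).testBit j = true ↔
      ∃ t < n, f t = j := by
  induction n with
  | zero =>
    constructor
    · intro h
      rw [show foldN 0 (fun t acc => Nat.lor acc (Nat.shiftLeft 1 (f t))) 0 = 0 from rfl,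
        Nat.zero_testBit] at h
      exact absurd h Bool.false_ne_true
    · rintro ⟨t, ht, -⟩
      exact absurd ht (Nat.not_lt_zero t)
  | succ n ih =>
    have h1 : foldN (n + 1) (fun t acc => Nat.lor acc (Nat.shiftLeft 1 (f t))) 0 =
        (foldN n (fun t acc => Nat.lor acc (Nat.shiftLeft 1 (f t))) 0) ||| (1 <<< f n) := rfl
    rw [h1, Nat.testBit_lor, Bool.or_eq_true, ih, testBit_one_shiftLeft, decide_eq_true_eq]
    constructor
    · rintro (⟨t, ht, h⟩ | h)
      · exact ⟨t, Nat.lt_succ_of_lt ht, h⟩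
      · exact ⟨n, Nat.lt_succ_self n, h⟩
    · rintro ⟨t, ht, h⟩
      rcases Nat.lt_succ_iff_lt_or_eq.mp ht with h2 | rfl
      · exact Or.inl ⟨t, h2, h⟩
      · exact Or.inr h

/-! ### The tables and the permutations of the letters -/

/-- A choice among four values. -/
def sel4 (A B C D r : ℕ) : ℕ :=
  Nat.rec A (fun n _ => Nat.rec B (fun n _ => Nat.rec C (fun _ _ => D) n) n) r

/-- The table of a letter. -/
def tabN (c : ℕ) : ℕ :=
  sel4 (sel4 t0 t1 t2 t3 (c % 4)) (sel4 t4 t5 t6 t7 (c % 4)) (sel4 t8 t9 t10 t11 (c % 4)) 0 (c / 4)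

/-- The letter of the inverse generator. -/
def ci (c : ℕ) : ℕ := if c % 2 = 0 then c + 1 else c - 1

theorem ci_ci (c : ℕ) : ci (ci c) = c := by
  unfold ci
  split_ifs <;> omega

/-- The action of a letter on a point. -/
def stepN (c x : ℕ) : ℕ := if c < 12 then g13 (tabN c) x else x

/-- The two tables are mutually inverse permutations of the points. -/
def permChk (T T' : ℕ) : Bool := allB 6156 (fun x =>
  band (Nat.ble (g13 T x) 6155) (band (Nat.ble (g13 T' x) 6155)
    (band (Nat.beq (g13 T' (g13 T x)) x) (Nat.beq (g13 T (g13 T' x)) x))))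

theorem permChk_spec (T T' : ℕ) (h : permChk T T' = true) (x : ℕ) (hx : x < 6156) :
    g13 T x < 6156 ∧ g13 T' x < 6156 ∧ g13 T' (g13 T x) = x ∧ g13 T (g13 T' x) = x := by
  have h1 := (allB_iff _ _).mp h x hx
  rw [band_iff, band_iff, band_iff] at h1
  obtain ⟨h2, h3, h4, h5⟩ := h1
  exact ⟨Nat.lt_succ_of_le (Nat.le_of_ble_eq_true h2), Nat.lt_succ_of_le (Nat.le_of_ble_eq_true h3),
    Nat.eq_of_beq_eq_true h4, Nat.eq_of_beq_eq_true h5⟩

set_option maxRecDepth 1000000 in
theorem pc01 : permChk t0 t1 = true := by decide +kernel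

set_option maxRecDepth 1000000 in
theorem pc23 : permChk t2 t3 = true := by decide +kernel

set_option maxRecDepth 1000000 in
theorem pc45 : permChk t4 t5 = true := by decide +kernel

set_option maxRecDepth 1000000 in
theorem pc67 : permChk t6 t7 = true := by decide +kernel

set_option maxRecDepth 1000000 in
theorem pc89 : permChk t8 t9 = true := by decide +kernel

set_option maxRecDepth 1000000 in
theorem pcAB : permChk t10 t11 = true := by decide +kernel

theorem step_spec (c x : ℕ) (hx : x < 6156) :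
    stepN c x < 6156 ∧ stepN (ci c) (stepN c x) = x := by
  by_cases hc : c < 12
  · interval_cases c
    · have h := permChk_spec t0 t1 pc01 x hx
      exact ⟨h.1, h.2.2.1⟩
    · have h := permChk_spec t0 t1 pc01 x hx
      exact ⟨h.2.1, h.2.2.2⟩
    · have h := permChk_spec t2 t3 pc23 x hx
      exact ⟨h.1, h.2.2.1⟩
    · have h := permChk_spec t2 t3 pc23 x hx
      exact ⟨h.2.1, h.2.2.2⟩
    · have h := permChk_spec t4 t5 pc45 x hx
      exact ⟨h.1, h.2.2.1⟩
    · have h := permChk_spec t4 t5 pc45 x hx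
      exact ⟨h.2.1, h.2.2.2⟩
    · have h := permChk_spec t6 t7 pc67 x hx
      exact ⟨h.1, h.2.2.1⟩
    · have h := permChk_spec t6 t7 pc67 x hx
      exact ⟨h.2.1, h.2.2.2⟩
    · have h := permChk_spec t8 t9 pc89 x hx
      exact ⟨h.1, h.2.2.1⟩
    · have h := permChk_spec t8 t9 pc89 x hx
      exact ⟨h.2.1, h.2.2.2⟩
    · have h := permChk_spec t10 t11 pcAB x hx
      exact ⟨h.1, h.2.2.1⟩
    · have h := permChk_spec t10 t11 pcAB x hx
      exact ⟨h.2.1, h.2.2.2⟩
  · have h1 : ¬ ci c < 12 := by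
      unfold ci
      split_ifs <;> omega
    simp only [stepN, if_neg hc, if_neg h1]
    exact ⟨hx, trivial⟩

/-- The permutation of a letter. -/
def gperm (c : ℕ) : Equiv.Perm (Fin 6156) where
  toFun x := ⟨stepN c x.val, (step_spec c x.val x.isLt).1⟩
  invFun x := ⟨stepN (ci c) x.val, (step_spec (ci c) x.val x.isLt).1⟩
  left_inv x := Fin.ext (step_spec c x.val x.isLt).2
  right_inv x := Fin.ext (by
    have h := (step_spec (ci c) x.val x.isLt).2
    rw [ci_ci] at h
    exact h)

theorem gperm_apply (c : ℕ) (x : Fin 6156) : (gperm c x).val = stepN c x.val := rfl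

theorem gperm_ci (c : ℕ) : gperm (ci c) = (gperm c)⁻¹ := by
  apply Equiv.ext
  intro x
  apply Fin.ext
  rfl

/-- The action of a word on a point (the last letter acts first). -/
def evalW (w : List ℕ) (x : ℕ) : ℕ := w.foldr stepN x

/-- The permutation of a word. -/
def wperm (w : List ℕ) : Equiv.Perm (Fin 6156) := (w.map gperm).prod

theorem wperm_nil : wperm [] = 1 := rfl

theorem wperm_cons (c : ℕ) (w : List ℕ) : wperm (c :: w) = gperm c * wperm w := by
  simp [wperm]

theorem wperm_apply (w : List ℕ) (x : Fin 6156) : (wperm w x).val = evalW w x.val := by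
  induction w with
  | nil => rfl
  | cons c w ih =>
    rw [wperm_cons, Equiv.Perm.mul_apply, gperm_apply, ih]
    rfl

/-- The group generated by a list of letters. -/
def grp (Sl : List ℕ) : Subgroup (Equiv.Perm (Fin 6156)) :=
  Subgroup.closure {g | ∃ s ∈ Sl, g = gperm s}

theorem gperm_mem_grp {Sl : List ℕ} {s : ℕ} (hs : s ∈ Sl) : gperm s ∈ grp Sl :=
  Subgroup.subset_closure ⟨s, hs, rfl⟩

theorem grp_nil : grp [] = ⊥ := by
  rw [grp, Subgroup.closure_eq_bot_iff]
  rintro g ⟨s, hs, -⟩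
  exact absurd hs List.not_mem_nil

theorem grp_pair (a b : ℕ) : grp [a, b] = Subgroup.closure {gperm a, gperm b} := by
  unfold grp
  congr 1
  ext g
  simp only [List.mem_cons, List.not_mem_nil, or_false, Set.mem_ofPred_eq, Set.mem_insert_iff,
    Set.mem_singleton_iff]
  constructor
  · rintro ⟨s, rfl | rfl, rfl⟩
    · exact Or.inl rfl
    · exact Or.inr rfl
  · rintro (rfl | rfl)
    · exact ⟨a, Or.inl rfl, rfl⟩
    · exact ⟨b, Or.inr rfl, rfl⟩

/-! ### Packed words -/

/-- Evaluation of a packed word (two bits per letter) over the alphabet with tables `A B C D`. -/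
def evalG (A B C D len p x : ℕ) : ℕ :=
  Nat.rec (motive := fun _ => ℕ → ℕ → ℕ) (fun _ x => x)
    (fun _ ih p x => g13 (sel4 A B C D (Nat.mod p 4)) (ih (Nat.div p 4) x)) len p x

/-- The letters of a packed word over the alphabet number `β`. -/
def decodeW (β : ℕ) : ℕ → ℕ → List ℕ
  | 0, _ => []
  | n + 1, p => (4 * β + Nat.mod p 4) :: decodeW β n (Nat.div p 4)

/-- The word with packed form `w` (the length in the lowest 8 bits) over the alphabet `β`. -/
def wordOf (β w : ℕ) : List ℕ := decodeW β (Nat.land w 255) (Nat.shiftRight w 8)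

/-- Evaluation of a packed word in the first two generators. -/
def evA (w x : ℕ) : ℕ := evalG t0 t1 t2 t3 (Nat.land w 255) (Nat.shiftRight w 8) x

/-- Evaluation of a packed word in the generators of the point stabiliser. -/
def evH (w x : ℕ) : ℕ := evalG t4 t5 t6 t7 (Nat.land w 255) (Nat.shiftRight w 8) x

/-- Evaluation of a packed word in the generators of the two-point stabiliser. -/
def evK (w x : ℕ) : ℕ := evalG t8 t9 t10 t11 (Nat.land w 255) (Nat.shiftRight w 8) x

theorem evalG_spec (β : ℕ) (A B C D : ℕ)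
    (hsel : ∀ r < 4, ∀ y, g13 (sel4 A B C D r) y = stepN (4 * β + r) y) :
    ∀ (len p x : ℕ), evalG A B C D len p x = evalW (decodeW β len p) x := by
  intro len
  induction len with
  | zero => intro p x; rfl
  | succ n ih =>
    intro p x
    show g13 (sel4 A B C D (Nat.mod p 4)) (evalG A B C D n (Nat.div p 4) x) =
      stepN (4 * β + Nat.mod p 4) (evalW (decodeW β n (Nat.div p 4)) x)
    rw [ih]
    exact hsel (Nat.mod p 4) (Nat.mod_lt p (by norm_num)) _

theorem evA_eq (w x : ℕ) : evA w x = evalW (wordOf 0 w) x :=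
  evalG_spec 0 t0 t1 t2 t3 (by intro r hr y; interval_cases r <;> rfl) _ _ _

theorem evH_eq (w x : ℕ) : evH w x = evalW (wordOf 1 w) x :=
  evalG_spec 1 t4 t5 t6 t7 (by intro r hr y; interval_cases r <;> rfl) _ _ _

theorem evK_eq (w x : ℕ) : evK w x = evalW (wordOf 2 w) x :=
  evalG_spec 2 t8 t9 t10 t11 (by intro r hr y; interval_cases r <;> rfl) _ _ _

theorem evalG_zero (A B C D p x : ℕ) : evalG A B C D 0 p x = x := rfl

theorem wperm_decode_mem (β : ℕ) : ∀ (n p : ℕ), wperm (decodeW β n p) ∈ grp [4 * β, 4 * β + 2] := by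
  intro n
  induction n with
  | zero => intro p; exact (grp _).one_mem
  | succ n ih =>
    intro p
    show wperm ((4 * β + Nat.mod p 4) :: decodeW β n (Nat.div p 4)) ∈ _
    rw [wperm_cons]
    refine (grp _).mul_mem ?_ (ih _)
    have h0 : gperm (4 * β) ∈ grp [4 * β, 4 * β + 2] := gperm_mem_grp (by simp)
    have h2 : gperm (4 * β + 2) ∈ grp [4 * β, 4 * β + 2] := gperm_mem_grp (by simp)
    have h1 : ci (4 * β) = 4 * β + 1 := by
      unfold ci
      rw [if_pos (by omega)]
    have h3 : ci (4 * β + 2) = 4 * β + 3 := by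
      unfold ci
      rw [if_pos (by omega)]
    have hr : Nat.mod p 4 < 4 := Nat.mod_lt p (by norm_num)
    generalize Nat.mod p 4 = r at hr
    interval_cases r
    · exact h0
    · rw [← h1, gperm_ci]
      exact (grp _).inv_mem h0
    · exact h2
    · rw [← h3, gperm_ci]
      exact (grp _).inv_mem h2

theorem wordA_mem (w : ℕ) : wperm (wordOf 0 w) ∈ grp [0, 2] := wperm_decode_mem 0 _ _

theorem wordH_mem (w : ℕ) : wperm (wordOf 1 w) ∈ grp [4, 6] := wperm_decode_mem 1 _ _

theorem wordK_mem (w : ℕ) : wperm (wordOf 2 w) ∈ grp [8, 10] := wperm_decode_mem 2 _ _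

theorem evA_perm (w : ℕ) : ∃ g ∈ grp [0, 2], ∀ x : Fin 6156, (g x).val = evA w x.val :=
  ⟨_, wordA_mem w, fun x => by rw [wperm_apply, evA_eq]⟩

theorem evH_perm (w : ℕ) : ∃ g ∈ grp [4, 6], ∀ x : Fin 6156, (g x).val = evH w x.val :=
  ⟨_, wordH_mem w, fun x => by rw [wperm_apply, evH_eq]⟩

theorem evK_perm (w : ℕ) : ∃ g ∈ grp [8, 10], ∀ x : Fin 6156, (g x).val = evK w x.val :=
  ⟨_, wordK_mem w, fun x => by rw [wperm_apply, evK_eq]⟩

theorem evA_empty (w : ℕ) (h : Nat.land w 255 = 0) (x : ℕ) : evA w x = x := by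
  rw [evA, h]; rfl

theorem evH_empty (w : ℕ) (h : Nat.land w 255 = 0) (x : ℕ) : evH w x = x := by
  rw [evH, h]; rfl

theorem evK_empty (w : ℕ) (h : Nat.land w 255 = 0) (x : ℕ) : evK w x = x := by
  rw [evK, h]; rfl

/-- The table of a letter describes its permutation. -/
theorem gperm_tab (c : ℕ) (hc : c < 12) (x : Fin 6156) : (gperm c x).val = g13 (tabN c) x.val := by
  rw [gperm_apply, stepN, if_pos hc]

/-! ### The graph and its automorphisms -/

/-- Entry `n` of a list. -/
def lget (l : List ℕ) (n : ℕ) : ℕ :=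
  List.rec (motive := fun _ => ℕ → ℕ) (fun _ => 0) (fun a _ ih n => Nat.rec a (fun m _ => ih m) n) l n

/-- The mask of a row of neighbours. -/
def rowMsk : ℕ := Nat.sub (Nat.pow 2 1105) 1

/-- The packed list of the 85 neighbours of a vertex. -/
def rowN (x : ℕ) : ℕ :=
  Nat.land (Nat.shiftRight (lget nbD (Nat.div x 128)) (Nat.mul 1105 (Nat.mod x 128))) rowMsk

/-- The bit mask of the neighbours of a vertex. -/
def rowM (x : ℕ) : ℕ := foldN 85 (fun t acc => Nat.lor acc (Nat.shiftLeft 1 (g13 (rowN x) t))) 0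

/-- Adjacency of the graph. -/
def adjN (x y : ℕ) : Bool := tb (rowM x) y

theorem adjN_iff (x y : ℕ) : adjN x y = true ↔ ∃ t < 85, g13 (rowN x) t = y := by
  rw [adjN, tb_eq, rowM, testBit_foldN_or]

/-- The group of automorphisms of the graph. -/
def AutP : Subgroup (Equiv.Perm (Fin 6156)) where
  carrier := {σ | ∀ i j : Fin 6156, adjN (σ i).val (σ j).val = adjN i.val j.val}
  mul_mem' := by
    intro σ τ hσ hτ i j
    show adjN (σ (τ i)).val (σ (τ j)).val = _
    rw [hσ, hτ]
  one_mem' := fun _ _ => rfl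
  inv_mem' := by
    intro σ hσ i j
    have h := hσ (σ⁻¹ i) (σ⁻¹ j)
    rw [show σ (σ⁻¹ i) = i from Equiv.apply_symm_apply σ i,
      show σ (σ⁻¹ j) = j from Equiv.apply_symm_apply σ j] at h
    exact h.symm

theorem mem_AutP_of_fwd (σ : Equiv.Perm (Fin 6156))
    (h : ∀ i j : Fin 6156, adjN i.val j.val = true → adjN (σ i).val (σ j).val = true) :
    σ ∈ AutP := by
  have hpow : ∀ k : ℕ, ∀ i j : Fin 6156, adjN i.val j.val = true →
      adjN ((σ ^ k) i).val ((σ ^ k) j).val = true := by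
    intro k
    induction k with
    | zero =>
      intro i j hij
      rw [pow_zero]
      exact hij
    | succ k ih =>
      intro i j hij
      rw [pow_succ', Equiv.Perm.mul_apply, Equiv.Perm.mul_apply]
      exact h _ _ (ih i j hij)
  intro i j
  cases hb : adjN i.val j.val with
  | true => exact h i j hb
  | false =>
    by_contra hc
    rw [Bool.not_eq_false] at hc
    have h1 := hpow (orderOf σ - 1) (σ i) (σ j) hc
    have h2 : ∀ x, (σ ^ (orderOf σ - 1)) (σ x) = x := by
      intro x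
      rw [← Equiv.Perm.mul_apply, ← pow_succ, Nat.sub_add_cancel (orderOf_pos σ),
        pow_orderOf_eq_one]
      rfl
    rw [h2, h2, hb] at h1
    exact absurd h1 Bool.false_ne_true

/-- The letter with table `T` maps edges to edges, for the vertices `lo ≤ x < lo + len`. -/
def autChk (T lo len : ℕ) : Bool := allB len (fun i => allB 85 (fun t =>
  tb (rowM (g13 T (Nat.add lo i))) (g13 T (g13 (rowN (Nat.add lo i)) t))))

theorem autChk_spec (T lo len : ℕ) (h : autChk T lo len = true) (x : ℕ) (h1 : lo ≤ x)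
    (h2 : x < lo + len) (t : ℕ) (ht : t < 85) :
    adjN (g13 T x) (g13 T (g13 (rowN x) t)) = true := by
  have h3 := (allB_iff _ _).mp h (x - lo) (by omega)
  have h4 := (allB_iff _ _).mp h3 t ht
  have h5 : Nat.add lo (x - lo) = x := by
    show lo + (x - lo) = x
    omega
  rw [h5] at h4
  exact h4

theorem gperm_mem_AutP (c : ℕ) (hc : c < 12)
    (h : ∀ x < 6156, ∀ t < 85, adjN (g13 (tabN c) x) (g13 (tabN c) (g13 (rowN x) t)) = true) :
    gperm c ∈ AutP := by
  apply mem_AutP_of_fwd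
  intro i j hij
  obtain ⟨t, ht, h1⟩ := (adjN_iff _ _).mp hij
  have h2 := h i.val i.isLt t ht
  rw [h1] at h2
  rw [gperm_tab c hc, gperm_tab c hc]
  exact h2

theorem grp_le_AutP (Sl : List ℕ) (h : ∀ s ∈ Sl, gperm s ∈ AutP) : grp Sl ≤ AutP := by
  rw [grp, Subgroup.closure_le]
  rintro g ⟨s, hs, rfl⟩
  exact h s hs

/-! ### Rigidity -/

/-- The mask with all vertices. -/
def allOnes : ℕ := 2 ^ 6156 - 1

theorem testBit_allOnes (j : ℕ) : allOnes.testBit j = decide (j < 6156) := by
  rw [allOnes, Nat.testBit_two_pow_sub_one]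

/-- A slot `w + 8192 * kind` of a rigidity entry restricts a mask to the neighbours (kind 1) or
the non-neighbours (kind 2) of the witness `w`. -/
def slotMask (s M : ℕ) : ℕ :=
  Nat.rec M (fun k _ => Nat.rec (Nat.land M (rowM (Nat.land s 8191)))
    (fun _ _ => Nat.xor M (Nat.land M (rowM (Nat.land s 8191)))) k) (Nat.shiftRight s 13)

/-- The witness of a slot is an earlier vertex. -/
def slotOK (s fm : ℕ) : Bool :=
  Nat.rec true (fun _ _ => band (Nat.ble (Nat.land s 8191) 6155) (tb fm (Nat.land s 8191)))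
    (Nat.shiftRight s 13)

/-- The condition of a slot on a vertex. -/
def slotPred (s j : ℕ) : Bool :=
  Nat.rec true (fun k _ => Nat.rec (adjN (Nat.land s 8191) j)
    (fun _ _ => !adjN (Nat.land s 8191) j) k) (Nat.shiftRight s 13)

theorem testBit_slotMask (s M j : ℕ) :
    (slotMask s M).testBit j = (M.testBit j && slotPred s j) := by
  unfold slotMask slotPred
  generalize Nat.shiftRight s 13 = kd
  rcases kd with _ | _ | k
  · show M.testBit j = (M.testBit j && true)
    rw [Bool.and_true]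
  · show (M &&& rowM (Nat.land s 8191)).testBit j = (M.testBit j && adjN (Nat.land s 8191) j)
    rw [Nat.testBit_land, adjN, tb_eq]
  · show (M ^^^ (M &&& rowM (Nat.land s 8191))).testBit j =
      (M.testBit j && !adjN (Nat.land s 8191) j)
    rw [Nat.testBit_xor, Nat.testBit_land, adjN, tb_eq]
    cases M.testBit j <;> cases (rowM (Nat.land s 8191)).testBit j <;> rfl

theorem slotPred_inv (ρ : Equiv.Perm (Fin 6156)) (hρ : ρ ∈ AutP) (fm : ℕ)
    (hfix : ∀ j (hj : j < 6156), fm.testBit j = true → ρ ⟨j, hj⟩ = ⟨j, hj⟩) (s : ℕ)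
    (hok : slotOK s fm = true) (x : Fin 6156) : slotPred s (ρ x).val = slotPred s x.val := by
  unfold slotOK at hok
  unfold slotPred
  generalize Nat.shiftRight s 13 = kd at hok ⊢
  rcases kd with _ | kd
  · rfl
  · have hok' : band (Nat.ble (Nat.land s 8191) 6155) (tb fm (Nat.land s 8191)) = true := hok
    rw [band_iff, tb_eq] at hok'
    have hw : Nat.land s 8191 < 6156 := Nat.lt_succ_of_le (Nat.le_of_ble_eq_true hok'.1)
    have h1 := hρ ⟨Nat.land s 8191, hw⟩ x
    rw [hfix _ hw hok'.2] at h1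
    rcases kd with _ | k
    · exact h1
    · show (!adjN (Nat.land s 8191) (ρ x).val) = !adjN (Nat.land s 8191) x.val
      rw [← h1]

/-- A slot of an entry. -/
def g15 (e k : ℕ) : ℕ := Nat.land (Nat.shiftRight e k) 32767

/-- The vertex of the entry is the only vertex outside `fm` satisfying the conditions of the
three slots. -/
def entOK (e fm : ℕ) : Bool :=
  band (slotOK (g15 e 13) fm) (band (slotOK (g15 e 28) fm) (band (slotOK (g15 e 43) fm)
    (Nat.beq (slotMask (g15 e 43) (slotMask (g15 e 28) (slotMask (g15 e 13)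
      (Nat.xor allOnes (Nat.land allOnes fm))))) (Nat.shiftLeft 1 (Nat.land e 8191)))))

theorem testBit_M0 (fm j : ℕ) : (Nat.xor allOnes (Nat.land allOnes fm)).testBit j =
    (decide (j < 6156) && !fm.testBit j) := by
  show (allOnes ^^^ (allOnes &&& fm)).testBit j = _
  rw [Nat.testBit_xor, Nat.testBit_land, testBit_allOnes]
  cases decide (j < 6156) <;> cases fm.testBit j <;> rfl

theorem entOK_fix (ρ : Equiv.Perm (Fin 6156)) (hρ : ρ ∈ AutP) (e fm : ℕ)
    (hfix : ∀ j (hj : j < 6156), fm.testBit j = true → ρ ⟨j, hj⟩ = ⟨j, hj⟩)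
    (h : entOK e fm = true) :
    ∃ hv : Nat.land e 8191 < 6156, ρ ⟨Nat.land e 8191, hv⟩ = ⟨Nat.land e 8191, hv⟩ := by
  unfold entOK at h
  rw [band_iff, band_iff, band_iff] at h
  obtain ⟨h1, h2, h3, h4⟩ := h
  have h4' := Nat.eq_of_beq_eq_true h4
  generalize Nat.land e 8191 = v at h4' ⊢
  have hbit : ∀ j, ((((decide (j < 6156) && !fm.testBit j) && slotPred (g15 e 13) j) &&
      slotPred (g15 e 28) j) && slotPred (g15 e 43) j) = decide (v = j) := by
    intro j
    rw [← testBit_M0, ← testBit_slotMask, ← testBit_slotMask, ← testBit_slotMask,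
      ← testBit_one_shiftLeft]
    exact congrArg (fun m => Nat.testBit m j) h4'
  have hv0 := hbit v
  rw [decide_eq_true rfl] at hv0
  simp only [Bool.and_eq_true, decide_eq_true_eq, Bool.not_eq_true'] at hv0
  obtain ⟨⟨⟨⟨hv1, hv2⟩, hp1⟩, hp2⟩, hp3⟩ := hv0
  refine ⟨hv1, ?_⟩
  have hw := hbit (ρ ⟨v, hv1⟩).val
  have hw1 : ((((decide ((ρ ⟨v, hv1⟩).val < 6156) && !fm.testBit (ρ ⟨v, hv1⟩).val) &&
      slotPred (g15 e 13) (ρ ⟨v, hv1⟩).val) && slotPred (g15 e 28) (ρ ⟨v, hv1⟩).val) &&
      slotPred (g15 e 43) (ρ ⟨v, hv1⟩).val) = true := by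
    rw [slotPred_inv ρ hρ fm hfix _ h1, slotPred_inv ρ hρ fm hfix _ h2,
      slotPred_inv ρ hρ fm hfix _ h3]
    simp only [Bool.and_eq_true, decide_eq_true_eq, Bool.not_eq_true']
    refine ⟨⟨⟨⟨(ρ ⟨v, hv1⟩).isLt, ?_⟩, hp1⟩, hp2⟩, hp3⟩
    by_contra hc
    rw [Bool.not_eq_false] at hc
    have h5 := hfix (ρ ⟨v, hv1⟩).val (ρ ⟨v, hv1⟩).isLt hc
    have h6 : ρ ⟨v, hv1⟩ = ⟨v, hv1⟩ := ρ.injective h5
    rw [h6] at hc
    rw [hc] at hv2
    exact absurd hv2 (by decide)
  rw [hw1] at hw
  have h7 : v = (ρ ⟨v, hv1⟩).val := of_decide_eq_true hw.symm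
  exact Fin.ext h7.symm

/-- Entry `i` of the rigidity certificate. -/
def gE (i : ℕ) : ℕ := Nat.land (Nat.shiftRight detP (Nat.mul 58 i)) 288230376151711743

/-- The run of the rigidity certificate over the entries `N1 + 1 - n, …, N1`, from the mask `fm`
of the vertices known to be fixed; the result is the new mask, or `0` for a failure. -/
def rigRun (N1 n : ℕ) : ℕ → ℕ :=
  Nat.rec (motive := fun _ => ℕ → ℕ) (fun fm => fm)
    (fun k ih fm => Bool.rec 0
      (forceN (Nat.lor fm (Nat.shiftLeft 1 (Nat.land (gE (Nat.sub N1 k)) 8191))) ih)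
      (entOK (gE (Nat.sub N1 k)) fm)) n

theorem rigRun_sound (ρ : Equiv.Perm (Fin 6156)) (hρ : ρ ∈ AutP) (N1 : ℕ) :
    ∀ (n fm fm' : ℕ), rigRun N1 n fm = fm' → fm' ≠ 0 →
      (∀ j (hj : j < 6156), fm.testBit j = true → ρ ⟨j, hj⟩ = ⟨j, hj⟩) →
      ∀ j (hj : j < 6156), fm'.testBit j = true → ρ ⟨j, hj⟩ = ⟨j, hj⟩ := by
  intro n
  induction n with
  | zero =>
    intro fm fm' h _ hfix
    have h1 : fm = fm' := h
    rw [← h1]
    exact hfix
  | succ n ih =>
    intro fm fm' h hne hfix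
    have h1 : rigRun N1 (n + 1) fm = Bool.rec 0
        (forceN (Nat.lor fm (Nat.shiftLeft 1 (Nat.land (gE (Nat.sub N1 n)) 8191))) (rigRun N1 n))
        (entOK (gE (Nat.sub N1 n)) fm) := rfl
    rw [h1] at h
    cases hent : entOK (gE (Nat.sub N1 n)) fm with
    | false =>
      rw [hent] at h
      exact absurd h.symm hne
    | true =>
      rw [hent, forceN_eq] at h
      obtain ⟨hv, hρv⟩ := entOK_fix ρ hρ _ fm hfix hent
      apply ih _ fm' h hne
      intro j hj hbj
      have hbj' : (fm ||| (1 <<< Nat.land (gE (Nat.sub N1 n)) 8191)).testBit j = true := hbj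
      rw [Nat.testBit_lor, testBit_one_shiftLeft, Bool.or_eq_true, decide_eq_true_eq] at hbj'
      rcases hbj' with hbj' | rfl
      · exact hfix j hj hbj'
      · exact hρv

/-- The mask of the base points. -/
def fm0 : ℕ := foldN 7 (fun k acc => Nat.lor acc (Nat.shiftLeft 1 (g13 rbP k))) 0

theorem fm0_bit (j : ℕ) : fm0.testBit j = true ↔ ∃ k < 7, g13 rbP k = j :=
  testBit_foldN_or _ 7 j

theorem allOnes_ne : allOnes ≠ 0 := by
  intro h
  have h1 := testBit_allOnes 0
  rw [h, Nat.zero_testBit] at h1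
  exact absurd h1 (by decide)

/-- An automorphism is determined by its values at the base points, given the four parts of the
rigidity certificate. -/
theorem rigid_of_chain (m1 m2 m3 : ℕ)
    (h1 : rigRun 1536 1537 fm0 = m1) (h2 : rigRun 3073 1537 m1 = m2)
    (h3 : rigRun 4610 1537 m2 = m3) (h4 : rigRun 6148 1538 m3 = allOnes)
    (hm1 : m1 ≠ 0) (hm2 : m2 ≠ 0) (hm3 : m3 ≠ 0)
    (σ τ : Equiv.Perm (Fin 6156)) (hσ : σ ∈ AutP) (hτ : τ ∈ AutP)
    (h : ∀ k < 7, ∀ hp : g13 rbP k < 6156,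
      (σ ⟨g13 rbP k, hp⟩).val = (τ ⟨g13 rbP k, hp⟩).val) : σ = τ := by
  have hρ : τ⁻¹ * σ ∈ AutP := AutP.mul_mem (AutP.inv_mem hτ) hσ
  have hf0 : ∀ j (hj : j < 6156), fm0.testBit j = true → (τ⁻¹ * σ) ⟨j, hj⟩ = ⟨j, hj⟩ := by
    intro j hj hbj
    obtain ⟨k, hk, rfl⟩ := (fm0_bit j).mp hbj
    have h5 := h k hk hj
    rw [Equiv.Perm.mul_apply, Fin.ext h5]
    exact Equiv.symm_apply_apply τ _
  have hf1 := rigRun_sound _ hρ _ _ _ _ h1 hm1 hf0
  have hf2 := rigRun_sound _ hρ _ _ _ _ h2 hm2 hf1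
  have hf3 := rigRun_sound _ hρ _ _ _ _ h3 hm3 hf2
  have hf4 := rigRun_sound _ hρ _ _ _ _ h4 allOnes_ne hf3
  apply Equiv.ext
  intro x
  have h6 := hf4 x.val x.isLt (by rw [testBit_allOnes]; exact decide_eq_true x.isLt)
  rw [Equiv.Perm.mul_apply] at h6
  have h7 : τ (τ⁻¹ (σ x)) = τ x := by rw [h6]
  rw [show τ (τ⁻¹ (σ x)) = σ x from Equiv.apply_symm_apply τ _] at h7
  exact h7

/-! ### One level of a stabiliser chain -/

theorem level_card (P Q : Subgroup (Equiv.Perm (Fin 6156))) (S : Set (Equiv.Perm (Fin 6156)))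
    (hP : P = Subgroup.closure S) (hQP : Q ≤ P) (c : Fin 6156) (hQc : ∀ q ∈ Q, q c = c)
    (n : ℕ) (u : ℕ → Equiv.Perm (Fin 6156))
    (hu : ∀ i < n, u i ∈ P) (hinj : ∀ i < n, ∀ j < n, u i c = u j c → i = j)
    (h1 : ∃ i < n, u i = 1)
    (hcert : ∀ s ∈ S, ∀ i < n, ∃ j < n, ∃ q ∈ Q, s * u i = u j * q) :
    Nat.card P = n * Nat.card Q := by
  have hstep : ∀ s ∈ S, ∀ w : Equiv.Perm (Fin 6156), (∃ i < n, ∃ q ∈ Q, w = u i * q) →
      ∃ i < n, ∃ q ∈ Q, s * w = u i * q := by
    rintro s hs w ⟨i, hi, q, hq, rfl⟩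
    obtain ⟨j, hj, q', hq', h2⟩ := hcert s hs i hi
    exact ⟨j, hj, q' * q, Q.mul_mem hq' hq, by rw [← mul_assoc, h2, mul_assoc]⟩
  have hPW : ∀ g ∈ P, ∀ w : Equiv.Perm (Fin 6156), (∃ i < n, ∃ q ∈ Q, w = u i * q) →
      ∃ i < n, ∃ q ∈ Q, g * w = u i * q := by
    intro g hg
    rw [hP] at hg
    induction hg using Subgroup.closure_induction with
    | mem s hs => exact hstep s hs
    | one => intro w hw; rw [one_mul]; exact hw
    | mul a b _ _ iha ihb =>
      intro w hw
      rw [mul_assoc]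
      exact iha _ (ihb w hw)
    | inv a _ iha =>
      have hpow : ∀ k : ℕ, ∀ w : Equiv.Perm (Fin 6156), (∃ i < n, ∃ q ∈ Q, w = u i * q) →
          ∃ i < n, ∃ q ∈ Q, a ^ k * w = u i * q := by
        intro k
        induction k with
        | zero => intro w hw; rw [pow_zero, one_mul]; exact hw
        | succ k ihk =>
          intro w hw
          rw [pow_succ, mul_assoc]
          exact ihk _ (iha w hw)
      have hinv : a⁻¹ = a ^ (orderOf a - 1) := by
        have h3 : a ^ (orderOf a - 1) * a = 1 := by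
          rw [← pow_succ, Nat.sub_add_cancel (orderOf_pos a), pow_orderOf_eq_one]
        exact (eq_inv_of_mul_eq_one_left h3).symm
      rw [hinv]
      exact hpow _
  have hmemP : ∀ i : Fin n, ∀ q : ↥Q, u i.val * (q : Equiv.Perm (Fin 6156)) ∈ P :=
    fun i q => P.mul_mem (hu _ i.isLt) (hQP q.2)
  have hbij : Function.Bijective (fun p : Fin n × ↥Q =>
      (⟨u p.1.val * (p.2 : Equiv.Perm (Fin 6156)), hmemP p.1 p.2⟩ : ↥P)) := by
    constructor
    · rintro ⟨i, q⟩ ⟨i', q'⟩ h
      have h2 : u i.val * (q : Equiv.Perm (Fin 6156)) =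
          u i'.val * (q' : Equiv.Perm (Fin 6156)) := congrArg Subtype.val h
      have h3 : (u i.val * (q : Equiv.Perm (Fin 6156))) c =
          (u i'.val * (q' : Equiv.Perm (Fin 6156))) c := by rw [h2]
      rw [Equiv.Perm.mul_apply, Equiv.Perm.mul_apply, hQc q q.2, hQc q' q'.2] at h3
      have h4 : i = i' := Fin.ext (hinj _ i.isLt _ i'.isLt h3)
      subst h4
      have h5 : (q : Equiv.Perm (Fin 6156)) = q' := mul_left_cancel h2
      rw [Subtype.ext h5]
    · rintro ⟨g, hg⟩
      obtain ⟨i0, hi0, hu0⟩ := h1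
      obtain ⟨i, hi, q, hq, h2⟩ := hPW g hg 1 ⟨i0, hi0, 1, Q.one_mem, by rw [hu0, mul_one]⟩
      rw [mul_one] at h2
      exact ⟨(⟨i, hi⟩, ⟨q, hq⟩), Subtype.ext h2.symm⟩
  rw [← Nat.card_congr (Equiv.ofBijective _ hbij), Nat.card_prod, Nat.card_fin]

/-- The Schreier certificate for the generator with table `T` and the point number `i` of the
orbit, with image `y`: the equation holds at the base points. -/
def lvlStep (n : ℕ) (posF : ℕ → ℕ) (evP evQ : ℕ → ℕ → ℕ) (wdF certF : ℕ → ℕ) (T y i : ℕ) : Bool :=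
  band (Nat.ble (Nat.succ (posF y)) n)
    (allB 7 (fun k => Nat.beq (g13 T (evP (wdF i) (g13 rbP k)))
      (evP (wdF (posF y)) (evQ (certF i) (g13 rbP k)))))

/-- The Schreier certificates for the generator with table `T` and the points with numbers
`lo ≤ i < lo + len` of the orbit. -/
def lvlChk (n : ℕ) (orbF posF : ℕ → ℕ) (evP evQ : ℕ → ℕ → ℕ) (wdF certF : ℕ → ℕ) (T lo len : ℕ) :
    Bool :=
  allB len (fun i => lvlStep n posF evP evQ wdF certF T (g13 T (orbF (Nat.add lo i))) (Nat.add lo i))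

theorem lvlChk_spec (n : ℕ) (orbF posF : ℕ → ℕ) (evP evQ : ℕ → ℕ → ℕ) (wdF certF : ℕ → ℕ)
    (T lo len : ℕ) (h : lvlChk n orbF posF evP evQ wdF certF T lo len = true) (i : ℕ)
    (h1 : lo ≤ i) (h2 : i < lo + len) :
    lvlStep n posF evP evQ wdF certF T (g13 T (orbF i)) i = true := by
  have h3 := (allB_iff _ _).mp h (i - lo) (by omega)
  have h5 : Nat.add lo (i - lo) = i := by
    show lo + (i - lo) = i
    omega
  rw [h5] at h3
  exact h3

/-- The transversal: the word number `i` maps the base point to the point number `i` of the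
orbit, and the points of the orbit are distinct. -/
def trChk (n c : ℕ) (orbF posF : ℕ → ℕ) (evP : ℕ → ℕ → ℕ) (wdF : ℕ → ℕ) : Bool :=
  allB n (fun i => band (Nat.beq (evP (wdF i) c) (orbF i)) (Nat.beq (posF (orbF i)) i))

theorem trChk_spec (n c : ℕ) (orbF posF : ℕ → ℕ) (evP : ℕ → ℕ → ℕ) (wdF : ℕ → ℕ)
    (h : trChk n c orbF posF evP wdF = true) (i : ℕ) (hi : i < n) :
    evP (wdF i) c = orbF i ∧ posF (orbF i) = i := by
  have h1 := (allB_iff _ _).mp h i hi
  rw [band_iff] at h1
  exact ⟨Nat.eq_of_beq_eq_true h1.1, Nat.eq_of_beq_eq_true h1.2⟩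

theorem level_fast
    (hrig : ∀ σ τ : Equiv.Perm (Fin 6156), σ ∈ AutP → τ ∈ AutP →
      (∀ k < 7, ∀ hp : g13 rbP k < 6156,
        (σ ⟨g13 rbP k, hp⟩).val = (τ ⟨g13 rbP k, hp⟩).val) → σ = τ)
    (P Q : Subgroup (Equiv.Perm (Fin 6156))) (hPA : P ≤ AutP) (hQP : Q ≤ P)
    (c : ℕ) (hc : c < 6156) (hQc : ∀ q ∈ Q, q ⟨c, hc⟩ = ⟨c, hc⟩)
    (s1 s2 : Equiv.Perm (Fin 6156)) (hP : P = Subgroup.closure {s1, s2})
    (T1 T2 : ℕ) (hT1 : ∀ x : Fin 6156, (s1 x).val = g13 T1 x.val)
    (hT2 : ∀ x : Fin 6156, (s2 x).val = g13 T2 x.val)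
    (evP evQ : ℕ → ℕ → ℕ)
    (hevP : ∀ w, ∃ g ∈ P, ∀ x : Fin 6156, (g x).val = evP w x.val)
    (hemp : ∀ w, Nat.land w 255 = 0 → ∀ x, evP w x = x)
    (hevQ : ∀ w, ∃ q ∈ Q, ∀ x : Fin 6156, (q x).val = evQ w x.val)
    (n : ℕ) (orbF posF wdF cert1F cert2F : ℕ → ℕ)
    (htr : ∀ i < n, evP (wdF i) c = orbF i ∧ posF (orbF i) = i)
    (hc0 : posF c < n ∧ Nat.land (wdF (posF c)) 255 = 0)
    (hc1 : ∀ i < n, lvlStep n posF evP evQ wdF cert1F T1 (g13 T1 (orbF i)) i = true)
    (hc2 : ∀ i < n, lvlStep n posF evP evQ wdF cert2F T2 (g13 T2 (orbF i)) i = true) :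
    Nat.card P = n * Nat.card Q := by
  choose u hu hu' using hevP
  choose qf hq hq' using hevQ
  have hs1 : s1 ∈ P := by
    rw [hP]
    exact Subgroup.subset_closure (Set.mem_insert _ _)
  have hs2 : s2 ∈ P := by
    rw [hP]
    exact Subgroup.subset_closure (Set.mem_insert_of_mem _ rfl)
  have key : ∀ (s : Equiv.Perm (Fin 6156)) (T : ℕ) (certF : ℕ → ℕ), s ∈ P →
      (∀ x : Fin 6156, (s x).val = g13 T x.val) →
      (∀ i < n, lvlStep n posF evP evQ wdF certF T (g13 T (orbF i)) i = true) →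
      ∀ i < n, ∃ j < n, ∃ q ∈ Q, s * u (wdF i) = u (wdF j) * q := by
    intro s T certF hs hT hchk i hi
    have h := hchk i hi
    rw [lvlStep, band_iff, allB_iff] at h
    obtain ⟨h1, h2⟩ := h
    refine ⟨posF (g13 T (orbF i)), Nat.le_of_ble_eq_true h1, qf (certF i), hq _, ?_⟩
    apply hrig
    · exact hPA (P.mul_mem hs (hu _))
    · exact hPA (P.mul_mem (hu _) (hQP (hq _)))
    · intro k hk hp
      rw [Equiv.Perm.mul_apply, Equiv.Perm.mul_apply, hT, hu', hu', hq']
      exact Nat.eq_of_beq_eq_true (h2 k hk)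
  apply level_card P Q {s1, s2} hP hQP ⟨c, hc⟩ hQc n (fun i => u (wdF i))
  · exact fun i _ => hu _
  · intro i hi j hj h
    have h3 : (u (wdF i) ⟨c, hc⟩).val = (u (wdF j) ⟨c, hc⟩).val := by rw [h]
    rw [hu', hu', (htr i hi).1, (htr j hj).1] at h3
    have h4 := (htr i hi).2
    rw [h3, (htr j hj).2] at h4
    exact h4.symm
  · refine ⟨posF c, hc0.1, ?_⟩
    apply Equiv.ext
    intro x
    apply Fin.ext
    rw [hu', hemp _ hc0.2]
    rfl
  · rintro s (rfl | rfl) i hi
    · exact key s T1 cert1F hs1 hT1 hc1 i hi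
    · exact key s T2 cert2F hs2 hT2 hc2 i hi

/-! ### Further certificates -/

/-- The letter with table `T` is the word `w`. -/
def wordChk (T : ℕ) (ev : ℕ → ℕ → ℕ) (w : ℕ) : Bool :=
  allB 6156 (fun x => Nat.beq (g13 T x) (ev w x))

theorem gperm_eq_word (c : ℕ) (hc : c < 12) (β : ℕ) (ev : ℕ → ℕ → ℕ)
    (hev : ∀ w x, ev w x = evalW (wordOf β w) x) (w : ℕ)
    (h : wordChk (tabN c) ev w = true) : gperm c = wperm (wordOf β w) := by
  apply Equiv.ext
  intro x
  apply Fin.ext
  rw [gperm_tab c hc, wperm_apply, ← hev]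
  exact Nat.eq_of_beq_eq_true ((allB_iff _ _).mp h x.val x.isLt)

/-- Iteration of a table. -/
def itN (T n x : ℕ) : ℕ := Nat.rec x (fun _ acc => g13 T acc) n

/-- The letter with table `T` has order dividing `n`. -/
def ordChk (T n : ℕ) : Bool := allB 6156 (fun x => Nat.beq (itN T n x) x)

theorem gperm_pow_of_ordChk (c : ℕ) (hc : c < 12) (n : ℕ) (h : ordChk (tabN c) n = true) :
    gperm c ^ n = 1 := by
  have h1 : ∀ (k : ℕ) (x : Fin 6156), ((gperm c ^ k) x).val = itN (tabN c) k x.val := by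
    intro k
    induction k with
    | zero =>
      intro x
      rw [pow_zero]
      rfl
    | succ k ih =>
      intro x
      rw [pow_succ', Equiv.Perm.mul_apply, gperm_tab c hc, ih]
      rfl
  apply Equiv.ext
  intro x
  apply Fin.ext
  rw [h1]
  exact Nat.eq_of_beq_eq_true ((allB_iff _ _).mp h x.val x.isLt)

/-- The number of `x < n` with `f x = i`. -/
def cntN (f : ℕ → ℕ) (n i : ℕ) : ℕ :=
  Nat.rec 0 (fun x acc => Nat.add acc (Bool.rec 0 1 (Nat.beq (f x) i))) n

theorem cntN_eq (f : ℕ → ℕ) (n i : ℕ) :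
    cntN f n i = ∑ x ∈ Finset.range n, if f x = i then 1 else 0 := by
  induction n with
  | zero => rfl
  | succ n ih =>
    rw [Finset.sum_range_succ, ← ih]
    show Nat.add (cntN f n i) (Bool.rec 0 1 (Nat.beq (f n) i)) = _
    by_cases h : f n = i
    · rw [if_pos h, h, Nat.beq_refl]
      rfl
    · rw [if_neg h]
      have h1 : Nat.beq (f n) i = false := by
        cases hb : Nat.beq (f n) i with
        | false => rfl
        | true => exact absurd (Nat.eq_of_beq_eq_true hb) h
      rw [h1]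
      rfl

theorem grp_fix (a b : ℕ) (c : Fin 6156) (ha : gperm a c = c) (hb : gperm b c = c) :
    ∀ q ∈ grp [a, b], q c = c := by
  have hle : grp [a, b] ≤ MulAction.stabilizer (Equiv.Perm (Fin 6156)) c := by
    rw [grp_pair, Subgroup.closure_le]
    rintro g (rfl | rfl)
    · exact ha
    · exact hb
  intro q hq
  exact hle hq

/-- The class of a point under the point stabiliser. -/
def clsF (x : ℕ) : ℕ := g3 clsP x

theorem clsF_lt (x : ℕ) : clsF x < 8 := by
  have h : clsF x ≤ 7 := by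
    show (clsP >>> (3 * x)) &&& 7 ≤ 7
    exact Nat.and_le_right
  omega

/-- The word of each point moves the representative of its class to the point. -/
def clsChk (lo len : ℕ) : Bool :=
  allB len (fun i => Nat.beq (evH (g32 cwP (Nat.add lo i)) (g13 repP (clsF (Nat.add lo i))))
    (Nat.add lo i))

theorem clsChk_spec (lo len : ℕ) (h : clsChk lo len = true) (x : ℕ) (h1 : lo ≤ x)
    (h2 : x < lo + len) : evH (g32 cwP x) (g13 repP (clsF x)) = x := by
  have h3 := (allB_iff _ _).mp h (x - lo) (by omega)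
  have h5 : Nat.add lo (x - lo) = x := by
    show lo + (x - lo) = x
    omega
  rw [h5] at h3
  exact Nat.eq_of_beq_eq_true h3

end Cfsg.Agent.Lib.Helper9.J3
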