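import Mathlib
import Cfsg.Agent.Lib.Helper9.J3Base

set_option autoImplicit false

namespace Cfsg.Agent.Lib.Helper9.J3


/-! ### The generator with table `t0` is an automorphism of the graph -/

set_option maxRecDepth 1000000 in
theorem aut0_0 : autChk t0 0 1539 = true := by decide +kernel

set_option maxRecDepth 1000000 in
theorem aut0_1 : autChk t0 1539 1539 = true := by decide +kernel

set_option maxRecDepth 1000000 in
theorem aut0_2 : autChk t0 3078 1539 = true := by decide +kernel

set_option maxRecDepth 1000000 in
theorem aut0_3 : autChk t0 4617 1539 = true := by decide +kernel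

theorem aut0 : gperm 0 ∈ AutP := by
  apply gperm_mem_AutP 0 (by norm_num)
  intro x hx t ht
  show adjN (g13 t0 x) (g13 t0 (g13 (rowN x) t)) = true
  rcases Nat.lt_or_ge x 1539 with h1 | h1
  · exact autChk_spec _ _ _ aut0_0 x (Nat.zero_le x) (by omega) t ht
  rcases Nat.lt_or_ge x 3078 with h2 | h2
  · exact autChk_spec _ _ _ aut0_1 x h1 (by omega) t ht
  rcases Nat.lt_or_ge x 4617 with h3 | h3
  · exact autChk_spec _ _ _ aut0_2 x h2 (by omega) t ht
  · exact autChk_spec _ _ _ aut0_3 x h3 (by omega) t ht


end Cfsg.Agent.Lib.Helper9.J3
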