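import Mathlib
import Cfsg.Agent.Lib.Helper9.J3Base

set_option autoImplicit false

namespace Cfsg.Agent.Lib.Helper9.J3


/-! ### Schreier certificates of the first level for the generator with table `t0` -/

set_option maxRecDepth 1000000 in
theorem lvl1A_0 : lvlChk 6156 (fun i => i) (fun y => y) evA evH (fun i => g32 wd1P i) (fun i => g32 c1AP i) t0 0 1539 = true := by
  decide +kernel

set_option maxRecDepth 1000000 in
theorem lvl1A_1 : lvlChk 6156 (fun i => i) (fun y => y) evA evH (fun i => g32 wd1P i) (fun i => g32 c1AP i) t0 1539 1539 = true := by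
  decide +kernel

set_option maxRecDepth 1000000 in
theorem lvl1A_2 : lvlChk 6156 (fun i => i) (fun y => y) evA evH (fun i => g32 wd1P i) (fun i => g32 c1AP i) t0 3078 1539 = true := by
  decide +kernel

set_option maxRecDepth 1000000 in
theorem lvl1A_3 : lvlChk 6156 (fun i => i) (fun y => y) evA evH (fun i => g32 wd1P i) (fun i => g32 c1AP i) t0 4617 1539 = true := by
  decide +kernel

theorem lvl1A (i : ℕ) (hi : i < 6156) : lvlStep 6156 (fun y => y) evA evH (fun i => g32 wd1P i)
    (fun i => g32 c1AP i) t0 (g13 t0 i) i = true := by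
  rcases Nat.lt_or_ge i 1539 with h1 | h1
  · exact lvlChk_spec _ _ _ _ _ _ _ _ _ _ lvl1A_0 i (Nat.zero_le i) (by omega)
  rcases Nat.lt_or_ge i 3078 with h2 | h2
  · exact lvlChk_spec _ _ _ _ _ _ _ _ _ _ lvl1A_1 i h1 (by omega)
  rcases Nat.lt_or_ge i 4617 with h3 | h3
  · exact lvlChk_spec _ _ _ _ _ _ _ _ _ _ lvl1A_2 i h2 (by omega)
  · exact lvlChk_spec _ _ _ _ _ _ _ _ _ _ lvl1A_3 i h3 (by omega)


end Cfsg.Agent.Lib.Helper9.J3
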