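import Mathlib
import Cfsg.Agent.Lib.Helper9.J3Base

set_option autoImplicit false

namespace Cfsg.Agent.Lib.Helper9.J3

/-! ### The smaller certificates -/

set_option maxRecDepth 1000000 in
theorem w4 : wordChk t4 evA hw4 = true := by decide +kernel

set_option maxRecDepth 1000000 in
theorem w6 : wordChk t6 evA hw6 = true := by decide +kernel

set_option maxRecDepth 1000000 in
theorem w8 : wordChk t8 evH kw8 = true := by decide +kernel

set_option maxRecDepth 1000000 in
theorem w10 : wordChk t10 evH kw10 = true := by decide +kernel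

set_option maxRecDepth 1000000 in
theorem tr1 : trChk 6156 0 (fun i => i) (fun y => y) evA (fun i => g32 wd1P i) = true := by
  decide +kernel

set_option maxRecDepth 1000000 in
theorem tr2 : trChk 85 8 (fun i => g13 orb2P i) (fun y => g7 pos2P y) evH (fun i => g32 wd2P i) =
    true := by
  decide +kernel

set_option maxRecDepth 1000000 in
theorem tr3 : trChk 96 1 (fun i => g13 orb3P i) (fun y => g7 pos3P y) evK (fun i => g32 wd3P i) =
    true := by
  decide +kernel

set_option maxRecDepth 1000000 in
theorem c01 : Nat.beq (Nat.land (g32 wd1P 0) 255) 0 = true := by decide +kernel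

set_option maxRecDepth 1000000 in
theorem c02 : band (Nat.ble (Nat.succ (g7 pos2P 8)) 85)
    (Nat.beq (Nat.land (g32 wd2P (g7 pos2P 8)) 255) 0) = true := by decide +kernel

set_option maxRecDepth 1000000 in
theorem c03 : band (Nat.ble (Nat.succ (g7 pos3P 1)) 96)
    (Nat.beq (Nat.land (g32 wd3P (g7 pos3P 1)) 255) 0) = true := by decide +kernel

set_option maxRecDepth 1000000 in
theorem lvl2A : lvlChk 85 (fun i => g13 orb2P i) (fun y => g7 pos2P y) evH evK
    (fun i => g32 wd2P i) (fun i => g32 c2AP i) t4 0 85 = true := by decide +kernel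

set_option maxRecDepth 1000000 in
theorem lvl2B : lvlChk 85 (fun i => g13 orb2P i) (fun y => g7 pos2P y) evH evK
    (fun i => g32 wd2P i) (fun i => g32 c2BP i) t6 0 85 = true := by decide +kernel

set_option maxRecDepth 1000000 in
theorem lvl3A : lvlChk 96 (fun i => g13 orb3P i) (fun y => g7 pos3P y) evK (fun _ x => x)
    (fun i => g32 wd3P i) (fun _ => 0) t8 0 96 = true := by decide +kernel

set_option maxRecDepth 1000000 in
theorem lvl3B : lvlChk 96 (fun i => g13 orb3P i) (fun y => g7 pos3P y) evK (fun _ x => x)
    (fun i => g32 wd3P i) (fun _ => 0) t10 0 96 = true := by decide +kernel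

set_option maxRecDepth 1000000 in
theorem fx : band (Nat.beq (g13 t4 0) 0) (band (Nat.beq (g13 t6 0) 0)
    (band (Nat.beq (g13 t8 8) 8) (Nat.beq (g13 t10 8) 8))) = true := by decide +kernel

set_option maxRecDepth 1000000 in
theorem ord0 : ordChk t0 19 = true := by decide +kernel

set_option maxRecDepth 1000000 in
theorem ord2 : ordChk t2 19 = true := by decide +kernel

set_option maxRecDepth 1000000 in
theorem cls_ok : clsChk 0 6156 = true := by decide +kernel

set_option maxRecDepth 1000000 in
theorem rep_ok : allB 8 (fun i => Nat.ble (g13 repP i) 6155) = true := by decide +kernel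

set_option maxRecDepth 1000000 in
theorem rep0 : band (Nat.beq (g13 repP 0) 0) (Nat.beq (clsF 0) 0) = true := by decide +kernel

set_option maxRecDepth 1000000 in
theorem cnt_ok : band (Nat.beq (cntN clsF 6156 0) 1) (band (Nat.beq (cntN clsF 6156 1) 1360)
    (band (Nat.beq (cntN clsF 6156 2) 2040) (band (Nat.beq (cntN clsF 6156 3) 1360)
    (band (Nat.beq (cntN clsF 6156 4) 85) (band (Nat.beq (cntN clsF 6156 5) 680)
    (band (Nat.beq (cntN clsF 6156 6) 510) (Nat.beq (cntN clsF 6156 7) 120))))))) = true := by
  decide +kernel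

end Cfsg.Agent.Lib.Helper9.J3
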