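import Mathlib
import Cfsg.Agent.Lib.Helper9.J3Base
import Cfsg.Agent.Lib.Helper9.J3CertA
import Cfsg.Agent.Lib.Helper9.J3CertB
import Cfsg.Agent.Lib.Helper9.J3CertC
import Cfsg.Agent.Lib.Helper9.J3CertD
import Cfsg.Agent.Lib.Helper9.J3CertE
import Cfsg.Agent.Lib.Helper9.J3CertF

set_option autoImplicit false

namespace Cfsg.Agent.Lib.Helper9.J3

/-! ### The chain of stabilisers and the order -/

theorem gt0 (x : Fin 6156) : (gperm 0 x).val = g13 t0 x.val := gperm_tab 0 (by norm_num) x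

theorem gt2 (x : Fin 6156) : (gperm 2 x).val = g13 t2 x.val := gperm_tab 2 (by norm_num) x

theorem gt4 (x : Fin 6156) : (gperm 4 x).val = g13 t4 x.val := gperm_tab 4 (by norm_num) x

theorem gt6 (x : Fin 6156) : (gperm 6 x).val = g13 t6 x.val := gperm_tab 6 (by norm_num) x

theorem gt8 (x : Fin 6156) : (gperm 8 x).val = g13 t8 x.val := gperm_tab 8 (by norm_num) x

theorem gt10 (x : Fin 6156) : (gperm 10 x).val = g13 t10 x.val := gperm_tab 10 (by norm_num) x

theorem g4_eq : gperm 4 = wperm (wordOf 0 hw4) :=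
  gperm_eq_word 4 (by norm_num) 0 evA evA_eq hw4 w4

theorem g6_eq : gperm 6 = wperm (wordOf 0 hw6) :=
  gperm_eq_word 6 (by norm_num) 0 evA evA_eq hw6 w6

theorem g8_eq : gperm 8 = wperm (wordOf 1 kw8) :=
  gperm_eq_word 8 (by norm_num) 1 evH evH_eq kw8 w8

theorem g10_eq : gperm 10 = wperm (wordOf 1 kw10) :=
  gperm_eq_word 10 (by norm_num) 1 evH evH_eq kw10 w10

theorem K_le : grp [4, 6] ≤ grp [0, 2] := by
  rw [grp_pair 4 6, Subgroup.closure_le]
  rintro g (rfl | rfl)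
  · rw [g4_eq]
    exact wordA_mem _
  · rw [g6_eq]
    exact wordA_mem _

theorem K2_le : grp [8, 10] ≤ grp [4, 6] := by
  rw [grp_pair 8 10, Subgroup.closure_le]
  rintro g (rfl | rfl)
  · rw [g8_eq]
    exact wordH_mem _
  · rw [g10_eq]
    exact wordH_mem _

theorem G_le_AutP : grp [0, 2] ≤ AutP := by
  apply grp_le_AutP
  intro s hs
  simp only [List.mem_cons, List.not_mem_nil, or_false] at hs
  rcases hs with rfl | rfl
  · exact aut0
  · exact aut2

theorem K_fix0 : ∀ q ∈ grp [4, 6], q (0 : Fin 6156) = 0 := by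
  have h := fx
  rw [band_iff, band_iff, band_iff] at h
  apply grp_fix
  · apply Fin.ext
    rw [gt4]
    exact Nat.eq_of_beq_eq_true h.1
  · apply Fin.ext
    rw [gt6]
    exact Nat.eq_of_beq_eq_true h.2.1

theorem K2_fix8 : ∀ q ∈ grp [8, 10], q (⟨8, by norm_num⟩ : Fin 6156) = ⟨8, by norm_num⟩ := by
  have h := fx
  rw [band_iff, band_iff, band_iff] at h
  apply grp_fix
  · apply Fin.ext
    rw [gt8]
    exact Nat.eq_of_beq_eq_true h.2.2.1
  · apply Fin.ext
    rw [gt10]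
    exact Nat.eq_of_beq_eq_true h.2.2.2

theorem card_K2 : Nat.card (grp [8, 10]) = 96 := by
  have h0 := c03
  rw [band_iff] at h0
  have h := level_fast rigid (grp [8, 10]) ⊥ (K2_le.trans (K_le.trans G_le_AutP)) bot_le 1
    (by norm_num) (by
      intro q hq
      rw [Subgroup.mem_bot] at hq
      rw [hq]
      rfl)
    (gperm 8) (gperm 10) (grp_pair 8 10) t8 t10 gt8 gt10 evK (fun _ x => x) evK_perm evK_empty
    (fun _ => ⟨1, Subgroup.one_mem _, fun _ => rfl⟩)
    96 (fun i => g13 orb3P i) (fun y => g7 pos3P y) (fun i => g32 wd3P i) (fun _ => 0) (fun _ => 0)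
    (trChk_spec _ _ _ _ _ _ tr3) ⟨Nat.le_of_ble_eq_true h0.1, Nat.eq_of_beq_eq_true h0.2⟩
    (fun i hi => lvlChk_spec _ _ _ _ _ _ _ _ _ _ lvl3A i (Nat.zero_le i) (by omega))
    (fun i hi => lvlChk_spec _ _ _ _ _ _ _ _ _ _ lvl3B i (Nat.zero_le i) (by omega))
  rw [h, Subgroup.card_bot]

theorem card_K : Nat.card (grp [4, 6]) = 8160 := by
  have h0 := c02
  rw [band_iff] at h0
  have h := level_fast rigid (grp [4, 6]) (grp [8, 10]) (K_le.trans G_le_AutP) K2_le 8
    (by norm_num) K2_fix8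
    (gperm 4) (gperm 6) (grp_pair 4 6) t4 t6 gt4 gt6 evH evK evH_perm evH_empty evK_perm
    85 (fun i => g13 orb2P i) (fun y => g7 pos2P y) (fun i => g32 wd2P i) (fun i => g32 c2AP i)
    (fun i => g32 c2BP i)
    (trChk_spec _ _ _ _ _ _ tr2) ⟨Nat.le_of_ble_eq_true h0.1, Nat.eq_of_beq_eq_true h0.2⟩
    (fun i hi => lvlChk_spec _ _ _ _ _ _ _ _ _ _ lvl2A i (Nat.zero_le i) (by omega))
    (fun i hi => lvlChk_spec _ _ _ _ _ _ _ _ _ _ lvl2B i (Nat.zero_le i) (by omega))
  rw [h, card_K2]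

theorem card_G : Nat.card (grp [0, 2]) = 50232960 := by
  have h := level_fast rigid (grp [0, 2]) (grp [4, 6]) G_le_AutP K_le 0
    (by norm_num) K_fix0
    (gperm 0) (gperm 2) (grp_pair 0 2) t0 t2 gt0 gt2 evA evH evA_perm evA_empty evH_perm
    6156 (fun i => i) (fun y => y) (fun i => g32 wd1P i) (fun i => g32 c1AP i)
    (fun i => g32 c1BP i)
    (trChk_spec _ _ _ _ _ _ tr1) ⟨by norm_num, Nat.eq_of_beq_eq_true c01⟩
    lvl1A lvl1B
  rw [h, card_K]

/-! ### Transitivity and the classes of the point stabiliser -/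

theorem G_trans (i : Fin 6156) : ∃ g ∈ grp [0, 2], g 0 = i := by
  refine ⟨wperm (wordOf 0 (g32 wd1P i.val)), wordA_mem _, Fin.ext ?_⟩
  rw [wperm_apply, ← evA_eq]
  exact (trChk_spec _ _ _ _ _ _ tr1 i.val i.isLt).1

instance pretrans_G : MulAction.IsPretransitive ↥(grp [0, 2]) (Fin 6156) := by
  refine ⟨fun x y => ?_⟩
  obtain ⟨g, hg, hgx⟩ := G_trans x
  obtain ⟨h, hh, hhy⟩ := G_trans y
  refine ⟨⟨h * g⁻¹, (grp [0, 2]).mul_mem hh ((grp [0, 2]).inv_mem hg)⟩, ?_⟩
  show (h * g⁻¹) x = y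
  rw [Equiv.Perm.mul_apply, ← hgx, show g⁻¹ (g 0) = 0 from Equiv.symm_apply_apply g 0, hhy]

theorem rep_lt (i : ℕ) (hi : i < 8) : g13 repP i < 6156 :=
  Nat.lt_succ_of_le (Nat.le_of_ble_eq_true ((allB_iff _ _).mp rep_ok i hi))

theorem cls_word (x : Fin 6156) : ∃ k ∈ grp [4, 6], ∀ r : Fin 6156,
    r.val = g13 repP (clsF x.val) → k r = x := by
  refine ⟨wperm (wordOf 1 (g32 cwP x.val)), wordH_mem _, ?_⟩
  intro r hr
  apply Fin.ext
  rw [wperm_apply, ← evH_eq, hr]
  exact clsChk_spec 0 6156 cls_ok x.val (Nat.zero_le _) (by have := x.isLt; omega)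

theorem cnt_vals : cntN clsF 6156 0 = 1 ∧ cntN clsF 6156 1 = 1360 ∧ cntN clsF 6156 2 = 2040 ∧
    cntN clsF 6156 3 = 1360 ∧ cntN clsF 6156 4 = 85 ∧ cntN clsF 6156 5 = 680 ∧
    cntN clsF 6156 6 = 510 ∧ cntN clsF 6156 7 = 120 := by
  have h := cnt_ok
  rw [band_iff, band_iff, band_iff, band_iff, band_iff, band_iff, band_iff] at h
  obtain ⟨h0, h1, h2, h3, h4, h5, h6, h7⟩ := h
  have e0 := Nat.eq_of_beq_eq_true h0
  have e1 := Nat.eq_of_beq_eq_true h1
  have e2 := Nat.eq_of_beq_eq_true h2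
  have e3 := Nat.eq_of_beq_eq_true h3
  have e4 := Nat.eq_of_beq_eq_true h4
  have e5 := Nat.eq_of_beq_eq_true h5
  have e6 := Nat.eq_of_beq_eq_true h6
  have e7 := Nat.eq_of_beq_eq_true h7
  exact ⟨e0, e1, e2, e3, e4, e5, e6, e7⟩

theorem arith_key : ∀ b1 b2 b3 b4 b5 b6 b7 : Bool,
    (1 + (if b1 = true then 1360 else 0) + (if b2 = true then 2040 else 0) +
      (if b3 = true then 1360 else 0) + (if b4 = true then 85 else 0) +
      (if b5 = true then 680 else 0) + (if b6 = true then 510 else 0) +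
      (if b7 = true then 120 else 0)) ∣ 6156 →
    (b1 = false ∧ b2 = false ∧ b3 = false ∧ b4 = false ∧ b5 = false ∧ b6 = false ∧ b7 = false) ∨
    (b1 = true ∧ b2 = true ∧ b3 = true ∧ b4 = true ∧ b5 = true ∧ b6 = true ∧ b7 = true) := by
  intro b1 b2 b3 b4 b5 b6 b7
  cases b1 <;> cases b2 <;> cases b3 <;> cases b4 <;> cases b5 <;> cases b6 <;> cases b7 <;> decide

/-! ### Simplicity -/

/-- A normal subgroup containing a Sylow `p`-subgroup contains every element of order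
dividing `p`. -/
theorem mem_of_pow_prime {G : Type*} [Group G] [Finite G] {p : ℕ} [Fact p.Prime]
    (N : Subgroup G) (hN : N.Normal) (Q : Sylow p G) (hQ : (Q : Subgroup G) ≤ N) (x : G)
    (hx : x ^ p = 1) : x ∈ N := by
  have hpg : IsPGroup p (Subgroup.zpowers x) := by
    rintro ⟨g, hg⟩
    obtain ⟨k, rfl⟩ := Subgroup.mem_zpowers_iff.mp hg
    refine ⟨1, Subtype.ext ?_⟩
    show (x ^ k) ^ p ^ 1 = 1
    rw [pow_one, ← zpow_natCast, ← zpow_mul, mul_comm, zpow_mul, zpow_natCast, hx, one_zpow]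
  obtain ⟨Q', hQ'⟩ := hpg.exists_le_sylow
  obtain ⟨g, hg⟩ := MulAction.exists_smul_eq G Q Q'
  have hz : x ∈ ((g • Q : Sylow p G) : Subgroup G) := by
    rw [hg]
    exact hQ' (Subgroup.mem_zpowers x)
  rw [Sylow.smul_def, Sylow.pointwise_smul_def, Subgroup.mem_smul_pointwise_iff_exists] at hz
  obtain ⟨s, hs, rfl⟩ := hz
  exact hN.conj_mem s (hQ hs) g

theorem fact19 : Fact (Nat.Prime 19) := ⟨by norm_num⟩

theorem g0_pow : gperm 0 ^ 19 = 1 := gperm_pow_of_ordChk 0 (by norm_num) 19 ord0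

theorem g2_pow : gperm 2 ^ 19 = 1 := gperm_pow_of_ordChk 2 (by norm_num) 19 ord2

theorem g0_mem : gperm 0 ∈ grp [0, 2] := gperm_mem_grp (by simp)

theorem g2_mem : gperm 2 ∈ grp [0, 2] := gperm_mem_grp (by simp)

theorem cls_zero : clsF (0 : Fin 6156).val = 0 := by
  have h := rep0
  rw [band_iff] at h
  exact Nat.eq_of_beq_eq_true h.2

theorem rep_zero : g13 repP 0 = 0 := by
  have h := rep0
  rw [band_iff] at h
  exact Nat.eq_of_beq_eq_true h.1

/-- The number of points whose class satisfies `d`. -/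
theorem card_classes (d : ℕ → Prop) [DecidablePred d] :
    (∑ x ∈ Finset.range 6156, if d (clsF x) then 1 else 0) =
      (if d 0 then 1 else 0) + (if d 1 then 1360 else 0) + (if d 2 then 2040 else 0) +
      (if d 3 then 1360 else 0) + (if d 4 then 85 else 0) + (if d 5 then 680 else 0) +
      (if d 6 then 510 else 0) + (if d 7 then 120 else 0) := by
  have h1 : ∀ x, (if d (clsF x) then 1 else 0) =
      ∑ i ∈ Finset.range 8, if clsF x = i then (if d i then 1 else 0) else 0 := by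
    intro x
    rw [Finset.sum_ite_eq, if_pos (Finset.mem_range.mpr (clsF_lt x))]
  have h2 : ∀ i, (∑ x ∈ Finset.range 6156, if clsF x = i then (if d i then 1 else 0) else 0) =
      if d i then cntN clsF 6156 i else 0 := by
    intro i
    by_cases hd : d i
    · simp only [if_pos hd, cntN_eq]
    · simp only [if_neg hd, ite_self, Finset.sum_const_zero]
  rw [Finset.sum_congr rfl (fun x _ => h1 x), Finset.sum_comm, Finset.sum_congr rfl (fun i _ => h2 i)]
  obtain ⟨e0, e1, e2, e3, e4, e5, e6, e7⟩ := cnt_vals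
  simp only [Finset.sum_range_succ, Finset.sum_range_zero, zero_add, e0, e1, e2, e3, e4, e5, e6, e7]

theorem sum_fin_range (p : ℕ → Prop) [DecidablePred p] :
    (∑ w : Fin 6156, if p w.val then 1 else 0) = ∑ x ∈ Finset.range 6156, if p x then 1 else 0 :=
  Fin.sum_univ_eq_sum_range (fun x => if p x then 1 else 0) 6156

theorem simple_G : IsSimpleGroup ↥(grp [0, 2]) := by
  have hcard := card_G
  have : Nontrivial ↥(grp [0, 2]) :=
    Finite.one_lt_card_iff_nontrivial.mp (by rw [hcard]; norm_num)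
  have := fact19
  refine ⟨fun N hN => ?_⟩
  by_cases hbot : N = ⊥
  · exact Or.inl hbot
  right
  -- membership in the orbit
  have hmemO : ∀ y : Fin 6156, y ∈ MulAction.orbit N (0 : Fin 6156) ↔
      ∃ n : Equiv.Perm (Fin 6156), ∃ hn : n ∈ grp [0, 2],
        (⟨n, hn⟩ : ↥(grp [0, 2])) ∈ N ∧ n 0 = y := by
    intro y
    constructor
    · rintro ⟨⟨⟨n, hn⟩, hnN⟩, rfl⟩
      exact ⟨n, hn, hnN, rfl⟩
    · rintro ⟨n, hn, hnN, rfl⟩
      exact ⟨⟨⟨n, hn⟩, hnN⟩, rfl⟩
  have h0O : (0 : Fin 6156) ∈ MulAction.orbit N (0 : Fin 6156) := MulAction.mem_orbit_self 0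
  -- invariance under the stabiliser of 0
  have hinv : ∀ k ∈ grp [0, 2], k 0 = 0 → ∀ y ∈ MulAction.orbit N (0 : Fin 6156),
      k y ∈ MulAction.orbit N (0 : Fin 6156) := by
    intro k hk hk0 y hy
    obtain ⟨n, hn, hnN, rfl⟩ := (hmemO y).mp hy
    refine (hmemO _).mpr ⟨k * n * k⁻¹,
      (grp [0, 2]).mul_mem ((grp [0, 2]).mul_mem hk hn) ((grp [0, 2]).inv_mem hk), ?_, ?_⟩
    · exact hN.conj_mem ⟨n, hn⟩ hnN ⟨k, hk⟩
    · have h1 : k⁻¹ 0 = 0 := Equiv.Perm.inv_eq_iff_eq.mpr hk0.symm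
      rw [Equiv.Perm.mul_apply, Equiv.Perm.mul_apply, h1]
  -- the orbit is a union of classes
  have hcls : ∀ y w : Fin 6156, y ∈ MulAction.orbit N (0 : Fin 6156) →
      clsF w.val = clsF y.val → w ∈ MulAction.orbit N (0 : Fin 6156) := by
    intro y w hy hc
    obtain ⟨k1, hk1, hk1'⟩ := cls_word y
    obtain ⟨k2, hk2, hk2'⟩ := cls_word w
    have e1 := hk1' ⟨g13 repP (clsF y.val), rep_lt _ (clsF_lt _)⟩ rfl
    have e2 := hk2' ⟨g13 repP (clsF y.val), rep_lt _ (clsF_lt _)⟩ (by rw [hc])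
    have h1 := hinv (k2 * k1⁻¹)
      ((grp [0, 2]).mul_mem (K_le hk2) ((grp [0, 2]).inv_mem (K_le hk1)))
      (by rw [Equiv.Perm.mul_apply, Equiv.Perm.inv_eq_iff_eq.mpr (K_fix0 k1 hk1).symm,
        K_fix0 k2 hk2]) y hy
    rw [Equiv.Perm.mul_apply, Equiv.Perm.inv_eq_iff_eq.mpr e1.symm, e2] at h1
    exact h1
  have hblock : MulAction.IsBlock ↥(grp [0, 2]) (MulAction.orbit N (0 : Fin 6156)) :=
    MulAction.IsBlock.orbit_of_normal 0
  have hdvd : (MulAction.orbit N (0 : Fin 6156)).ncard ∣ 6156 := by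
    have h1 := MulAction.IsBlock.ncard_dvd_card hblock ⟨0, h0O⟩
    rw [Nat.card_eq_fintype_card, Fintype.card_fin] at h1
    exact h1
  classical
  -- the classes meeting the orbit
  have hOd : ∀ w : Fin 6156, w ∈ MulAction.orbit N (0 : Fin 6156) ↔
      ∃ y ∈ MulAction.orbit N (0 : Fin 6156), clsF y.val = clsF w.val :=
    fun w => ⟨fun hw => ⟨w, hw, rfl⟩, fun ⟨y, hy, hc⟩ => hcls y w hy hc.symm⟩
  have hncard : (MulAction.orbit N (0 : Fin 6156)).ncard =
      ∑ x ∈ Finset.range 6156,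
        if (∃ y ∈ MulAction.orbit N (0 : Fin 6156), clsF y.val = clsF x) then 1 else 0 := by
    have h1 : MulAction.orbit N (0 : Fin 6156) = ↑((Finset.univ : Finset (Fin 6156)).filter
        (fun w => ∃ y ∈ MulAction.orbit N (0 : Fin 6156), clsF y.val = clsF w.val)) := by
      ext w
      rw [Finset.mem_coe, Finset.mem_filter]
      exact ⟨fun hw => ⟨Finset.mem_univ _, (hOd w).mp hw⟩, fun hw => (hOd w).mpr hw.2⟩
    exact (congrArg Set.ncard h1).trans ((Set.ncard_coe_finset _).trans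
      ((Finset.card_filter _ _).trans
        (sum_fin_range (fun x => ∃ y ∈ MulAction.orbit N (0 : Fin 6156), clsF y.val = clsF x))))
  rw [hncard, card_classes (fun i => ∃ y ∈ MulAction.orbit N (0 : Fin 6156), clsF y.val = i)]
    at hdvd
  have hd0 : ∃ y ∈ MulAction.orbit N (0 : Fin 6156), clsF y.val = 0 := ⟨0, h0O, cls_zero⟩
  rw [if_pos hd0] at hdvd
  have hkey := arith_key
    (decide (∃ y ∈ MulAction.orbit N (0 : Fin 6156), clsF y.val = 1))
    (decide (∃ y ∈ MulAction.orbit N (0 : Fin 6156), clsF y.val = 2))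
    (decide (∃ y ∈ MulAction.orbit N (0 : Fin 6156), clsF y.val = 3))
    (decide (∃ y ∈ MulAction.orbit N (0 : Fin 6156), clsF y.val = 4))
    (decide (∃ y ∈ MulAction.orbit N (0 : Fin 6156), clsF y.val = 5))
    (decide (∃ y ∈ MulAction.orbit N (0 : Fin 6156), clsF y.val = 6))
    (decide (∃ y ∈ MulAction.orbit N (0 : Fin 6156), clsF y.val = 7))
  simp only [decide_eq_true_eq, decide_eq_false_iff_not] at hkey
  rcases hkey hdvd with ⟨n1, n2, n3, n4, n5, n6, n7⟩ | ⟨p1, p2, p3, p4, p5, p6, p7⟩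
  · -- the orbit is a point: contradiction
    exfalso
    apply hbot
    have hfix : ∀ n : Equiv.Perm (Fin 6156), ∀ hn : n ∈ grp [0, 2],
        (⟨n, hn⟩ : ↥(grp [0, 2])) ∈ N → n 0 = 0 := by
      intro n hn hnN
      have hy : n 0 ∈ MulAction.orbit N (0 : Fin 6156) := (hmemO _).mpr ⟨n, hn, hnN, rfl⟩
      have hc : clsF (n 0).val = 0 := by
        have hlt := clsF_lt (n 0).val
        by_contra hne
        have h8 : clsF (n 0).val = 1 ∨ clsF (n 0).val = 2 ∨ clsF (n 0).val = 3 ∨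
            clsF (n 0).val = 4 ∨ clsF (n 0).val = 5 ∨ clsF (n 0).val = 6 ∨
            clsF (n 0).val = 7 := by omega
        rcases h8 with h | h | h | h | h | h | h
        · exact n1 ⟨_, hy, h⟩
        · exact n2 ⟨_, hy, h⟩
        · exact n3 ⟨_, hy, h⟩
        · exact n4 ⟨_, hy, h⟩
        · exact n5 ⟨_, hy, h⟩
        · exact n6 ⟨_, hy, h⟩
        · exact n7 ⟨_, hy, h⟩
      obtain ⟨k, hk, hk'⟩ := cls_word (n 0)
      have e := hk' 0 (by rw [hc, rep_zero]; rfl)
      rw [K_fix0 k hk] at e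
      exact e.symm
    rw [Subgroup.eq_bot_iff_forall]
    rintro ⟨n, hn⟩ hnN
    apply Subtype.ext
    apply Equiv.ext
    intro i
    obtain ⟨g, hg, rfl⟩ := G_trans i
    have h1 : (⟨g⁻¹ * n * g, (grp [0, 2]).mul_mem ((grp [0, 2]).mul_mem
        ((grp [0, 2]).inv_mem hg) hn) hg⟩ : ↥(grp [0, 2])) ∈ N := by
      have h2 := hN.conj_mem ⟨n, hn⟩ hnN ⟨g, hg⟩⁻¹
      rw [inv_inv] at h2
      exact h2
    have h3 := hfix _ _ h1
    rw [Equiv.Perm.mul_apply, Equiv.Perm.mul_apply, Equiv.Perm.inv_eq_iff_eq] at h3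
    show n (g 0) = g 0
    exact h3
  · -- the orbit is everything
    have huniv : ∀ w : Fin 6156, w ∈ MulAction.orbit N (0 : Fin 6156) := by
      intro w
      rw [hOd w]
      have hlt := clsF_lt w.val
      have h8 : clsF w.val = 0 ∨ clsF w.val = 1 ∨ clsF w.val = 2 ∨ clsF w.val = 3 ∨
          clsF w.val = 4 ∨ clsF w.val = 5 ∨ clsF w.val = 6 ∨ clsF w.val = 7 := by omega
      rcases h8 with h | h | h | h | h | h | h | h <;> rw [h]
      · exact hd0
      · exact p1
      · exact p2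
      · exact p3
      · exact p4
      · exact p5
      · exact p6
      · exact p7
    have hcardN : Nat.card N = 6156 * Nat.card (MulAction.stabilizer N (0 : Fin 6156)) := by
      have h1 := Subgroup.card_mul_index (MulAction.stabilizer N (0 : Fin 6156))
      rw [MulAction.index_stabilizer, Set.eq_univ_of_forall huniv, Set.ncard_univ,
        Nat.card_fin] at h1
      rw [← h1, mul_comm]
    have hNpos : 0 < Nat.card N := Nat.card_pos
    have h19 : 19 ^ 1 ∣ Nat.card N := by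
      rw [hcardN]
      exact Dvd.dvd.mul_right (by norm_num) _
    have ha : 1 ≤ (Nat.card N).factorization 19 :=
      (Nat.Prime.pow_dvd_iff_le_factorization (by norm_num) hNpos.ne').mp h19
    have hb : (Nat.card ↥(grp [0, 2])).factorization 19 ≤ 1 := by
      by_contra hc
      have h1 : 19 ^ 2 ∣ Nat.card ↥(grp [0, 2]) :=
        (Nat.Prime.pow_dvd_iff_le_factorization (by norm_num) (by rw [hcard]; norm_num)).mpr
          (by omega)
      rw [hcard] at h1
      omega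
    have hab : (Nat.card N).factorization 19 ≤ (Nat.card ↥(grp [0, 2])).factorization 19 := by
      have h1 : Nat.card N ∣ Nat.card ↥(grp [0, 2]) := Subgroup.card_subgroup_dvd_card N
      exact (Nat.factorization_le_iff_dvd hNpos.ne' (by rw [hcard]; norm_num)).mpr h1 19
    -- a Sylow 19-subgroup inside N
    obtain ⟨P⟩ : Nonempty (Sylow 19 ↥N) := inferInstance
    have hPcard : Nat.card ((P : Subgroup ↥N).map N.subtype) =
        19 ^ (Nat.card ↥(grp [0, 2])).factorization 19 := by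
      rw [Nat.card_congr ((P : Subgroup ↥N).equivMapOfInjective N.subtype
        N.subtype_injective).toEquiv.symm, Sylow.card_eq_multiplicity]
      congr 1
      omega
    have hQle : ((Sylow.ofCard ((P : Subgroup ↥N).map N.subtype) hPcard :
        Sylow 19 ↥(grp [0, 2])) : Subgroup ↥(grp [0, 2])) ≤ N := by
      rw [Sylow.coe_ofCard]
      exact Subgroup.map_subtype_le _
    have hgA : (⟨gperm 0, g0_mem⟩ : ↥(grp [0, 2])) ∈ N :=
      mem_of_pow_prime N hN _ hQle _ (Subtype.ext g0_pow)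
    have hgB : (⟨gperm 2, g2_mem⟩ : ↥(grp [0, 2])) ∈ N :=
      mem_of_pow_prime N hN _ hQle _ (Subtype.ext g2_pow)
    have hle : Subgroup.closure {gperm 0, gperm 2} ≤ N.map (grp [0, 2]).subtype := by
      rw [Subgroup.closure_le]
      rintro σ (rfl | rfl)
      · exact ⟨⟨gperm 0, g0_mem⟩, hgA, rfl⟩
      · exact ⟨⟨gperm 2, g2_mem⟩, hgB, rfl⟩
    rw [eq_top_iff]
    rintro ⟨m, hm⟩ -
    have hm' : m ∈ Subgroup.closure {gperm 0, gperm 2} := by
      rw [← grp_pair]
      exact hm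
    obtain ⟨n, hn, hnm⟩ := hle hm'
    have : n = ⟨m, hm⟩ := Subtype.ext hnm
    rw [← this]
    exact hn

theorem stab_card : Nat.card (MulAction.stabilizer ↥(grp [0, 2]) (0 : Fin 6156)) = 8160 := by
  have h1 := Subgroup.card_mul_index (MulAction.stabilizer ↥(grp [0, 2]) (0 : Fin 6156))
  have h2 : (MulAction.stabilizer ↥(grp [0, 2]) (0 : Fin 6156)).index = 6156 := by
    rw [MulAction.index_stabilizer, MulAction.orbit_eq_univ, Set.ncard_univ, Nat.card_fin]
  rw [h2, card_G] at h1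
  generalize Nat.card ↥(MulAction.stabilizer ↥(grp [0, 2]) (0 : Fin 6156)) = c at h1 ⊢
  omega

/-- Janko's third group as a transitive group of degree 6156 with point stabiliser of order
8160. -/
theorem exists_J3 : ∃ H : Subgroup (Equiv.Perm (Fin 6156)),
    (IsSimpleGroup H ∧ Nat.card H = 50232960) ∧ MulAction.IsPretransitive H (Fin 6156) ∧
      Nat.card (MulAction.stabilizer H (0 : Fin 6156)) = 8160 :=
  ⟨grp [0, 2], ⟨simple_G, card_G⟩, pretrans_G, stab_card⟩

end Cfsg.Agent.Lib.Helper9.J3
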