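import Mathlib
import Cfsg.Prelude.Def_Sporadic_a

set_option autoImplicit false

namespace Cfsg.Agent.Lib.Helper9.Plane

open Cfsg
open scoped Pointwise LinearAlgebra.Projectivization

variable (F : Type) [Field F] [Fintype F]

noncomputable instance instFintypeProj : Fintype (ℙ F (Fin 3 → F)) := Fintype.ofFinite _

noncomputable instance instDecEqProj : DecidableEq (ℙ F (Fin 3 → F)) := Classical.decEq _

open Classical in
/-- The points of the projective plane on a subspace. -/
noncomputable def lineOf (W : Submodule F (Fin 3 → F)) : Finset (ℙ F (Fin 3 → F)) :=
  Finset.univ.filter (fun p => p.submodule ≤ W)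

/-- The lines of the projective plane over `F`. -/
def planeLines : Set (Finset (ℙ F (Fin 3 → F))) :=
  {b | ∃ W : Submodule F (Fin 3 → F), Module.finrank F W = 2 ∧ b = lineOf F W}

variable {F}

theorem mem_lineOf {W : Submodule F (Fin 3 → F)} {p : ℙ F (Fin 3 → F)} :
    p ∈ lineOf F W ↔ p.submodule ≤ W := by
  simp [lineOf]

theorem card_plane (hF : Fintype.card F = 4) : Fintype.card (ℙ F (Fin 3 → F)) = 21 := by
  rw [← Nat.card_eq_fintype_card, Projectivization.card_of_finrank F (Fin 3 → F) (n := 3) (by simp),
    Nat.card_eq_fintype_card, hF]
  decide

theorem card_lineOf (hF : Fintype.card F = 4) {W : Submodule F (Fin 3 → F)}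
    (hW : Module.finrank F W = 2) : (lineOf F W).card = 5 := by
  classical
  let _ : Fintype (ℙ F W) := Fintype.ofFinite _
  have hinj : Function.Injective W.subtype := Subtype.val_injective
  have h1 : lineOf F W = Finset.image (Projectivization.map W.subtype hinj) Finset.univ := by
    ext p
    rw [mem_lineOf, Finset.mem_image]
    constructor
    · intro hp
      induction p using Projectivization.ind with
      | h v hv =>
        rw [Projectivization.submodule_mk] at hp
        have hvW : v ∈ W := hp (Submodule.mem_span_singleton_self v)
        refine ⟨Projectivization.mk F (⟨v, hvW⟩ : W) (fun h => hv (congrArg Subtype.val h)),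
          Finset.mem_univ _, ?_⟩
        rw [Projectivization.map_mk]
        rfl
    · rintro ⟨q, -, rfl⟩
      induction q using Projectivization.ind with
      | h w hw =>
        rw [Projectivization.map_mk, Projectivization.submodule_mk,
          Submodule.span_singleton_le_iff_mem]
        exact w.2
  rw [h1, Finset.card_image_of_injective _
    (Projectivization.map_injective W.subtype hinj), Finset.card_univ,
    ← Nat.card_eq_fintype_card, Projectivization.card_of_finrank_two F W hW,
    Nat.card_eq_fintype_card, hF]


omit [Fintype F] in
theorem finrank_sup_of_ne {p q : ℙ F (Fin 3 → F)} (hpq : p ≠ q) :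
    Module.finrank F ↥(p.submodule ⊔ q.submodule) = 2 := by
  have h1 := Submodule.finrank_sup_add_finrank_inf_eq p.submodule q.submodule
  rw [Projectivization.finrank_submodule, Projectivization.finrank_submodule] at h1
  have h2 : p.submodule ⊓ q.submodule = ⊥ := by
    by_contra hne
    have h3 : 0 < Module.finrank F ↥(p.submodule ⊓ q.submodule) := by
      rw [Module.finrank_pos_iff]
      exact (Submodule.nontrivial_iff_ne_bot).mpr hne
    have h4 : Module.finrank F ↥(p.submodule ⊓ q.submodule) ≤ 1 := by
      rw [← Projectivization.finrank_submodule p]
      exact Submodule.finrank_mono inf_le_left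
    have h5 : p.submodule ⊓ q.submodule = p.submodule :=
      Submodule.eq_of_le_of_finrank_eq inf_le_left
        (by rw [Projectivization.finrank_submodule]; omega)
    have h6 : p.submodule ⊓ q.submodule = q.submodule :=
      Submodule.eq_of_le_of_finrank_eq inf_le_right
        (by rw [Projectivization.finrank_submodule]; omega)
    exact hpq (Projectivization.submodule_injective (h5.symm.trans h6))
  rw [h2, finrank_bot] at h1
  omega

/-- The lines of the projective plane over the field with four elements form a Steiner system
`S(2,5,21)`. -/
theorem planeLines_steiner (hF : Fintype.card F = 4) : IsSteinerSystem 2 5 (planeLines F) := by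
  refine ⟨?_, ?_⟩
  · rintro b ⟨W, hW, rfl⟩
    exact card_lineOf hF hW
  · intro s hs
    obtain ⟨p, q, hpq, rfl⟩ := Finset.card_eq_two.mp hs
    refine ⟨lineOf F (p.submodule ⊔ q.submodule), ⟨⟨_, finrank_sup_of_ne hpq, rfl⟩, ?_⟩, ?_⟩
    · intro x hx
      rw [Finset.mem_insert, Finset.mem_singleton] at hx
      rw [mem_lineOf]
      rcases hx with rfl | rfl
      · exact le_sup_left
      · exact le_sup_right
    · rintro _ ⟨⟨W, hW, rfl⟩, hsub⟩
      have hp : p.submodule ≤ W := mem_lineOf.mp (hsub (by simp))
      have hq : q.submodule ≤ W := mem_lineOf.mp (hsub (by simp))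
      have hfd : Module.Finite F ↥W := Module.finite_of_finrank_pos (by omega)
      have : p.submodule ⊔ q.submodule = W :=
        Submodule.eq_of_le_of_finrank_eq (sup_le hp hq) (by rw [finrank_sup_of_ne hpq, hW])
      rw [this]

/-- The action of `PSL(3, F)` on the plane preserves the lines. -/
theorem psl_mem_aut (x : Matrix.ProjectiveSpecialLinearGroup (Fin 3) F) :
    Projectivization.PSLAction.toPermHom x ∈ setSystemAut (planeLines F) := by
  induction x using QuotientGroup.induction_on with
  | H g =>
    show _ ∈ MulAction.stabilizer _ (planeLines F)
    rw [MulAction.mem_stabilizer_set_iff_smul_set_subset (Set.toFinite _)]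
    rintro _ ⟨_, ⟨W, hW, rfl⟩, rfl⟩
    let ℓ : (Fin 3 → F) ≃ₗ[F] (Fin 3 → F) := DistribMulAction.toLinearEquiv F (Fin 3 → F) g
    refine ⟨W.map ℓ.toLinearMap, ?_, ?_⟩
    · rw [← hW]
      exact LinearEquiv.finrank_map_eq ℓ W
    · ext p
      rw [Finset.mem_smul_finset, mem_lineOf]
      constructor
      · rintro ⟨q, hq, rfl⟩
        rw [mem_lineOf] at hq
        induction q using Projectivization.ind with
        | h v hv =>
          rw [Projectivization.submodule_mk, Submodule.span_singleton_le_iff_mem] at hq
          show (g • Projectivization.mk F v hv).submodule ≤ _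
          rw [Projectivization.smul_mk, Projectivization.submodule_mk,
            Submodule.span_singleton_le_iff_mem]
          exact Submodule.mem_map_of_mem (f := ℓ.toLinearMap) hq
      · intro hp
        induction p using Projectivization.ind with
        | h w hw =>
          rw [Projectivization.submodule_mk, Submodule.span_singleton_le_iff_mem] at hp
          obtain ⟨v, hvW, hvw⟩ := Submodule.mem_map.mp hp
          have hv : v ≠ 0 := by
            rintro rfl
            apply hw
            rw [← hvw, map_zero]
          refine ⟨Projectivization.mk F v hv, ?_, ?_⟩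
          · rw [mem_lineOf, Projectivization.submodule_mk, Submodule.span_singleton_le_iff_mem]
            exact hvW
          · show g • Projectivization.mk F v hv = _
            rw [Projectivization.smul_mk]
            congr 1

/-- The embedding of `PSL(3, F)` into the automorphism group of the plane. -/
noncomputable def pslToAut :
    Matrix.ProjectiveSpecialLinearGroup (Fin 3) F →* setSystemAut (planeLines F) :=
  Projectivization.PSLAction.toPermHom.codRestrict _ psl_mem_aut

theorem pslToAut_injective : Function.Injective (pslToAut (F := F)) := by
  intro x y h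
  apply Matrix.ProjectiveSpecialLinearGroup.toPermHom_injective
  exact congrArg Subtype.val h

end Cfsg.Agent.Lib.Helper9.Plane
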