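import Mathlib
import Cfsg.Prelude.Def_Sporadic_a
import Cfsg.Agent.Lib.Helper9.PlaneF4
import Cfsg.Agent.Lib.Helper9.DerAut
import Cfsg.Agent.Lib.Helper9.AutTransfer
import Cfsg.Agent.Lib.Helper9.M24Trans
import Cfsg.Agent.Lib.Helper6.PSLCard
import Cfsg.Agent.S5626
import Cfsg.Agent.S5627
import Cfsg.Agent.S5628
import Cfsg.Agent.S0249

set_option autoImplicit false

namespace Cfsg.Agent.Lib.Helper9.Plane

open Cfsg
open scoped Pointwise LinearAlgebra.Projectivization

/-- Two groups of order 20160, one of them simple, embedded in a group of order at most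
`6 * 20160`, are isomorphic. -/
theorem iso_of_embed_simple {A M S : Type*} [Group A] [Finite A] [Group M] [Group S]
    [IsSimpleGroup S] (f : M →* A) (hf : Function.Injective f) (g : S →* A)
    (hg : Function.Injective g) (hM : Nat.card M = 20160) (hS : Nat.card S = 20160)
    (hA : Nat.card A ≤ 120960) : Nonempty (M ≃* S) := by
  have hH : Nat.card f.range = 20160 := by
    rw [← hM]; exact (Nat.card_congr (MonoidHom.ofInjective hf).toEquiv).symm
  have hK : Nat.card g.range = 20160 := by
    rw [← hS]; exact (Nat.card_congr (MonoidHom.ofInjective hg).toEquiv).symm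
  have hidx : f.range.index ≤ 6 := by
    have h1 := Subgroup.index_mul_card f.range
    rw [hH] at h1
    by_contra hcon
    have : 7 * 20160 ≤ f.range.index * 20160 := Nat.mul_le_mul_right _ (by omega)
    omega
  have hsimp : IsSimpleGroup g.range := (MonoidHom.ofInjective hg).symm.isSimpleGroup
  have hker := (MulAction.toPermHom g.range (A ⧸ f.range)).normal_ker.eq_bot_or_eq_top
  have hKH : g.range ≤ f.range := by
    rcases hker with h | h
    · exfalso
      have hinj : Function.Injective (MulAction.toPermHom g.range (A ⧸ f.range)) :=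
        (MonoidHom.ker_eq_bot_iff _).mp h
      have h1 := Nat.card_le_card_of_injective _ hinj
      rw [hK, Nat.card_perm] at h1
      have h2 : Nat.card (A ⧸ f.range) = f.range.index := rfl
      rw [h2] at h1
      have h3 : (f.range.index).factorial ≤ (6 : ℕ).factorial := Nat.factorial_le hidx
      have h4 : (6 : ℕ).factorial = 720 := by decide
      omega
    · intro k hk
      have h1 : (⟨k, hk⟩ : g.range) ∈ (MulAction.toPermHom g.range (A ⧸ f.range)).ker := by
        rw [h]; exact Subgroup.mem_top _
      rw [MonoidHom.mem_ker] at h1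
      have h2 := congrArg (fun σ => σ ((1 : A) : A ⧸ f.range)) h1
      simp only [MulAction.toPermHom_apply, MulAction.toPerm_apply, Equiv.Perm.coe_one,
        id_eq] at h2
      have h3 : ((k * 1 : A) : A ⧸ f.range) = ((1 : A) : A ⧸ f.range) := h2
      rw [QuotientGroup.eq] at h3
      simpa using f.range.inv_mem h3
  have hEq : f.range = g.range := by
    symm
    exact Subgroup.eq_of_le_of_card_ge hKH (by rw [hH, hK])
  exact ⟨(MonoidHom.ofInjective hf).trans
    ((MulEquiv.subgroupCongr hEq).trans (MonoidHom.ofInjective hg).symm)⟩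

/-- The automorphism group of a projective plane of order 4 has order at most 120960. -/
theorem card_aut_le {α : Type*} [Fintype α] [DecidableEq α] (hα : Fintype.card α = 21)
    (L : Set (Finset α)) (hL : IsSteinerSystem 2 5 L) : Nat.card (setSystemAut L) ≤ 120960 := by
  obtain ⟨-, h168, -⟩ := Cfsg.Agent.S5627.result hα L hL
  set Hyp : Set (Finset α) := {H : Finset α | (H.card = 6 ∧ ∀ l ∈ L, (l ∩ H).card ≤ 2)} with hHyp
  have hne : Hyp.Nonempty := by
    apply Set.nonempty_of_ncard_ne_zero
    rw [h168]; norm_num
  obtain ⟨H0, hH0⟩ := hne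
  -- the orbit of `H0` consists of hyperovals
  have horb : MulAction.orbit (setSystemAut L) H0 ⊆ Hyp := by
    rintro _ ⟨⟨γ, hγ⟩, rfl⟩
    have hg : γ⁻¹ • L = L := (setSystemAut L).inv_mem hγ
    refine ⟨?_, ?_⟩
    · show (γ • H0).card = 6
      rw [Finset.card_smul_finset]; exact hH0.1
    · intro l hl
      show (l ∩ γ • H0).card ≤ 2
      have h1 : γ⁻¹ • l ∈ L := by
        have h0 : γ⁻¹ • l ∈ γ⁻¹ • L := Set.smul_mem_smul_set hl
        rw [hg] at h0
        exact h0
      have h2 : γ⁻¹ • (l ∩ γ • H0) = γ⁻¹ • l ∩ H0 := by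
        rw [Finset.smul_finset_inter, inv_smul_smul]
      rw [← Finset.card_smul_finset γ⁻¹, h2]
      exact hH0.2 _ h1
  have horb_le : (MulAction.orbit (setSystemAut L) H0).ncard ≤ 168 := by
    rw [← h168]
    exact Set.ncard_le_ncard horb (Set.toFinite _)
  -- the stabiliser of `H0` embeds in the permutations of `H0`
  have hstab : Nat.card (MulAction.stabilizer (setSystemAut L) H0) ≤ 720 := by
    have hmem0 : ∀ γ : Equiv.Perm α, γ • H0 = H0 → ∀ x, γ x ∈ H0 ↔ x ∈ H0 := by
      intro γ hγ x
      constructor
      · intro h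
        have h' : γ • x ∈ γ • H0 := by rw [hγ]; exact h
        exact (Finset.smul_mem_smul_finset_iff _).mp h'
      · intro h
        have h' : γ • x ∈ γ • H0 := Finset.smul_mem_smul_finset h
        rw [hγ] at h'
        exact h'
    have hmem : ∀ g : MulAction.stabilizer (setSystemAut L) H0,
        ∀ x, ((g : setSystemAut L) : Equiv.Perm α) x ∈ H0 ↔ x ∈ H0 :=
      fun g => hmem0 _ g.2
    let r : MulAction.stabilizer (setSystemAut L) H0 → Equiv.Perm {x // x ∈ H0} :=
      fun g => (((g : setSystemAut L) : Equiv.Perm α)).subtypePerm (p := fun x => x ∈ H0)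
        (hmem g)
    have hr : Function.Injective r := by
      intro g g' hgg
      obtain ⟨τ, -, huniq⟩ := Cfsg.Agent.S5628.result hα L hL H0 hH0 (r g)
      have e1 := huniq ((g : setSystemAut L) : Equiv.Perm α)
        ⟨(g : setSystemAut L).2, fun p => rfl⟩
      have e2 := huniq ((g' : setSystemAut L) : Equiv.Perm α)
        ⟨(g' : setSystemAut L).2, fun p => by rw [hgg]; rfl⟩
      exact Subtype.ext (Subtype.ext (e1.trans e2.symm))
    have h1 := Nat.card_le_card_of_injective r hr
    have h6 : Nat.card {x // x ∈ H0} = 6 := by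
      rw [Nat.card_eq_fintype_card, Fintype.card_coe]; exact hH0.1
    rw [Nat.card_perm, h6] at h1
    have h720 : (6 : ℕ).factorial = 720 := by decide
    omega
  have h1 := Subgroup.card_mul_index (MulAction.stabilizer (setSystemAut L) H0)
  rw [MulAction.index_stabilizer] at h1
  rw [← h1]
  calc Nat.card (MulAction.stabilizer (setSystemAut L) H0) *
        (MulAction.orbit (setSystemAut L) H0).ncard ≤ 720 * 168 :=
        Nat.mul_le_mul hstab horb_le
    _ = 120960 := by norm_num

end Cfsg.Agent.Lib.Helper9.Plane
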