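import Mathlib
import Cfsg.Prelude.Def_Sporadic_a
import Cfsg.Agent.Lib.Helper9.M21PSL
import Cfsg.Agent.Lib.Helper9.DerBridge

set_option autoImplicit false

namespace Cfsg.Agent.Lib.Helper9.Plane

open Cfsg Cfsg.Agent.Lib.Helper9
open scoped Pointwise LinearAlgebra.Projectivization

/-- `M24` is 3-transitive, in elementary form. -/
theorem exists_map_three_three {p0 p1 p2 q0 q1 q2 : GolayPt} (h01 : p0 ≠ p1) (h02 : p0 ≠ p2)
    (h12 : p1 ≠ p2) (k01 : q0 ≠ q1) (k02 : q0 ≠ q2) (k12 : q1 ≠ q2) :
    ∃ g ∈ M24, g p0 = q0 ∧ g p1 = q1 ∧ g p2 = q2 := by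
  obtain ⟨g, hg, a0, a1, a2⟩ := exists_map_three h01 h02 h12
  obtain ⟨h, hh, b0, b1, b2⟩ := exists_map_three k01 k02 k12
  refine ⟨h⁻¹ * g, M24.mul_mem (M24.inv_mem hh) hg, ?_, ?_, ?_⟩ <;>
    simp only [Equiv.Perm.mul_apply, Equiv.Perm.inv_eq_iff_eq, a0, a1, a2, b0, b1, b2]

/-- The order of a three-point stabiliser in `M24`. -/
theorem card_stabilizer_three_M24 {p q r : GolayPt} (hpq : p ≠ q) (hpr : p ≠ r) (hqr : q ≠ r) :
    Nat.card ↥(MulAction.stabilizer M24 p ⊓ MulAction.stabilizer M24 q ⊓
      MulAction.stabilizer M24 r) = 20160 := by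
  have h1 := card_eq_orbit_mul_stab' (G := M24)
    (MulAction.stabilizer M24 p ⊓ MulAction.stabilizer M24 q) r
  have horb : MulAction.orbit ↥(MulAction.stabilizer M24 p ⊓ MulAction.stabilizer M24 q) r =
      {p, q}ᶜ := by
    ext r'
    rw [MulAction.mem_orbit_iff, Set.mem_compl_iff, Set.mem_insert_iff, Set.mem_singleton_iff]
    constructor
    · rintro ⟨g, rfl⟩ h
      have hgp : g.1.1 p = p := g.2.1
      have hgq : g.1.1 q = q := g.2.2
      rcases h with h | h
      · have h' : g.1.1 r = p := h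
        exact hpr (g.1.1.injective (h'.trans hgp.symm)).symm
      · have h' : g.1.1 r = q := h
        exact hqr (g.1.1.injective (h'.trans hgq.symm)).symm
    · intro h
      have hp : r' ≠ p := fun h' => h (Or.inl h')
      have hq : r' ≠ q := fun h' => h (Or.inr h')
      obtain ⟨g, hg, e0, e1, e2⟩ :=
        exists_map_three_three hpq hpr hqr hpq (Ne.symm hp) (Ne.symm hq)
      exact ⟨⟨⟨g, hg⟩, e0, e1⟩, e2⟩
  have hnc : ({p, q} : Set GolayPt).ncard = 2 := Set.ncard_pair hpq
  rw [horb, Set.ncard_compl, hnc, card_golayPt, card_stabilizer_two_M24 hpq] at h1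
  omega

/-- Restriction of a subgroup of `M24` fixing `P` pointwise to the derived design at `P`. -/
noncomputable def restrictHom (P : Finset GolayPt) (H : Subgroup M24)
    (hH : ∀ g ∈ H, ∀ x ∈ P, (g : Equiv.Perm GolayPt) x = x) : H →* setSystemAut (der P) :=
  MonoidHom.mk'
    (fun g => ⟨Classical.choose (subtypePerm_mem (P := P) g.1.2 (hH g.1 g.2)),
      (Classical.choose_spec (subtypePerm_mem (P := P) g.1.2 (hH g.1 g.2))).1⟩)
    (by
      intro a b
      apply Subtype.ext
      apply Equiv.Perm.ofSubtype_injective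
      have ha := (Classical.choose_spec (subtypePerm_mem (P := P) a.1.2 (hH a.1 a.2))).2
      have hb := (Classical.choose_spec (subtypePerm_mem (P := P) b.1.2 (hH b.1 b.2))).2
      have hab := (Classical.choose_spec
        (subtypePerm_mem (P := P) (a * b).1.2 (hH (a * b).1 (a * b).2))).2
      refine hab.trans ?_
      symm
      refine (map_mul Equiv.Perm.ofSubtype _ _).trans ?_
      exact (congrArg₂ (· * ·) ha hb))

theorem restrictHom_injective (P : Finset GolayPt) (H : Subgroup M24)
    (hH : ∀ g ∈ H, ∀ x ∈ P, (g : Equiv.Perm GolayPt) x = x) :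
    Function.Injective (restrictHom P H hH) := by
  intro a b hab
  have ha := (Classical.choose_spec (subtypePerm_mem (P := P) a.1.2 (hH a.1 a.2))).2
  have hb := (Classical.choose_spec (subtypePerm_mem (P := P) b.1.2 (hH b.1 b.2))).2
  have h1 : Classical.choose (subtypePerm_mem (P := P) a.1.2 (hH a.1 a.2)) =
      Classical.choose (subtypePerm_mem (P := P) b.1.2 (hH b.1 b.2)) :=
    congrArg Subtype.val hab
  rw [h1, hb] at ha
  exact Subtype.ext (Subtype.ext ha.symm)

/-- A three-point stabiliser in `M24` is isomorphic to `PSL(3, 4)`. -/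
theorem m21_iso_psl (p q r : GolayPt) (hpq : p ≠ q) (hpr : p ≠ r) (hqr : q ≠ r) (F : Type)
    [Field F] [Fintype F] (hF : Fintype.card F = 4) :
    Nonempty (↥(MulAction.stabilizer M24 p ⊓ MulAction.stabilizer M24 q ⊓
      MulAction.stabilizer M24 r) ≃* Matrix.ProjectiveSpecialLinearGroup (Fin 3) F) := by
  have hPc : ({p, q, r} : Finset GolayPt).card = 3 := Finset.card_eq_three.mpr
    ⟨p, q, r, hpq, hpr, hqr, rfl⟩
  have hder : IsSteinerSystem 2 5 (der {p, q, r}) :=
    der_steiner _ (by rw [hPc]) (by rw [hPc])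
  have h21 : Fintype.card {a : GolayPt // a ∉ ({p, q, r} : Finset GolayPt)} = 21 := by
    rw [Fintype.card_subtype_compl, Fintype.card_coe, hPc]
    have : Fintype.card GolayPt = 24 := by
      rw [← Nat.card_eq_fintype_card]; exact card_golayPt
    rw [this]
  obtain ⟨e, he⟩ := Cfsg.Agent.S5626.result h21 (card_plane hF) hder (planeLines_steiner hF)
  have hH : ∀ g ∈ (MulAction.stabilizer M24 p ⊓ MulAction.stabilizer M24 q ⊓
      MulAction.stabilizer M24 r), ∀ x ∈ ({p, q, r} : Finset GolayPt),
      (g : Equiv.Perm GolayPt) x = x := by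
    intro g hg x hx
    rw [Finset.mem_insert, Finset.mem_insert, Finset.mem_singleton] at hx
    rcases hx with rfl | rfl | rfl
    · exact hg.1.1
    · exact hg.1.2
    · exact hg.2
  have hS : Nat.card (Matrix.ProjectiveSpecialLinearGroup (Fin 3) F) = 20160 := by
    have h := Cfsg.Agent.Lib.Helper6.card_psl hF 3 (by norm_num)
    simp only [Fin.prod_univ_three] at h
    norm_num at h
    omega
  have hsimple := Cfsg.Agent.S0249.result (F := F) 3 (by norm_num)
  exact iso_of_embed_simple
    ((setSystemAutEquiv e he).toMonoidHom.comp (restrictHom _ _ hH))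
    ((setSystemAutEquiv e he).injective.comp (restrictHom_injective _ _ hH))
    pslToAut pslToAut_injective (card_stabilizer_three_M24 hpq hpr hqr) hS
    (card_aut_le (card_plane hF) _ (planeLines_steiner hF))

end Cfsg.Agent.Lib.Helper9.Plane
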