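import Mathlib
import Cfsg.Prelude.Def_Sporadic_a
import Cfsg.Agent.Lib.Helper9.M23Simple

set_option autoImplicit false

namespace Cfsg.Agent.Lib.Helper9

open Cfsg
open scoped Pointwise

/-! ### `M24` is simple -/

/-- A nontrivial normal subgroup of `M24` is transitive on the `24` points. -/
theorem m24_orbit_normal (N : Subgroup ↥M24) (hNn : N.Normal) (hbot : N ≠ ⊥) (b : GolayPt) :
    MulAction.orbit N b = Set.univ := by
  apply orbit_eq_of_normal Set.univ _ _ _ N hNn hbot b (Set.mem_univ _)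
  · intro g x hx
    exact absurd (Set.mem_univ x) hx
  · intro x _ y _ hxy y' _ hxy'
    obtain ⟨g, hg, g0, g1⟩ := exists_map_two_two hxy hxy'
    exact ⟨⟨g, hg⟩, g0, g1⟩
  · intro x _ x' _
    obtain ⟨g, hg, e⟩ := exists_map_one x
    obtain ⟨h, hh, e'⟩ := exists_map_one x'
    refine ⟨⟨h⁻¹ * g, M24.mul_mem (M24.inv_mem hh) hg⟩, ?_⟩
    show (h⁻¹ * g) x = x'
    rw [Equiv.Perm.mul_apply, e, Equiv.Perm.inv_eq_iff_eq, e']

/-- `M24` is simple. -/
theorem isSimpleGroup_M24 : IsSimpleGroup ↥M24 := by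
  have hnt : Nontrivial ↥M24 := by
    rw [← Finite.one_lt_card_iff_nontrivial, card_M24]
    norm_num
  refine ⟨fun N hNn => ?_⟩
  by_cases hbot : N = ⊥
  · exact Or.inl hbot
  right
  have hc := card_eq_orbit_mul_stab' N (pt 23)
  rw [m24_orbit_normal N hNn hbot, Set.ncard_univ, card_golayPt] at hc
  by_cases h0 : N ⊓ MulAction.stabilizer ↥M24 (pt 23) = ⊥
  · exfalso
    rw [h0, Subgroup.card_bot] at hc
    have hfix : ∀ n ∈ N, n.1 (pt 23) = pt 23 → n = 1 := by
      intro n hn hfix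
      have : n ∈ N ⊓ MulAction.stabilizer ↥M24 (pt 23) := ⟨hn, hfix⟩
      rw [h0] at this
      exact Subgroup.mem_bot.mp this
    have hconj : ∀ n ∈ N, ∀ n' ∈ N, n ≠ 1 → n' ≠ 1 → orderOf n' = orderOf n := by
      intro n hn n' hn' h1 h1'
      have a1 : n.1 (pt 23) ≠ pt 23 := fun h => h1 (hfix n hn h)
      have a2 : n'.1 (pt 23) ≠ pt 23 := fun h => h1' (hfix n' hn' h)
      obtain ⟨g, hg, g0, g1⟩ := exists_map_two_two (Ne.symm a1) (Ne.symm a2)
      have hm : (⟨g, hg⟩ : ↥M24) * n * (⟨g, hg⟩ : ↥M24)⁻¹ ∈ N := hNn.conj_mem n hn _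
      have hm' : ((⟨g, hg⟩ : ↥M24) * n * (⟨g, hg⟩ : ↥M24)⁻¹)⁻¹ * n' = 1 := by
        apply hfix _ (N.mul_mem (N.inv_mem hm) hn')
        show ((g * n.1 * g⁻¹)⁻¹ * n'.1) (pt 23) = pt 23
        have : g⁻¹ (pt 23) = pt 23 := by rw [Equiv.Perm.inv_eq_iff_eq, g0]
        rw [Equiv.Perm.mul_apply, Equiv.Perm.inv_eq_iff_eq, Equiv.Perm.mul_apply,
          Equiv.Perm.mul_apply, this, g1]
      have e : n' = MulAut.conj (⟨g, hg⟩ : ↥M24) n := by
        rw [inv_mul_eq_one] at hm'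
        rw [MulAut.conj_apply]
        exact hm'.symm
      rw [e]
      exact (MulAut.conj (⟨g, hg⟩ : ↥M24)).orderOf_eq n
    have : Fact (Nat.Prime 2) := ⟨by norm_num⟩
    have : Fact (Nat.Prime 3) := ⟨by norm_num⟩
    obtain ⟨x, hx⟩ := exists_prime_orderOf_dvd_card' (G := ↥N) 2 (by rw [hc]; norm_num)
    obtain ⟨y, hy⟩ := exists_prime_orderOf_dvd_card' (G := ↥N) 3 (by rw [hc]; norm_num)
    have hx1 : (x : ↥M24) ≠ 1 := by
      intro h
      rw [← Subgroup.orderOf_coe, h, orderOf_one] at hx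
      omega
    have hy1 : (y : ↥M24) ≠ 1 := by
      intro h
      rw [← Subgroup.orderOf_coe, h, orderOf_one] at hy
      omega
    have := hconj x.1 x.2 y.1 y.2 hx1 hy1
    rw [Subgroup.orderOf_coe, Subgroup.orderOf_coe, hx, hy] at this
    omega
  · have hs := isSimpleGroup_stabilizer_M24 (pt 23)
    have hn : (N.subgroupOf (MulAction.stabilizer ↥M24 (pt 23))).Normal :=
      Subgroup.normal_subgroupOf
    rcases hn.eq_bot_or_eq_top with h | h
    · exact absurd (disjoint_iff.mp (Subgroup.subgroupOf_eq_bot.mp h)) h0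
    · have hle : MulAction.stabilizer ↥M24 (pt 23) ≤ N := Subgroup.subgroupOf_eq_top.mp h
      rw [inf_eq_right.mpr hle, card_stabilizer_M24] at hc
      apply Subgroup.eq_top_of_card_eq
      rw [hc, card_M24]

end Cfsg.Agent.Lib.Helper9
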