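import Mathlib
import Cfsg.Agent.Lib.Helper9.RuTab
import Cfsg.Agent.Lib.Helper9.RuRows
import Cfsg.Agent.Lib.Helper9.RuWd

set_option autoImplicit false

namespace Cfsg.Agent.Lib.Helper9.Ru

/-! ### Fast primitives for kernel computations -/

/-- Entry `i` of a packed table with 13 bits per entry. -/
def g13 (T i : ℕ) : ℕ := Nat.land (Nat.shiftRight T (Nat.mul 13 i)) 8191

/-- Entry `i` of a packed table with 7 bits per entry. -/
def g7 (T i : ℕ) : ℕ := Nat.land (Nat.shiftRight T (Nat.mul 7 i)) 127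

/-- Entry `i` of a packed table with 3 bits per entry. -/
def g3 (T i : ℕ) : ℕ := Nat.land (Nat.shiftRight T (Nat.mul 3 i)) 7

/-- Entry `i` of a packed table with 32 bits per entry. -/
def g32 (T i : ℕ) : ℕ := Nat.land (Nat.shiftRight T (Nat.mul 32 i)) 4294967295

/-- Bit `j` of `M`. -/
def tb (M j : ℕ) : Bool := Nat.beq (Nat.land (Nat.shiftRight M j) 1) 1

/-- A bounded universal quantifier, as a loop. -/
def allB (n : ℕ) (f : ℕ → Bool) : Bool := Nat.rec true (fun k ih => Bool.rec false ih (f k)) n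

/-- A loop with an accumulator. -/
def foldN (n : ℕ) (f : ℕ → ℕ → ℕ) (init : ℕ) : ℕ := Nat.rec init (fun k acc => f k acc) n

/-- Conjunction of Booleans. -/
def band (a b : Bool) : Bool := Bool.rec false b a

/-- Evaluation of the argument before the call. -/
def forceN {α : Type} (x : ℕ) (f : ℕ → α) : α := Nat.rec (f 0) (fun m _ => f (Nat.succ m)) x

theorem allB_succ (n : ℕ) (f : ℕ → Bool) :
    allB (n + 1) f = Bool.rec false (allB n f) (f n) := rfl

theorem allB_iff (n : ℕ) (f : ℕ → Bool) : allB n f = true ↔ ∀ k < n, f k = true := by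
  induction n with
  | zero => exact ⟨fun _ k hk => absurd hk (Nat.not_lt_zero k), fun _ => rfl⟩
  | succ n ih =>
    rw [allB_succ]
    constructor
    · intro h k hk
      cases hf : f n with
      | false =>
        rw [hf] at h
        exact absurd h Bool.false_ne_true
      | true =>
        rw [hf] at h
        rcases Nat.lt_succ_iff_lt_or_eq.mp hk with h1 | rfl
        · exact ih.mp h k h1
        · exact hf
    · intro h
      rw [h n (Nat.lt_succ_self n)]
      exact ih.mpr (fun k hk => h k (Nat.lt_succ_of_lt hk))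

theorem band_iff (a b : Bool) : band a b = true ↔ a = true ∧ b = true := by
  cases a <;> cases b <;> decide

theorem forceN_eq {α : Type} (x : ℕ) (f : ℕ → α) : forceN x f = f x := by
  cases x <;> rfl

theorem tb_eq (M j : ℕ) : tb M j = M.testBit j := by
  have h1 : Nat.land (Nat.shiftRight M j) 1 = M / 2 ^ j % 2 := by
    show (M >>> j) &&& 1 = _
    rw [Nat.and_one_is_mod, Nat.shiftRight_eq_div_pow]
  rw [Nat.testBit_eq_decide_div_mod_eq, tb, h1]
  rcases Nat.mod_two_eq_zero_or_one (M / 2 ^ j) with h | h <;> rw [h] <;> rfl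

theorem foldN_succ (n : ℕ) (f : ℕ → ℕ → ℕ) (init : ℕ) :
    foldN (n + 1) f init = f n (foldN n f init) := rfl

theorem testBit_one_shiftLeft (k j : ℕ) : (1 <<< k).testBit j = decide (k = j) := by
  rw [Nat.one_shiftLeft, Nat.testBit_two_pow]

theorem testBit_foldN_or (f : ℕ → ℕ) (n j : ℕ) :
    (foldN n (fun t acc => Nat.lor acc (Nat.shiftLeft 1 (f t))) 0).testBit j = true ↔
      ∃ t < n, f t = j := by
  induction n with
  | zero =>
    constructor
    · intro h
      rw [show foldN 0 (fun t acc => Nat.lor acc (Nat.shiftLeft 1 (f t))) 0 = 0 from rfl,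
        Nat.zero_testBit] at h
      exact absurd h Bool.false_ne_true
    · rintro ⟨t, ht, -⟩
      exact absurd ht (Nat.not_lt_zero t)
  | succ n ih =>
    have h1 : foldN (n + 1) (fun t acc => Nat.lor acc (Nat.shiftLeft 1 (f t))) 0 =
        (foldN n (fun t acc => Nat.lor acc (Nat.shiftLeft 1 (f t))) 0) ||| (1 <<< f n) := rfl
    rw [h1, Nat.testBit_lor, Bool.or_eq_true, ih, testBit_one_shiftLeft, decide_eq_true_eq]
    constructor
    · rintro (⟨t, ht, h⟩ | h)
      · exact ⟨t, Nat.lt_succ_of_lt ht, h⟩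
      · exact ⟨n, Nat.lt_succ_self n, h⟩
    · rintro ⟨t, ht, h⟩
      rcases Nat.lt_succ_iff_lt_or_eq.mp ht with h2 | rfl
      · exact Or.inl ⟨t, h2, h⟩
      · exact Or.inr h

theorem brec_eq (a b : Bool) : (Bool.rec false b a : Bool) = (a && b) := by
  cases a <;> rfl

/-! ### The tables and the permutations of the letters -/

/-- A choice among four values. -/
def sel4 (A B C D r : ℕ) : ℕ :=
  Nat.rec A (fun n _ => Nat.rec B (fun n _ => Nat.rec C (fun _ _ => D) n) n) r

/-- Entry `n` of a list. -/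
def lget (l : List ℕ) (n : ℕ) : ℕ :=
  List.rec (motive := fun _ => ℕ → ℕ) (fun _ => 0) (fun a _ ih n => Nat.rec a (fun m _ => ih m) n) l n

/-- The tables of the letters. -/
def tabL : List ℕ := [t0, t1, t2, t3, t4, t5, t6, t7, t8, t9, t10, t11, t12, t13, t14, t15, t16, t17,
  t18, t19, t20, t21, t22, t23, t24, t25, t26, t27]

/-- The table of a letter. -/
def tabN (c : ℕ) : ℕ := lget tabL c

/-- The letter of the inverse generator. -/
def ci (c : ℕ) : ℕ := if c % 2 = 0 then c + 1 else c - 1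

theorem ci_ci (c : ℕ) : ci (ci c) = c := by
  unfold ci
  split_ifs <;> omega

/-- The action of a letter on a point. -/
def stepN (c x : ℕ) : ℕ := if c < 28 then g13 (tabN c) x else x

/-- The two tables are mutually inverse permutations of the points. -/
def permChk (T T' : ℕ) : Bool := allB 4060 (fun x =>
  band (Nat.ble (g13 T x) 4059) (band (Nat.ble (g13 T' x) 4059)
    (band (Nat.beq (g13 T' (g13 T x)) x) (Nat.beq (g13 T (g13 T' x)) x))))

theorem permChk_spec (T T' : ℕ) (h : permChk T T' = true) (x : ℕ) (hx : x < 4060) :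
    g13 T x < 4060 ∧ g13 T' x < 4060 ∧ g13 T' (g13 T x) = x ∧ g13 T (g13 T' x) = x := by
  have h1 := (allB_iff _ _).mp h x hx
  rw [band_iff, band_iff, band_iff] at h1
  obtain ⟨h2, h3, h4, h5⟩ := h1
  exact ⟨Nat.lt_succ_of_le (Nat.le_of_ble_eq_true h2), Nat.lt_succ_of_le (Nat.le_of_ble_eq_true h3),
    Nat.eq_of_beq_eq_true h4, Nat.eq_of_beq_eq_true h5⟩

set_option maxRecDepth 1000000 in
theorem pc0 : permChk t0 t1 = true := by decide +kernel

set_option maxRecDepth 1000000 in
theorem pc1 : permChk t2 t3 = true := by decide +kernel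

set_option maxRecDepth 1000000 in
theorem pc2 : permChk t4 t5 = true := by decide +kernel

set_option maxRecDepth 1000000 in
theorem pc3 : permChk t6 t7 = true := by decide +kernel

set_option maxRecDepth 1000000 in
theorem pc4 : permChk t8 t9 = true := by decide +kernel

set_option maxRecDepth 1000000 in
theorem pc5 : permChk t10 t11 = true := by decide +kernel

set_option maxRecDepth 1000000 in
theorem pc6 : permChk t12 t13 = true := by decide +kernel

set_option maxRecDepth 1000000 in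
theorem pc7 : permChk t14 t15 = true := by decide +kernel

set_option maxRecDepth 1000000 in
theorem pc8 : permChk t16 t17 = true := by decide +kernel

set_option maxRecDepth 1000000 in
theorem pc9 : permChk t18 t19 = true := by decide +kernel

set_option maxRecDepth 1000000 in
theorem pc10 : permChk t20 t21 = true := by decide +kernel

set_option maxRecDepth 1000000 in
theorem pc11 : permChk t22 t23 = true := by decide +kernel

set_option maxRecDepth 1000000 in
theorem pc12 : permChk t24 t25 = true := by decide +kernel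

set_option maxRecDepth 1000000 in
theorem pc13 : permChk t26 t27 = true := by decide +kernel

theorem step_spec (c x : ℕ) (hx : x < 4060) :
    stepN c x < 4060 ∧ stepN (ci c) (stepN c x) = x := by
  by_cases hc : c < 28
  · interval_cases c
    · have h := permChk_spec t0 t1 pc0 x hx
      exact ⟨h.1, h.2.2.1⟩
    · have h := permChk_spec t0 t1 pc0 x hx
      exact ⟨h.2.1, h.2.2.2⟩
    · have h := permChk_spec t2 t3 pc1 x hx
      exact ⟨h.1, h.2.2.1⟩
    · have h := permChk_spec t2 t3 pc1 x hx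
      exact ⟨h.2.1, h.2.2.2⟩
    · have h := permChk_spec t4 t5 pc2 x hx
      exact ⟨h.1, h.2.2.1⟩
    · have h := permChk_spec t4 t5 pc2 x hx
      exact ⟨h.2.1, h.2.2.2⟩
    · have h := permChk_spec t6 t7 pc3 x hx
      exact ⟨h.1, h.2.2.1⟩
    · have h := permChk_spec t6 t7 pc3 x hx
      exact ⟨h.2.1, h.2.2.2⟩
    · have h := permChk_spec t8 t9 pc4 x hx
      exact ⟨h.1, h.2.2.1⟩
    · have h := permChk_spec t8 t9 pc4 x hx
      exact ⟨h.2.1, h.2.2.2⟩
    · have h := permChk_spec t10 t11 pc5 x hx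
      exact ⟨h.1, h.2.2.1⟩
    · have h := permChk_spec t10 t11 pc5 x hx
      exact ⟨h.2.1, h.2.2.2⟩
    · have h := permChk_spec t12 t13 pc6 x hx
      exact ⟨h.1, h.2.2.1⟩
    · have h := permChk_spec t12 t13 pc6 x hx
      exact ⟨h.2.1, h.2.2.2⟩
    · have h := permChk_spec t14 t15 pc7 x hx
      exact ⟨h.1, h.2.2.1⟩
    · have h := permChk_spec t14 t15 pc7 x hx
      exact ⟨h.2.1, h.2.2.2⟩
    · have h := permChk_spec t16 t17 pc8 x hx
      exact ⟨h.1, h.2.2.1⟩
    · have h := permChk_spec t16 t17 pc8 x hx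
      exact ⟨h.2.1, h.2.2.2⟩
    · have h := permChk_spec t18 t19 pc9 x hx
      exact ⟨h.1, h.2.2.1⟩
    · have h := permChk_spec t18 t19 pc9 x hx
      exact ⟨h.2.1, h.2.2.2⟩
    · have h := permChk_spec t20 t21 pc10 x hx
      exact ⟨h.1, h.2.2.1⟩
    · have h := permChk_spec t20 t21 pc10 x hx
      exact ⟨h.2.1, h.2.2.2⟩
    · have h := permChk_spec t22 t23 pc11 x hx
      exact ⟨h.1, h.2.2.1⟩
    · have h := permChk_spec t22 t23 pc11 x hx
      exact ⟨h.2.1, h.2.2.2⟩
    · have h := permChk_spec t24 t25 pc12 x hx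
      exact ⟨h.1, h.2.2.1⟩
    · have h := permChk_spec t24 t25 pc12 x hx
      exact ⟨h.2.1, h.2.2.2⟩
    · have h := permChk_spec t26 t27 pc13 x hx
      exact ⟨h.1, h.2.2.1⟩
    · have h := permChk_spec t26 t27 pc13 x hx
      exact ⟨h.2.1, h.2.2.2⟩
  · have h1 : ¬ ci c < 28 := by
      unfold ci
      split_ifs <;> omega
    simp only [stepN, if_neg hc, if_neg h1]
    exact ⟨hx, trivial⟩

/-- The permutation of a letter. -/
def gperm (c : ℕ) : Equiv.Perm (Fin 4060) where
  toFun x := ⟨stepN c x.val, (step_spec c x.val x.isLt).1⟩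
  invFun x := ⟨stepN (ci c) x.val, (step_spec (ci c) x.val x.isLt).1⟩
  left_inv x := Fin.ext (step_spec c x.val x.isLt).2
  right_inv x := Fin.ext (by
    have h := (step_spec (ci c) x.val x.isLt).2
    rw [ci_ci] at h
    exact h)

theorem gperm_apply (c : ℕ) (x : Fin 4060) : (gperm c x).val = stepN c x.val := rfl

theorem gperm_ci (c : ℕ) : gperm (ci c) = (gperm c)⁻¹ := by
  apply Equiv.ext
  intro x
  apply Fin.ext
  rfl

/-- The action of a word on a point (the last letter acts first). -/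
def evalW (w : List ℕ) (x : ℕ) : ℕ := w.foldr stepN x

/-- The permutation of a word. -/
def wperm (w : List ℕ) : Equiv.Perm (Fin 4060) := (w.map gperm).prod

theorem wperm_nil : wperm [] = 1 := rfl

theorem wperm_cons (c : ℕ) (w : List ℕ) : wperm (c :: w) = gperm c * wperm w := by
  simp [wperm]

theorem wperm_apply (w : List ℕ) (x : Fin 4060) : (wperm w x).val = evalW w x.val := by
  induction w with
  | nil => rfl
  | cons c w ih =>
    rw [wperm_cons, Equiv.Perm.mul_apply, gperm_apply, ih]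
    rfl

/-- The group generated by a list of letters. -/
def grp (Sl : List ℕ) : Subgroup (Equiv.Perm (Fin 4060)) :=
  Subgroup.closure {g | ∃ s ∈ Sl, g = gperm s}

theorem gperm_mem_grp {Sl : List ℕ} {s : ℕ} (hs : s ∈ Sl) : gperm s ∈ grp Sl :=
  Subgroup.subset_closure ⟨s, hs, rfl⟩

theorem grp_nil : grp [] = ⊥ := by
  rw [grp, Subgroup.closure_eq_bot_iff]
  rintro g ⟨s, hs, -⟩
  exact absurd hs List.not_mem_nil

theorem grp_pair (a b : ℕ) : grp [a, b] = Subgroup.closure {gperm a, gperm b} := by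
  unfold grp
  congr 1
  ext g
  simp only [List.mem_cons, List.not_mem_nil, or_false, Set.mem_ofPred_eq, Set.mem_insert_iff,
    Set.mem_singleton_iff]
  constructor
  · rintro ⟨s, rfl | rfl, rfl⟩
    · exact Or.inl rfl
    · exact Or.inr rfl
  · rintro (rfl | rfl)
    · exact ⟨a, Or.inl rfl, rfl⟩
    · exact ⟨b, Or.inr rfl, rfl⟩

/-! ### Packed words -/

/-- Evaluation of a packed word (two bits per letter) over the alphabet with tables `A B C D`. -/
def evalG (A B C D len p x : ℕ) : ℕ :=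
  Nat.rec (motive := fun _ => ℕ → ℕ → ℕ) (fun _ x => x)
    (fun _ ih p x => g13 (sel4 A B C D (Nat.mod p 4)) (ih (Nat.div p 4) x)) len p x

/-- The letters of a packed word over the alphabet number `β`. -/
def decodeW (β : ℕ) : ℕ → ℕ → List ℕ
  | 0, _ => []
  | n + 1, p => (4 * β + Nat.mod p 4) :: decodeW β n (Nat.div p 4)

/-- The word with packed form `w` (the length in the lowest 8 bits) over the alphabet `β`. -/
def wordOf (β w : ℕ) : List ℕ := decodeW β (Nat.land w 255) (Nat.shiftRight w 8)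

/-- Evaluation of a packed word over the alphabet 0. -/
def ev0 (w x : ℕ) : ℕ := evalG t0 t1 t2 t3 (Nat.land w 255) (Nat.shiftRight w 8) x

/-- Evaluation of a packed word over the alphabet 1. -/
def ev1 (w x : ℕ) : ℕ := evalG t4 t5 t6 t7 (Nat.land w 255) (Nat.shiftRight w 8) x

/-- Evaluation of a packed word over the alphabet 2. -/
def ev2 (w x : ℕ) : ℕ := evalG t8 t9 t10 t11 (Nat.land w 255) (Nat.shiftRight w 8) x

/-- Evaluation of a packed word over the alphabet 3. -/
def ev3 (w x : ℕ) : ℕ := evalG t12 t13 t14 t15 (Nat.land w 255) (Nat.shiftRight w 8) x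

/-- Evaluation of a packed word over the alphabet 4. -/
def ev4 (w x : ℕ) : ℕ := evalG t16 t17 t18 t19 (Nat.land w 255) (Nat.shiftRight w 8) x

/-- Evaluation of a packed word over the alphabet 5. -/
def ev5 (w x : ℕ) : ℕ := evalG t20 t21 t22 t23 (Nat.land w 255) (Nat.shiftRight w 8) x

/-- Evaluation of a packed word over the alphabet 6. -/
def ev6 (w x : ℕ) : ℕ := evalG t24 t25 t26 t27 (Nat.land w 255) (Nat.shiftRight w 8) x

theorem evalG_spec (β : ℕ) (A B C D : ℕ)
    (hsel : ∀ r < 4, ∀ y, g13 (sel4 A B C D r) y = stepN (4 * β + r) y) :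
    ∀ (len p x : ℕ), evalG A B C D len p x = evalW (decodeW β len p) x := by
  intro len
  induction len with
  | zero => intro p x; rfl
  | succ n ih =>
    intro p x
    show g13 (sel4 A B C D (Nat.mod p 4)) (evalG A B C D n (Nat.div p 4) x) =
      stepN (4 * β + Nat.mod p 4) (evalW (decodeW β n (Nat.div p 4)) x)
    rw [ih]
    exact hsel (Nat.mod p 4) (Nat.mod_lt p (by norm_num)) _

theorem ev0_eq (w x : ℕ) : ev0 w x = evalW (wordOf 0 w) x :=
  evalG_spec 0 t0 t1 t2 t3 (by intro r hr y; interval_cases r <;> rfl) _ _ _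

theorem ev1_eq (w x : ℕ) : ev1 w x = evalW (wordOf 1 w) x :=
  evalG_spec 1 t4 t5 t6 t7 (by intro r hr y; interval_cases r <;> rfl) _ _ _

theorem ev2_eq (w x : ℕ) : ev2 w x = evalW (wordOf 2 w) x :=
  evalG_spec 2 t8 t9 t10 t11 (by intro r hr y; interval_cases r <;> rfl) _ _ _

theorem ev3_eq (w x : ℕ) : ev3 w x = evalW (wordOf 3 w) x :=
  evalG_spec 3 t12 t13 t14 t15 (by intro r hr y; interval_cases r <;> rfl) _ _ _

theorem ev4_eq (w x : ℕ) : ev4 w x = evalW (wordOf 4 w) x :=
  evalG_spec 4 t16 t17 t18 t19 (by intro r hr y; interval_cases r <;> rfl) _ _ _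

theorem ev5_eq (w x : ℕ) : ev5 w x = evalW (wordOf 5 w) x :=
  evalG_spec 5 t20 t21 t22 t23 (by intro r hr y; interval_cases r <;> rfl) _ _ _

theorem ev6_eq (w x : ℕ) : ev6 w x = evalW (wordOf 6 w) x :=
  evalG_spec 6 t24 t25 t26 t27 (by intro r hr y; interval_cases r <;> rfl) _ _ _

theorem evalG_zero (A B C D p x : ℕ) : evalG A B C D 0 p x = x := rfl

theorem wperm_decode_mem (β : ℕ) : ∀ (n p : ℕ), wperm (decodeW β n p) ∈ grp [4 * β, 4 * β + 2] := by
  intro n
  induction n with
  | zero => intro p; exact (grp _).one_mem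
  | succ n ih =>
    intro p
    show wperm ((4 * β + Nat.mod p 4) :: decodeW β n (Nat.div p 4)) ∈ _
    rw [wperm_cons]
    refine (grp _).mul_mem ?_ (ih _)
    have h0 : gperm (4 * β) ∈ grp [4 * β, 4 * β + 2] := gperm_mem_grp (by simp)
    have h2 : gperm (4 * β + 2) ∈ grp [4 * β, 4 * β + 2] := gperm_mem_grp (by simp)
    have h1 : ci (4 * β) = 4 * β + 1 := by
      unfold ci
      rw [if_pos (by omega)]
    have h3 : ci (4 * β + 2) = 4 * β + 3 := by
      unfold ci
      rw [if_pos (by omega)]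
    have hr : Nat.mod p 4 < 4 := Nat.mod_lt p (by norm_num)
    generalize Nat.mod p 4 = r at hr
    interval_cases r
    · exact h0
    · rw [← h1, gperm_ci]
      exact (grp _).inv_mem h0
    · exact h2
    · rw [← h3, gperm_ci]
      exact (grp _).inv_mem h2

theorem word0_mem (w : ℕ) : wperm (wordOf 0 w) ∈ grp [0, 2] := wperm_decode_mem 0 _ _

theorem ev0_perm (w : ℕ) : ∃ g ∈ grp [0, 2], ∀ x : Fin 4060, (g x).val = ev0 w x.val :=
  ⟨_, word0_mem w, fun x => by rw [wperm_apply, ev0_eq]⟩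

theorem ev0_empty (w : ℕ) (h : Nat.land w 255 = 0) (x : ℕ) : ev0 w x = x := by
  rw [ev0, h]; rfl

theorem word1_mem (w : ℕ) : wperm (wordOf 1 w) ∈ grp [4, 6] := wperm_decode_mem 1 _ _

theorem ev1_perm (w : ℕ) : ∃ g ∈ grp [4, 6], ∀ x : Fin 4060, (g x).val = ev1 w x.val :=
  ⟨_, word1_mem w, fun x => by rw [wperm_apply, ev1_eq]⟩

theorem ev1_empty (w : ℕ) (h : Nat.land w 255 = 0) (x : ℕ) : ev1 w x = x := by
  rw [ev1, h]; rfl

theorem word2_mem (w : ℕ) : wperm (wordOf 2 w) ∈ grp [8, 10] := wperm_decode_mem 2 _ _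

theorem ev2_perm (w : ℕ) : ∃ g ∈ grp [8, 10], ∀ x : Fin 4060, (g x).val = ev2 w x.val :=
  ⟨_, word2_mem w, fun x => by rw [wperm_apply, ev2_eq]⟩

theorem ev2_empty (w : ℕ) (h : Nat.land w 255 = 0) (x : ℕ) : ev2 w x = x := by
  rw [ev2, h]; rfl

theorem word3_mem (w : ℕ) : wperm (wordOf 3 w) ∈ grp [12, 14] := wperm_decode_mem 3 _ _

theorem ev3_perm (w : ℕ) : ∃ g ∈ grp [12, 14], ∀ x : Fin 4060, (g x).val = ev3 w x.val :=
  ⟨_, word3_mem w, fun x => by rw [wperm_apply, ev3_eq]⟩

theorem ev3_empty (w : ℕ) (h : Nat.land w 255 = 0) (x : ℕ) : ev3 w x = x := by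
  rw [ev3, h]; rfl

theorem word4_mem (w : ℕ) : wperm (wordOf 4 w) ∈ grp [16, 18] := wperm_decode_mem 4 _ _

theorem ev4_perm (w : ℕ) : ∃ g ∈ grp [16, 18], ∀ x : Fin 4060, (g x).val = ev4 w x.val :=
  ⟨_, word4_mem w, fun x => by rw [wperm_apply, ev4_eq]⟩

theorem ev4_empty (w : ℕ) (h : Nat.land w 255 = 0) (x : ℕ) : ev4 w x = x := by
  rw [ev4, h]; rfl

theorem word5_mem (w : ℕ) : wperm (wordOf 5 w) ∈ grp [20, 22] := wperm_decode_mem 5 _ _

theorem ev5_perm (w : ℕ) : ∃ g ∈ grp [20, 22], ∀ x : Fin 4060, (g x).val = ev5 w x.val :=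
  ⟨_, word5_mem w, fun x => by rw [wperm_apply, ev5_eq]⟩

theorem ev5_empty (w : ℕ) (h : Nat.land w 255 = 0) (x : ℕ) : ev5 w x = x := by
  rw [ev5, h]; rfl

theorem word6_mem (w : ℕ) : wperm (wordOf 6 w) ∈ grp [24, 26] := wperm_decode_mem 6 _ _

theorem ev6_perm (w : ℕ) : ∃ g ∈ grp [24, 26], ∀ x : Fin 4060, (g x).val = ev6 w x.val :=
  ⟨_, word6_mem w, fun x => by rw [wperm_apply, ev6_eq]⟩

theorem ev6_empty (w : ℕ) (h : Nat.land w 255 = 0) (x : ℕ) : ev6 w x = x := by
  rw [ev6, h]; rfl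

/-- The table of a letter describes its permutation. -/
theorem gperm_tab (c : ℕ) (hc : c < 28) (x : Fin 4060) : (gperm c x).val = g13 (tabN c) x.val := by
  rw [gperm_apply, stepN, if_pos hc]

/-! ### The graph and its automorphisms -/

/-- Entry `n` of a list of lists. -/
def lgetL (l : List (List ℕ)) (n : ℕ) : List ℕ :=
  List.rec (motive := fun _ => ℕ → List ℕ) (fun _ => [])
    (fun a _ ih n => Nat.rec a (fun m _ => ih m) n) l n

/-- The mask of a row. -/
def rowMsk : ℕ := Nat.sub (Nat.pow 2 4060) 1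

/-- The bit mask of the neighbours of a vertex. -/
def rowM (x : ℕ) : ℕ :=
  Nat.land (Nat.shiftRight (lget (lgetL rowsD (Nat.div x 384)) (Nat.mod (Nat.div x 32) 12))
    (Nat.mul 4060 (Nat.mod x 32))) rowMsk

/-- Adjacency of the graph. -/
def adjN (x y : ℕ) : Bool := tb (rowM x) y

/-- The group of automorphisms of the graph. -/
def AutP : Subgroup (Equiv.Perm (Fin 4060)) where
  carrier := {σ | ∀ i j : Fin 4060, adjN (σ i).val (σ j).val = adjN i.val j.val}
  mul_mem' := by
    intro σ τ hσ hτ i j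
    show adjN (σ (τ i)).val (σ (τ j)).val = _
    rw [hσ, hτ]
  one_mem' := fun _ _ => rfl
  inv_mem' := by
    intro σ hσ i j
    have h := hσ (σ⁻¹ i) (σ⁻¹ j)
    rw [show σ (σ⁻¹ i) = i from Equiv.apply_symm_apply σ i,
      show σ (σ⁻¹ j) = j from Equiv.apply_symm_apply σ j] at h
    exact h.symm

theorem mem_AutP_of_fwd (σ : Equiv.Perm (Fin 4060))
    (h : ∀ i j : Fin 4060, adjN i.val j.val = true → adjN (σ i).val (σ j).val = true) :
    σ ∈ AutP := by
  have hpow : ∀ k : ℕ, ∀ i j : Fin 4060, adjN i.val j.val = true →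
      adjN ((σ ^ k) i).val ((σ ^ k) j).val = true := by
    intro k
    induction k with
    | zero =>
      intro i j hij
      rw [pow_zero]
      exact hij
    | succ k ih =>
      intro i j hij
      rw [pow_succ', Equiv.Perm.mul_apply, Equiv.Perm.mul_apply]
      exact h _ _ (ih i j hij)
  intro i j
  cases hb : adjN i.val j.val with
  | true => exact h i j hb
  | false =>
    by_contra hc
    rw [Bool.not_eq_false] at hc
    have h1 := hpow (orderOf σ - 1) (σ i) (σ j) hc
    have h2 : ∀ x, (σ ^ (orderOf σ - 1)) (σ x) = x := by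
      intro x
      rw [← Equiv.Perm.mul_apply, ← pow_succ, Nat.sub_add_cancel (orderOf_pos σ),
        pow_orderOf_eq_one]
      rfl
    rw [h2, h2, hb] at h1
    exact absurd h1 Bool.false_ne_true

/-! ### Permutation networks -/

/-- A conditional swap of the bits `i` and `i + d`, for the positions `i` of the mask `m`. -/
def dswap (m d x : ℕ) : ℕ :=
  Nat.xor (Nat.xor x (Nat.land (Nat.xor (Nat.shiftRight x d) x) m))
    (Nat.shiftLeft (Nat.land (Nat.xor (Nat.shiftRight x d) x) m) d)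

/-- The position whose bit is moved to the position `j` by the swap. -/
def sig (m d j : ℕ) : ℕ :=
  Bool.rec (Bool.rec j (Nat.sub j d) (band (Nat.ble d j) (tb m (Nat.sub j d)))) (Nat.add j d)
    (tb m j)

theorem sig_eq (m d j : ℕ) : sig m d j =
    if m.testBit j = true then j + d else
      if d ≤ j ∧ m.testBit (j - d) = true then j - d else j := by
  unfold sig
  rw [tb_eq m j, tb_eq m (Nat.sub j d)]
  by_cases hm : m.testBit j = true
  · rw [hm, if_pos rfl]
    rfl
  · have hm' : m.testBit j = false := by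
      cases hb : m.testBit j with
      | false => rfl
      | true => exact absurd hb hm
    rw [hm', if_neg (by decide)]
    by_cases hd : d ≤ j ∧ m.testBit (j - d) = true
    · rw [if_pos hd]
      have hb : band (Nat.ble d j) (m.testBit (Nat.sub j d)) = true := by
        rw [band_iff]
        exact ⟨Nat.ble_eq_true_of_le hd.1, hd.2⟩
      rw [hb]
      rfl
    · rw [if_neg hd]
      have hb : band (Nat.ble d j) (m.testBit (Nat.sub j d)) = false := by
        cases hb' : band (Nat.ble d j) (m.testBit (Nat.sub j d)) with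
        | false => rfl
        | true =>
          rw [band_iff] at hb'
          exact absurd ⟨Nat.le_of_ble_eq_true hb'.1, hb'.2⟩ hd
      rw [hb]

theorem dswap_testBit (m d x j : ℕ) (h : Nat.land m (Nat.shiftLeft m d) = 0) :
    (dswap m d x).testBit j = x.testBit (sig m d j) := by
  have hdis : m.testBit j = true → d ≤ j → m.testBit (j - d) = false := by
    intro h1 h2
    by_contra h3
    rw [Bool.not_eq_false] at h3
    have h4 : (m &&& (m <<< d)).testBit j = true := by
      rw [Nat.testBit_land, Nat.testBit_shiftLeft, h1, h3, decide_eq_true h2]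
      rfl
    have h5 : (m &&& (m <<< d)) = 0 := h
    rw [h5, Nat.zero_testBit] at h4
    exact absurd h4 Bool.false_ne_true
  have ht : ∀ i, (((x >>> d) ^^^ x) &&& m).testBit i =
      ((x.testBit (d + i) ^^ x.testBit i) && m.testBit i) := by
    intro i
    rw [Nat.testBit_land, Nat.testBit_xor, Nat.testBit_shiftRight]
  have h0 : (dswap m d x).testBit j = ((x.testBit j ^^
      ((x.testBit (d + j) ^^ x.testBit j) && m.testBit j)) ^^
      (decide (j ≥ d) && ((x.testBit (d + (j - d)) ^^ x.testBit (j - d)) && m.testBit (j - d)))) := by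
    show ((x ^^^ (((x >>> d) ^^^ x) &&& m)) ^^^ ((((x >>> d) ^^^ x) &&& m) <<< d)).testBit j = _
    rw [Nat.testBit_xor, Nat.testBit_xor, Nat.testBit_shiftLeft, ht, ht]
  rw [h0, sig_eq]
  by_cases hm : m.testBit j = true
  · rw [if_pos hm, hm, Nat.add_comm j d]
    by_cases hd : d ≤ j
    · rw [hdis hm hd]
      cases x.testBit j <;> cases x.testBit (d + j) <;> cases decide (j ≥ d) <;>
        cases x.testBit (d + (j - d)) <;> cases x.testBit (j - d) <;> rfl
    · rw [decide_eq_false (by omega : ¬ j ≥ d)]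
      cases x.testBit j <;> cases x.testBit (d + j) <;> rfl
  · have hm' : m.testBit j = false := by
      cases hb : m.testBit j with
      | false => rfl
      | true => exact absurd hb hm
    rw [if_neg hm, hm']
    by_cases hd : d ≤ j ∧ m.testBit (j - d) = true
    · rw [if_pos hd, show d + (j - d) = j by omega, hd.2, decide_eq_true (show j ≥ d from hd.1)]
      cases x.testBit j <;> cases x.testBit (d + j) <;> cases x.testBit (j - d) <;> rfl
    · rw [if_neg hd]
      have h6 : (decide (j ≥ d) && ((x.testBit (d + (j - d)) ^^ x.testBit (j - d)) &&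
          m.testBit (j - d))) = false := by
        by_cases hd1 : d ≤ j
        · have h7 : m.testBit (j - d) = false := by
            cases hb' : m.testBit (j - d) with
            | false => rfl
            | true => exact absurd ⟨hd1, hb'⟩ hd
          rw [h7, Bool.and_false, Bool.and_false]
        · rw [decide_eq_false (by omega : ¬ j ≥ d), Bool.false_and]
      rw [h6]
      cases x.testBit j <;> cases x.testBit (d + j) <;> rfl

/-- The mask of all positions of a network. -/
def bMsk : ℕ := Nat.sub (Nat.pow 2 4096) 1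

/-- The mask of stage `s` of a network. -/
def bmask (bn s : ℕ) : ℕ := Nat.land (Nat.shiftRight bn (Nat.mul 4096 s)) bMsk

/-- The first `n` stages of a network, applied to the bits of `x`. -/
def benes (bn n x : ℕ) : ℕ := foldN n (fun s acc => dswap (bmask bn s) (g13 distP s) acc) x

/-- The position whose bit is moved to the position `j` by the first `n` stages. -/
def bpos (bn n : ℕ) : ℕ → ℕ :=
  Nat.rec (motive := fun _ => ℕ → ℕ) (fun j => j)
    (fun k ih j => ih (sig (bmask bn k) (g13 distP k) j)) n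

/-- The swaps of each stage are disjoint. -/
def bvalid (bn : ℕ) : Bool := allB 23 (fun s =>
  Nat.beq (Nat.land (bmask bn s) (Nat.shiftLeft (bmask bn s) (g13 distP s))) 0)

theorem benes_testBit (bn : ℕ) (hv : bvalid bn = true) (x : ℕ) :
    ∀ n ≤ 23, ∀ j, (benes bn n x).testBit j = x.testBit (bpos bn n j) := by
  intro n
  induction n with
  | zero => intro _ j; rfl
  | succ n ih =>
    intro hn j
    have h1 : benes bn (n + 1) x = dswap (bmask bn n) (g13 distP n) (benes bn n x) := rfl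
    have h2 : bpos bn (n + 1) j = bpos bn n (sig (bmask bn n) (g13 distP n) j) := rfl
    rw [h1, h2, dswap_testBit _ _ _ _
      (Nat.eq_of_beq_eq_true ((allB_iff _ _).mp hv n (by omega))), ih (by omega)]

/-- The network moves the bit `y` to the position given by the table `T`. -/
def bposChk (bn T : ℕ) : Bool := allB 4060 (fun y => Nat.beq (bpos bn 23 (g13 T y)) y)

/-- The network maps the row of `x` to the row of the image of `x`, for `lo ≤ x < lo + len`. -/
def autChk (bn T lo len : ℕ) : Bool := allB len (fun i =>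
  Nat.beq (benes bn 23 (rowM (Nat.add lo i))) (rowM (g13 T (Nat.add lo i))))

theorem autChk_spec (bn T lo len : ℕ) (h : autChk bn T lo len = true) (x : ℕ) (h1 : lo ≤ x)
    (h2 : x < lo + len) : benes bn 23 (rowM x) = rowM (g13 T x) := by
  have h3 := (allB_iff _ _).mp h (x - lo) (by omega)
  have h5 : Nat.add lo (x - lo) = x := by
    show lo + (x - lo) = x
    omega
  rw [h5] at h3
  exact Nat.eq_of_beq_eq_true h3

theorem gperm_mem_AutP (c : ℕ) (hc : c < 28) (bn : ℕ) (hv : bvalid bn = true)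
    (hp : bposChk bn (tabN c) = true)
    (h : ∀ x < 4060, benes bn 23 (rowM x) = rowM (g13 (tabN c) x)) : gperm c ∈ AutP := by
  apply mem_AutP_of_fwd
  intro i j hij
  rw [gperm_tab c hc, gperm_tab c hc]
  show tb (rowM (g13 (tabN c) i.val)) (g13 (tabN c) j.val) = true
  rw [← h i.val i.isLt, tb_eq, benes_testBit bn hv _ 23 (le_refl 23),
    Nat.eq_of_beq_eq_true ((allB_iff _ _).mp hp j.val j.isLt), ← tb_eq]
  exact hij

theorem grp_le_AutP (Sl : List ℕ) (h : ∀ s ∈ Sl, gperm s ∈ AutP) : grp Sl ≤ AutP := by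
  rw [grp, Subgroup.closure_le]
  rintro g ⟨s, hs, rfl⟩
  exact h s hs

/-! ### Rigidity -/

/-- The mask with all vertices. -/
def allOnes : ℕ := 2 ^ 4060 - 1

theorem testBit_allOnes (j : ℕ) : allOnes.testBit j = decide (j < 4060) := by
  rw [allOnes, Nat.testBit_two_pow_sub_one]

/-- A slot `w + 8192 * kind` of a rigidity entry restricts a mask to the neighbours (kind 1) or
the non-neighbours (kind 2) of the witness `w`. -/
def slotMask (s M : ℕ) : ℕ :=
  Nat.rec M (fun k _ => Nat.rec (Nat.land M (rowM (Nat.land s 8191)))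
    (fun _ _ => Nat.xor M (Nat.land M (rowM (Nat.land s 8191)))) k) (Nat.shiftRight s 13)

/-- The witness of a slot is an earlier vertex. -/
def slotOK (s fm : ℕ) : Bool :=
  Nat.rec true (fun _ _ => band (Nat.ble (Nat.land s 8191) 4059) (tb fm (Nat.land s 8191)))
    (Nat.shiftRight s 13)

/-- The condition of a slot on a vertex. -/
def slotPred (s j : ℕ) : Bool :=
  Nat.rec true (fun k _ => Nat.rec (adjN (Nat.land s 8191) j)
    (fun _ _ => !adjN (Nat.land s 8191) j) k) (Nat.shiftRight s 13)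

theorem testBit_slotMask (s M j : ℕ) :
    (slotMask s M).testBit j = (M.testBit j && slotPred s j) := by
  unfold slotMask slotPred
  generalize Nat.shiftRight s 13 = kd
  rcases kd with _ | _ | k
  · show M.testBit j = (M.testBit j && true)
    rw [Bool.and_true]
  · show (M &&& rowM (Nat.land s 8191)).testBit j = (M.testBit j && adjN (Nat.land s 8191) j)
    rw [Nat.testBit_land, adjN, tb_eq]
  · show (M ^^^ (M &&& rowM (Nat.land s 8191))).testBit j =
      (M.testBit j && !adjN (Nat.land s 8191) j)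
    rw [Nat.testBit_xor, Nat.testBit_land, adjN, tb_eq]
    cases M.testBit j <;> cases (rowM (Nat.land s 8191)).testBit j <;> rfl

theorem slotPred_inv (ρ : Equiv.Perm (Fin 4060)) (hρ : ρ ∈ AutP) (fm : ℕ)
    (hfix : ∀ j (hj : j < 4060), fm.testBit j = true → ρ ⟨j, hj⟩ = ⟨j, hj⟩) (s : ℕ)
    (hok : slotOK s fm = true) (x : Fin 4060) : slotPred s (ρ x).val = slotPred s x.val := by
  unfold slotOK at hok
  unfold slotPred
  generalize Nat.shiftRight s 13 = kd at hok ⊢
  rcases kd with _ | kd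
  · rfl
  · have hok' : band (Nat.ble (Nat.land s 8191) 4059) (tb fm (Nat.land s 8191)) = true := hok
    rw [band_iff, tb_eq] at hok'
    have hw : Nat.land s 8191 < 4060 := Nat.lt_succ_of_le (Nat.le_of_ble_eq_true hok'.1)
    have h1 := hρ ⟨Nat.land s 8191, hw⟩ x
    rw [hfix _ hw hok'.2] at h1
    rcases kd with _ | k
    · exact h1
    · show (!adjN (Nat.land s 8191) (ρ x).val) = !adjN (Nat.land s 8191) x.val
      rw [← h1]

/-- Slot `k` of an entry. -/
def gS (e k : ℕ) : ℕ := Nat.land (Nat.shiftRight e (Nat.add 13 (Nat.mul 15 k))) 32767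

/-- The vertex of the entry is the only vertex outside `fm` satisfying the conditions of the
ten slots. -/
def entOK (e fm : ℕ) : Bool :=
  band (allB 10 (fun k => slotOK (gS e k) fm))
    (Nat.beq (foldN 10 (fun k M => slotMask (gS e k) M) (Nat.xor allOnes (Nat.land allOnes fm)))
      (Nat.shiftLeft 1 (Nat.land e 8191)))

theorem testBit_M0 (fm j : ℕ) : (Nat.xor allOnes (Nat.land allOnes fm)).testBit j =
    (decide (j < 4060) && !fm.testBit j) := by
  show (allOnes ^^^ (allOnes &&& fm)).testBit j = _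
  rw [Nat.testBit_xor, Nat.testBit_land, testBit_allOnes]
  cases decide (j < 4060) <;> cases fm.testBit j <;> rfl

theorem testBit_foldSlots (sf : ℕ → ℕ) (M0 j : ℕ) : ∀ n : ℕ,
    (foldN n (fun k M => slotMask (sf k) M) M0).testBit j =
      (M0.testBit j && allB n (fun k => slotPred (sf k) j)) := by
  intro n
  induction n with
  | zero =>
    show M0.testBit j = (M0.testBit j && true)
    rw [Bool.and_true]
  | succ n ih =>
    have h1 : foldN (n + 1) (fun k M => slotMask (sf k) M) M0 =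
        slotMask (sf n) (foldN n (fun k M => slotMask (sf k) M) M0) := rfl
    rw [h1, testBit_slotMask, ih, allB_succ, brec_eq]
    cases M0.testBit j <;> cases allB n (fun k => slotPred (sf k) j) <;>
      cases slotPred (sf n) j <;> rfl

theorem entOK_fix (ρ : Equiv.Perm (Fin 4060)) (hρ : ρ ∈ AutP) (e fm : ℕ)
    (hfix : ∀ j (hj : j < 4060), fm.testBit j = true → ρ ⟨j, hj⟩ = ⟨j, hj⟩)
    (h : entOK e fm = true) :
    ∃ hv : Nat.land e 8191 < 4060, ρ ⟨Nat.land e 8191, hv⟩ = ⟨Nat.land e 8191, hv⟩ := by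
  unfold entOK at h
  rw [band_iff] at h
  obtain ⟨h1, h4⟩ := h
  have h4' := Nat.eq_of_beq_eq_true h4
  generalize Nat.land e 8191 = v at h4' ⊢
  have hbit : ∀ j, ((decide (j < 4060) && !fm.testBit j) &&
      allB 10 (fun k => slotPred (gS e k) j)) = decide (v = j) := by
    intro j
    rw [← testBit_M0, ← testBit_foldSlots, ← testBit_one_shiftLeft]
    exact congrArg (fun m => Nat.testBit m j) h4'
  have hv0 := hbit v
  rw [decide_eq_true rfl] at hv0
  simp only [Bool.and_eq_true, decide_eq_true_eq, Bool.not_eq_true'] at hv0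
  obtain ⟨⟨hv1, hv2⟩, hp⟩ := hv0
  refine ⟨hv1, ?_⟩
  have hw := hbit (ρ ⟨v, hv1⟩).val
  have hp' : allB 10 (fun k => slotPred (gS e k) (ρ ⟨v, hv1⟩).val) = true := by
    rw [allB_iff]
    intro k hk
    rw [slotPred_inv ρ hρ fm hfix _ ((allB_iff _ _).mp h1 k hk) ⟨v, hv1⟩]
    exact (allB_iff _ _).mp hp k hk
  have hw1 : ((decide ((ρ ⟨v, hv1⟩).val < 4060) && !fm.testBit (ρ ⟨v, hv1⟩).val) &&
      allB 10 (fun k => slotPred (gS e k) (ρ ⟨v, hv1⟩).val)) = true := by
    rw [hp', Bool.and_true]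
    simp only [Bool.and_eq_true, decide_eq_true_eq, Bool.not_eq_true']
    refine ⟨(ρ ⟨v, hv1⟩).isLt, ?_⟩
    by_contra hc
    rw [Bool.not_eq_false] at hc
    have h5 := hfix (ρ ⟨v, hv1⟩).val (ρ ⟨v, hv1⟩).isLt hc
    have h6 : ρ ⟨v, hv1⟩ = ⟨v, hv1⟩ := ρ.injective h5
    rw [h6] at hc
    rw [hc] at hv2
    exact absurd hv2 (by decide)
  rw [hw1] at hw
  have h7 : v = (ρ ⟨v, hv1⟩).val := of_decide_eq_true hw.symm
  exact Fin.ext h7.symm

/-- Entry `i` of the rigidity certificate. -/
def gE (i : ℕ) : ℕ :=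
  Nat.land (Nat.shiftRight detP (Nat.mul 163 i)) 11692013098647223345629478661730264157247460343807

/-- The run of the rigidity certificate over the entries `N1 + 1 - n, …, N1`, from the mask `fm`
of the vertices known to be fixed; the result is the new mask, or `0` for a failure. -/
def rigRun (N1 n : ℕ) : ℕ → ℕ :=
  Nat.rec (motive := fun _ => ℕ → ℕ) (fun fm => fm)
    (fun k ih fm => Bool.rec 0
      (forceN (Nat.lor fm (Nat.shiftLeft 1 (Nat.land (gE (Nat.sub N1 k)) 8191))) ih)
      (entOK (gE (Nat.sub N1 k)) fm)) n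

theorem rigRun_sound (ρ : Equiv.Perm (Fin 4060)) (hρ : ρ ∈ AutP) (N1 : ℕ) :
    ∀ (n fm fm' : ℕ), rigRun N1 n fm = fm' → fm' ≠ 0 →
      (∀ j (hj : j < 4060), fm.testBit j = true → ρ ⟨j, hj⟩ = ⟨j, hj⟩) →
      ∀ j (hj : j < 4060), fm'.testBit j = true → ρ ⟨j, hj⟩ = ⟨j, hj⟩ := by
  intro n
  induction n with
  | zero =>
    intro fm fm' h _ hfix
    have h1 : fm = fm' := h
    rw [← h1]
    exact hfix
  | succ n ih =>
    intro fm fm' h hne hfix
    have h1 : rigRun N1 (n + 1) fm = Bool.rec 0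
        (forceN (Nat.lor fm (Nat.shiftLeft 1 (Nat.land (gE (Nat.sub N1 n)) 8191))) (rigRun N1 n))
        (entOK (gE (Nat.sub N1 n)) fm) := rfl
    rw [h1] at h
    cases hent : entOK (gE (Nat.sub N1 n)) fm with
    | false =>
      rw [hent] at h
      exact absurd h.symm hne
    | true =>
      rw [hent, forceN_eq] at h
      obtain ⟨hv, hρv⟩ := entOK_fix ρ hρ _ fm hfix hent
      apply ih _ fm' h hne
      intro j hj hbj
      have hbj' : (fm ||| (1 <<< Nat.land (gE (Nat.sub N1 n)) 8191)).testBit j = true := hbj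
      rw [Nat.testBit_lor, testBit_one_shiftLeft, Bool.or_eq_true, decide_eq_true_eq] at hbj'
      rcases hbj' with hbj' | rfl
      · exact hfix j hj hbj'
      · exact hρv

/-- The mask of the base points. -/
def fm0 : ℕ := foldN 9 (fun k acc => Nat.lor acc (Nat.shiftLeft 1 (g13 rbP k))) 0

theorem fm0_bit (j : ℕ) : fm0.testBit j = true ↔ ∃ k < 9, g13 rbP k = j :=
  testBit_foldN_or _ 9 j

theorem allOnes_ne : allOnes ≠ 0 := by
  intro h
  have h1 := testBit_allOnes 0
  rw [h, Nat.zero_testBit] at h1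
  exact absurd h1 (by decide)

/-- An automorphism is determined by its values at the base points, given the four parts of the
rigidity certificate. -/
theorem rigid_of_chain (m1 m2 m3 : ℕ)
    (h1 : rigRun 1012 1013 fm0 = m1) (h2 : rigRun 2025 1013 m1 = m2)
    (h3 : rigRun 3038 1013 m2 = m3) (h4 : rigRun 4050 1012 m3 = allOnes)
    (hm1 : m1 ≠ 0) (hm2 : m2 ≠ 0) (hm3 : m3 ≠ 0)
    (σ τ : Equiv.Perm (Fin 4060)) (hσ : σ ∈ AutP) (hτ : τ ∈ AutP)
    (h : ∀ k < 9, ∀ hp : g13 rbP k < 4060,
      (σ ⟨g13 rbP k, hp⟩).val = (τ ⟨g13 rbP k, hp⟩).val) : σ = τ := by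
  have hρ : τ⁻¹ * σ ∈ AutP := AutP.mul_mem (AutP.inv_mem hτ) hσ
  have hf0 : ∀ j (hj : j < 4060), fm0.testBit j = true → (τ⁻¹ * σ) ⟨j, hj⟩ = ⟨j, hj⟩ := by
    intro j hj hbj
    obtain ⟨k, hk, rfl⟩ := (fm0_bit j).mp hbj
    have h5 := h k hk hj
    rw [Equiv.Perm.mul_apply, Fin.ext h5]
    exact Equiv.symm_apply_apply τ _
  have hf1 := rigRun_sound _ hρ _ _ _ _ h1 hm1 hf0
  have hf2 := rigRun_sound _ hρ _ _ _ _ h2 hm2 hf1
  have hf3 := rigRun_sound _ hρ _ _ _ _ h3 hm3 hf2
  have hf4 := rigRun_sound _ hρ _ _ _ _ h4 allOnes_ne hf3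
  apply Equiv.ext
  intro x
  have h6 := hf4 x.val x.isLt (by rw [testBit_allOnes]; exact decide_eq_true x.isLt)
  rw [Equiv.Perm.mul_apply] at h6
  have h7 : τ (τ⁻¹ (σ x)) = τ x := by rw [h6]
  rw [show τ (τ⁻¹ (σ x)) = σ x from Equiv.apply_symm_apply τ _] at h7
  exact h7

/-! ### One level of a stabiliser chain -/

theorem level_card (P Q : Subgroup (Equiv.Perm (Fin 4060))) (S : Set (Equiv.Perm (Fin 4060)))
    (hP : P = Subgroup.closure S) (hQP : Q ≤ P) (c : Fin 4060) (hQc : ∀ q ∈ Q, q c = c)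
    (n : ℕ) (u : ℕ → Equiv.Perm (Fin 4060))
    (hu : ∀ i < n, u i ∈ P) (hinj : ∀ i < n, ∀ j < n, u i c = u j c → i = j)
    (h1 : ∃ i < n, u i = 1)
    (hcert : ∀ s ∈ S, ∀ i < n, ∃ j < n, ∃ q ∈ Q, s * u i = u j * q) :
    Nat.card P = n * Nat.card Q ∧ ∀ g ∈ P, ∃ i < n, ∃ q ∈ Q, g = u i * q := by
  have hstep : ∀ s ∈ S, ∀ w : Equiv.Perm (Fin 4060), (∃ i < n, ∃ q ∈ Q, w = u i * q) →
      ∃ i < n, ∃ q ∈ Q, s * w = u i * q := by
    rintro s hs w ⟨i, hi, q, hq, rfl⟩
    obtain ⟨j, hj, q', hq', h2⟩ := hcert s hs i hi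
    exact ⟨j, hj, q' * q, Q.mul_mem hq' hq, by rw [← mul_assoc, h2, mul_assoc]⟩
  have hPW : ∀ g ∈ P, ∀ w : Equiv.Perm (Fin 4060), (∃ i < n, ∃ q ∈ Q, w = u i * q) →
      ∃ i < n, ∃ q ∈ Q, g * w = u i * q := by
    intro g hg
    rw [hP] at hg
    induction hg using Subgroup.closure_induction with
    | mem s hs => exact hstep s hs
    | one => intro w hw; rw [one_mul]; exact hw
    | mul a b _ _ iha ihb =>
      intro w hw
      rw [mul_assoc]
      exact iha _ (ihb w hw)
    | inv a _ iha =>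
      have hpow : ∀ k : ℕ, ∀ w : Equiv.Perm (Fin 4060), (∃ i < n, ∃ q ∈ Q, w = u i * q) →
          ∃ i < n, ∃ q ∈ Q, a ^ k * w = u i * q := by
        intro k
        induction k with
        | zero => intro w hw; rw [pow_zero, one_mul]; exact hw
        | succ k ihk =>
          intro w hw
          rw [pow_succ, mul_assoc]
          exact ihk _ (iha w hw)
      have hinv : a⁻¹ = a ^ (orderOf a - 1) := by
        have h3 : a ^ (orderOf a - 1) * a = 1 := by
          rw [← pow_succ, Nat.sub_add_cancel (orderOf_pos a), pow_orderOf_eq_one]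
        exact (eq_inv_of_mul_eq_one_left h3).symm
      rw [hinv]
      exact hpow _
  have hrep : ∀ g ∈ P, ∃ i < n, ∃ q ∈ Q, g = u i * q := by
    intro g hg
    obtain ⟨i0, hi0, hu0⟩ := h1
    obtain ⟨i, hi, q, hq, h2⟩ := hPW g hg 1 ⟨i0, hi0, 1, Q.one_mem, by rw [hu0, mul_one]⟩
    rw [mul_one] at h2
    exact ⟨i, hi, q, hq, h2⟩
  refine ⟨?_, hrep⟩
  have hmemP : ∀ i : Fin n, ∀ q : ↥Q, u i.val * (q : Equiv.Perm (Fin 4060)) ∈ P :=
    fun i q => P.mul_mem (hu _ i.isLt) (hQP q.2)
  have hbij : Function.Bijective (fun p : Fin n × ↥Q =>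
      (⟨u p.1.val * (p.2 : Equiv.Perm (Fin 4060)), hmemP p.1 p.2⟩ : ↥P)) := by
    constructor
    · rintro ⟨i, q⟩ ⟨i', q'⟩ h
      have h2 : u i.val * (q : Equiv.Perm (Fin 4060)) =
          u i'.val * (q' : Equiv.Perm (Fin 4060)) := congrArg Subtype.val h
      have h3 : (u i.val * (q : Equiv.Perm (Fin 4060))) c =
          (u i'.val * (q' : Equiv.Perm (Fin 4060))) c := by rw [h2]
      rw [Equiv.Perm.mul_apply, Equiv.Perm.mul_apply, hQc q q.2, hQc q' q'.2] at h3
      have h4 : i = i' := Fin.ext (hinj _ i.isLt _ i'.isLt h3)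
      subst h4
      have h5 : (q : Equiv.Perm (Fin 4060)) = q' := mul_left_cancel h2
      rw [Subtype.ext h5]
    · rintro ⟨g, hg⟩
      obtain ⟨i, hi, q, hq, h2⟩ := hrep g hg
      exact ⟨(⟨i, hi⟩, ⟨q, hq⟩), Subtype.ext h2.symm⟩
  rw [← Nat.card_congr (Equiv.ofBijective _ hbij), Nat.card_prod, Nat.card_fin]

/-- The Schreier certificate for the generator with table `T` and the point number `i` of the
orbit, with image `y`: the equation holds at the base points. -/
def lvlStep (n : ℕ) (posF : ℕ → ℕ) (evP evQ : ℕ → ℕ → ℕ) (wdF certF : ℕ → ℕ) (T y i : ℕ) : Bool :=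
  band (Nat.ble (Nat.succ (posF y)) n)
    (allB 9 (fun k => Nat.beq (g13 T (evP (wdF i) (g13 rbP k)))
      (evP (wdF (posF y)) (evQ (certF i) (g13 rbP k)))))

/-- The Schreier certificates for the generator with table `T` and the points with numbers
`lo ≤ i < lo + len` of the orbit. -/
def lvlChk (n : ℕ) (orbF posF : ℕ → ℕ) (evP evQ : ℕ → ℕ → ℕ) (wdF certF : ℕ → ℕ) (T lo len : ℕ) :
    Bool :=
  allB len (fun i => lvlStep n posF evP evQ wdF certF T (g13 T (orbF (Nat.add lo i))) (Nat.add lo i))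

theorem lvlChk_spec (n : ℕ) (orbF posF : ℕ → ℕ) (evP evQ : ℕ → ℕ → ℕ) (wdF certF : ℕ → ℕ)
    (T lo len : ℕ) (h : lvlChk n orbF posF evP evQ wdF certF T lo len = true) (i : ℕ)
    (h1 : lo ≤ i) (h2 : i < lo + len) :
    lvlStep n posF evP evQ wdF certF T (g13 T (orbF i)) i = true := by
  have h3 := (allB_iff _ _).mp h (i - lo) (by omega)
  have h5 : Nat.add lo (i - lo) = i := by
    show lo + (i - lo) = i
    omega
  rw [h5] at h3
  exact h3

/-- The transversal: the word number `i` maps the base point to the point number `i` of the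
orbit, and the points of the orbit are distinct. -/
def trChk (n c : ℕ) (orbF posF : ℕ → ℕ) (evP : ℕ → ℕ → ℕ) (wdF : ℕ → ℕ) : Bool :=
  allB n (fun i => band (Nat.beq (evP (wdF i) c) (orbF i)) (Nat.beq (posF (orbF i)) i))

theorem trChk_spec (n c : ℕ) (orbF posF : ℕ → ℕ) (evP : ℕ → ℕ → ℕ) (wdF : ℕ → ℕ)
    (h : trChk n c orbF posF evP wdF = true) (i : ℕ) (hi : i < n) :
    evP (wdF i) c = orbF i ∧ posF (orbF i) = i := by
  have h1 := (allB_iff _ _).mp h i hi
  rw [band_iff] at h1
  exact ⟨Nat.eq_of_beq_eq_true h1.1, Nat.eq_of_beq_eq_true h1.2⟩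

theorem level_fast
    (hrig : ∀ σ τ : Equiv.Perm (Fin 4060), σ ∈ AutP → τ ∈ AutP →
      (∀ k < 9, ∀ hp : g13 rbP k < 4060,
        (σ ⟨g13 rbP k, hp⟩).val = (τ ⟨g13 rbP k, hp⟩).val) → σ = τ)
    (P Q : Subgroup (Equiv.Perm (Fin 4060))) (hPA : P ≤ AutP) (hQP : Q ≤ P)
    (c : ℕ) (hc : c < 4060) (hQc : ∀ q ∈ Q, q ⟨c, hc⟩ = ⟨c, hc⟩)
    (s1 s2 : Equiv.Perm (Fin 4060)) (hP : P = Subgroup.closure {s1, s2})
    (T1 T2 : ℕ) (hT1 : ∀ x : Fin 4060, (s1 x).val = g13 T1 x.val)
    (hT2 : ∀ x : Fin 4060, (s2 x).val = g13 T2 x.val)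
    (evP evQ : ℕ → ℕ → ℕ)
    (hevP : ∀ w, ∃ g ∈ P, ∀ x : Fin 4060, (g x).val = evP w x.val)
    (hemp : ∀ w, Nat.land w 255 = 0 → ∀ x, evP w x = x)
    (hevQ : ∀ w, ∃ q ∈ Q, ∀ x : Fin 4060, (q x).val = evQ w x.val)
    (n : ℕ) (orbF posF wdF cert1F cert2F : ℕ → ℕ)
    (htr : ∀ i < n, evP (wdF i) c = orbF i ∧ posF (orbF i) = i)
    (hc0 : posF c < n ∧ Nat.land (wdF (posF c)) 255 = 0)
    (hc1 : ∀ i < n, lvlStep n posF evP evQ wdF cert1F T1 (g13 T1 (orbF i)) i = true)
    (hc2 : ∀ i < n, lvlStep n posF evP evQ wdF cert2F T2 (g13 T2 (orbF i)) i = true) :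
    Nat.card P = n * Nat.card Q ∧ (∀ g ∈ P, ∃ i < n, (g ⟨c, hc⟩).val = orbF i) ∧
      (∀ g ∈ P, g ⟨c, hc⟩ = ⟨c, hc⟩ → g ∈ Q) := by
  choose u hu hu' using hevP
  choose qf hq hq' using hevQ
  have hs1 : s1 ∈ P := by
    rw [hP]
    exact Subgroup.subset_closure (Set.mem_insert _ _)
  have hs2 : s2 ∈ P := by
    rw [hP]
    exact Subgroup.subset_closure (Set.mem_insert_of_mem _ rfl)
  have key : ∀ (s : Equiv.Perm (Fin 4060)) (T : ℕ) (certF : ℕ → ℕ), s ∈ P →
      (∀ x : Fin 4060, (s x).val = g13 T x.val) →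
      (∀ i < n, lvlStep n posF evP evQ wdF certF T (g13 T (orbF i)) i = true) →
      ∀ i < n, ∃ j < n, ∃ q ∈ Q, s * u (wdF i) = u (wdF j) * q := by
    intro s T certF hs hT hchk i hi
    have h := hchk i hi
    rw [lvlStep, band_iff, allB_iff] at h
    obtain ⟨h1, h2⟩ := h
    refine ⟨posF (g13 T (orbF i)), Nat.le_of_ble_eq_true h1, qf (certF i), hq _, ?_⟩
    apply hrig
    · exact hPA (P.mul_mem hs (hu _))
    · exact hPA (P.mul_mem (hu _) (hQP (hq _)))
    · intro k hk hp
      rw [Equiv.Perm.mul_apply, Equiv.Perm.mul_apply, hT, hu', hu', hq']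
      exact Nat.eq_of_beq_eq_true (h2 k hk)
  have hone : u (wdF (posF c)) = 1 := by
    apply Equiv.ext
    intro x
    apply Fin.ext
    rw [hu', hemp _ hc0.2]
    rfl
  have hinj : ∀ i < n, ∀ j < n, u (wdF i) ⟨c, hc⟩ = u (wdF j) ⟨c, hc⟩ → i = j := by
    intro i hi j hj h
    have h3 : (u (wdF i) ⟨c, hc⟩).val = (u (wdF j) ⟨c, hc⟩).val := by rw [h]
    rw [hu', hu', (htr i hi).1, (htr j hj).1] at h3
    have h4 := (htr i hi).2
    rw [h3, (htr j hj).2] at h4
    exact h4.symm
  have hlc := level_card P Q {s1, s2} hP hQP ⟨c, hc⟩ hQc n (fun i => u (wdF i))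
    (fun i _ => hu _) hinj ⟨posF c, hc0.1, hone⟩ (by
      rintro s (rfl | rfl) i hi
      · exact key s T1 cert1F hs1 hT1 hc1 i hi
      · exact key s T2 cert2F hs2 hT2 hc2 i hi)
  refine ⟨hlc.1, ?_, ?_⟩
  · intro g hg
    obtain ⟨i, hi, q, hq1, rfl⟩ := hlc.2 g hg
    refine ⟨i, hi, ?_⟩
    rw [Equiv.Perm.mul_apply, hQc q hq1, hu']
    exact (htr i hi).1
  · intro g hg hgc
    obtain ⟨i, hi, q, hq1, rfl⟩ := hlc.2 g hg
    rw [Equiv.Perm.mul_apply, hQc q hq1] at hgc
    have h5 : u (wdF i) ⟨c, hc⟩ = u (wdF (posF c)) ⟨c, hc⟩ := by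
      rw [hgc, hone]
      rfl
    have h6 : i = posF c := hinj i hi (posF c) hc0.1 h5
    rw [h6, hone, one_mul]
    exact hq1

/-! ### Further certificates -/

/-- The letter with table `T` is the word `w`. -/
def wordChk (T : ℕ) (ev : ℕ → ℕ → ℕ) (w : ℕ) : Bool :=
  allB 4060 (fun x => Nat.beq (g13 T x) (ev w x))

theorem gperm_eq_word (c : ℕ) (hc : c < 28) (β : ℕ) (ev : ℕ → ℕ → ℕ)
    (hev : ∀ w x, ev w x = evalW (wordOf β w) x) (w : ℕ)
    (h : wordChk (tabN c) ev w = true) : gperm c = wperm (wordOf β w) := by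
  apply Equiv.ext
  intro x
  apply Fin.ext
  rw [gperm_tab c hc, wperm_apply, ← hev]
  exact Nat.eq_of_beq_eq_true ((allB_iff _ _).mp h x.val x.isLt)

/-- Iteration of a table. -/
def itN (T n x : ℕ) : ℕ := Nat.rec x (fun _ acc => g13 T acc) n

/-- The letter with table `T` has order dividing `n`. -/
def ordChk (T n : ℕ) : Bool := allB 4060 (fun x => Nat.beq (itN T n x) x)

theorem gperm_pow_of_ordChk (c : ℕ) (hc : c < 28) (n : ℕ) (h : ordChk (tabN c) n = true) :
    gperm c ^ n = 1 := by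
  have h1 : ∀ (k : ℕ) (x : Fin 4060), ((gperm c ^ k) x).val = itN (tabN c) k x.val := by
    intro k
    induction k with
    | zero =>
      intro x
      rw [pow_zero]
      rfl
    | succ k ih =>
      intro x
      rw [pow_succ', Equiv.Perm.mul_apply, gperm_tab c hc, ih]
      rfl
  apply Equiv.ext
  intro x
  apply Fin.ext
  rw [h1]
  exact Nat.eq_of_beq_eq_true ((allB_iff _ _).mp h x.val x.isLt)

/-- The number of `x < n` with `f x = i`. -/
def cntN (f : ℕ → ℕ) (n i : ℕ) : ℕ :=
  Nat.rec 0 (fun x acc => Nat.add acc (Bool.rec 0 1 (Nat.beq (f x) i))) n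

theorem cntN_eq (f : ℕ → ℕ) (n i : ℕ) :
    cntN f n i = ∑ x ∈ Finset.range n, if f x = i then 1 else 0 := by
  induction n with
  | zero => rfl
  | succ n ih =>
    rw [Finset.sum_range_succ, ← ih]
    show Nat.add (cntN f n i) (Bool.rec 0 1 (Nat.beq (f n) i)) = _
    by_cases h : f n = i
    · rw [if_pos h, h, Nat.beq_refl]
      rfl
    · rw [if_neg h]
      have h1 : Nat.beq (f n) i = false := by
        cases hb : Nat.beq (f n) i with
        | false => rfl
        | true => exact absurd (Nat.eq_of_beq_eq_true hb) h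
      rw [h1]
      rfl

theorem grp_fix (a b : ℕ) (c : Fin 4060) (ha : gperm a c = c) (hb : gperm b c = c) :
    ∀ q ∈ grp [a, b], q c = c := by
  have hle : grp [a, b] ≤ MulAction.stabilizer (Equiv.Perm (Fin 4060)) c := by
    rw [grp_pair, Subgroup.closure_le]
    rintro g (rfl | rfl)
    · exact ha
    · exact hb
  intro q hq
  exact hle hq

/-- The letter with table `T` fixes the point `c`. -/
def fixChk (T c : ℕ) : Bool := Nat.beq (g13 T c) c

theorem gperm_fix (a : ℕ) (ha : a < 28) (c : ℕ) (hc : c < 4060) (h : fixChk (tabN a) c = true) :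
    gperm a ⟨c, hc⟩ = ⟨c, hc⟩ := by
  apply Fin.ext
  rw [gperm_tab a ha]
  exact Nat.eq_of_beq_eq_true h

/-- The certificates of a level of the chain G, in three parts of 32 bits. -/
def g96 (T i : ℕ) : ℕ :=
  Nat.land (Nat.shiftRight T (Nat.mul 96 i)) 79228162514264337593543950335

/-- The certificates of a level, in two parts of 32 bits. -/
def g64 (T i : ℕ) : ℕ := Nat.land (Nat.shiftRight T (Nat.mul 64 i)) 18446744073709551615

/-- The evaluation of a certificate of the first level of the chain G. -/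
def evQ0 (c x : ℕ) : ℕ := ev1 (g32 c 0) (ev2 (g32 c 1) (ev3 (g32 c 2) x))

/-- The evaluation of a certificate of the second level of the chain G. -/
def evQ1 (c x : ℕ) : ℕ := ev2 (g32 c 0) (ev3 (g32 c 1) x)

/-- The evaluation of a certificate of the first level of the chain T. -/
def evQ4 (c x : ℕ) : ℕ := ev5 (g32 c 0) (ev6 (g32 c 1) x)

/-! ### The classes of the point stabiliser -/

/-- The class of a point under the point stabiliser. -/
def gclsF (x : ℕ) : ℕ := g3 gclsP x

/-- The word of each point moves the representative of its class to the point, and there are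
three classes. -/
def gclsChk (lo len : ℕ) : Bool :=
  allB len (fun i => band (Nat.ble (gclsF (Nat.add lo i)) 2)
    (Nat.beq (ev1 (g32 gcwP (Nat.add lo i)) (g13 grepP (gclsF (Nat.add lo i)))) (Nat.add lo i)))

theorem gclsChk_spec (lo len : ℕ) (h : gclsChk lo len = true) (x : ℕ) (h1 : lo ≤ x)
    (h2 : x < lo + len) : gclsF x < 3 ∧ ev1 (g32 gcwP x) (g13 grepP (gclsF x)) = x := by
  have h3 := (allB_iff _ _).mp h (x - lo) (by omega)
  have h5 : Nat.add lo (x - lo) = x := by
    show lo + (x - lo) = x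
    omega
  rw [h5, band_iff] at h3
  exact ⟨Nat.lt_succ_of_le (Nat.le_of_ble_eq_true h3.1), Nat.eq_of_beq_eq_true h3.2⟩

/-- The class of a point of the orbit `Ω` under the second group of the chain T. -/
def tclsF (x : ℕ) : ℕ := g3 tclsP x

/-- The point number `i` of the orbit `Ω`. -/
def omF (i : ℕ) : ℕ := g13 orbT0P i

/-- The word of each point of `Ω` moves the representative of its class to the point, and there
are five classes. -/
def tclsChk (lo len : ℕ) : Bool :=
  allB len (fun i => band (Nat.ble (tclsF (omF (Nat.add lo i))) 4)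
    (Nat.beq (ev5 (g32 tcwP (omF (Nat.add lo i))) (g13 trepP (tclsF (omF (Nat.add lo i)))))
      (omF (Nat.add lo i))))

theorem tclsChk_spec (lo len : ℕ) (h : tclsChk lo len = true) (i : ℕ) (h1 : lo ≤ i)
    (h2 : i < lo + len) : tclsF (omF i) < 5 ∧
      ev5 (g32 tcwP (omF i)) (g13 trepP (tclsF (omF i))) = omF i := by
  have h3 := (allB_iff _ _).mp h (i - lo) (by omega)
  have h5 : Nat.add lo (i - lo) = i := by
    show lo + (i - lo) = i
    omega
  rw [h5, band_iff] at h3
  exact ⟨Nat.lt_succ_of_le (Nat.le_of_ble_eq_true h3.1), Nat.eq_of_beq_eq_true h3.2⟩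

end Cfsg.Agent.Lib.Helper9.Ru
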