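import Mathlib
import Cfsg.Agent.Lib.Helper9.RuBase

set_option autoImplicit false

namespace Cfsg.Agent.Lib.Helper9.Ru


/-! ### The two generators are automorphisms of the graph -/

set_option maxRecDepth 1000000 in
theorem aut0_v : bvalid bn0P = true := by decide +kernel

set_option maxRecDepth 1000000 in
theorem aut0_p : bposChk bn0P t0 = true := by decide +kernel

set_option maxRecDepth 1000000 in
theorem aut0_0 : autChk bn0P t0 0 1015 = true := by decide +kernel

set_option maxRecDepth 1000000 in
theorem aut0_1 : autChk bn0P t0 1015 1015 = true := by decide +kernel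

set_option maxRecDepth 1000000 in
theorem aut0_2 : autChk bn0P t0 2030 1015 = true := by decide +kernel

set_option maxRecDepth 1000000 in
theorem aut0_3 : autChk bn0P t0 3045 1015 = true := by decide +kernel

theorem aut0_r (i : ℕ) (hi : i < 4060) : benes bn0P 23 (rowM i) = rowM (g13 t0 i) := by
  rcases Nat.lt_or_ge i 1015 with h1 | h1
  · exact autChk_spec _ _ _ _ aut0_0 i (Nat.zero_le _) (by omega)
  rcases Nat.lt_or_ge i 2030 with h2 | h2
  · exact autChk_spec _ _ _ _ aut0_1 i h1 (by omega)
  rcases Nat.lt_or_ge i 3045 with h3 | h3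
  · exact autChk_spec _ _ _ _ aut0_2 i h2 (by omega)
  · exact autChk_spec _ _ _ _ aut0_3 i h3 (by omega)

theorem aut0 : gperm 0 ∈ AutP :=
  gperm_mem_AutP 0 (by norm_num) bn0P aut0_v aut0_p aut0_r

set_option maxRecDepth 1000000 in
theorem aut2_v : bvalid bn2P = true := by decide +kernel

set_option maxRecDepth 1000000 in
theorem aut2_p : bposChk bn2P t2 = true := by decide +kernel

set_option maxRecDepth 1000000 in
theorem aut2_0 : autChk bn2P t2 0 1015 = true := by decide +kernel

set_option maxRecDepth 1000000 in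
theorem aut2_1 : autChk bn2P t2 1015 1015 = true := by decide +kernel

set_option maxRecDepth 1000000 in
theorem aut2_2 : autChk bn2P t2 2030 1015 = true := by decide +kernel

set_option maxRecDepth 1000000 in
theorem aut2_3 : autChk bn2P t2 3045 1015 = true := by decide +kernel

theorem aut2_r (i : ℕ) (hi : i < 4060) : benes bn2P 23 (rowM i) = rowM (g13 t2 i) := by
  rcases Nat.lt_or_ge i 1015 with h1 | h1
  · exact autChk_spec _ _ _ _ aut2_0 i (Nat.zero_le _) (by omega)
  rcases Nat.lt_or_ge i 2030 with h2 | h2
  · exact autChk_spec _ _ _ _ aut2_1 i h1 (by omega)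
  rcases Nat.lt_or_ge i 3045 with h3 | h3
  · exact autChk_spec _ _ _ _ aut2_2 i h2 (by omega)
  · exact autChk_spec _ _ _ _ aut2_3 i h3 (by omega)

theorem aut2 : gperm 2 ∈ AutP :=
  gperm_mem_AutP 2 (by norm_num) bn2P aut2_v aut2_p aut2_r


end Cfsg.Agent.Lib.Helper9.Ru
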