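import Mathlib
import Cfsg.Agent.Lib.Helper9.RuBase

set_option autoImplicit false

namespace Cfsg.Agent.Lib.Helper9.Ru


/-! ### Schreier certificates of the first level, second generator -/

set_option maxRecDepth 1000000 in
theorem lvlG0b_0 : lvlChk 4060 (fun i => i) (fun y => y) ev0 evQ0
    (fun i => g32 wdG0P i) (fun i => g96 cG0bP i) t2 0 1015 = true := by
  decide +kernel

set_option maxRecDepth 1000000 in
theorem lvlG0b_1 : lvlChk 4060 (fun i => i) (fun y => y) ev0 evQ0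
    (fun i => g32 wdG0P i) (fun i => g96 cG0bP i) t2 1015 1015 = true := by
  decide +kernel

set_option maxRecDepth 1000000 in
theorem lvlG0b_2 : lvlChk 4060 (fun i => i) (fun y => y) ev0 evQ0
    (fun i => g32 wdG0P i) (fun i => g96 cG0bP i) t2 2030 1015 = true := by
  decide +kernel

set_option maxRecDepth 1000000 in
theorem lvlG0b_3 : lvlChk 4060 (fun i => i) (fun y => y) ev0 evQ0
    (fun i => g32 wdG0P i) (fun i => g96 cG0bP i) t2 3045 1015 = true := by
  decide +kernel

theorem lvlG0b (i : ℕ) (hi : i < 4060) : lvlStep 4060 (fun y => y) ev0 evQ0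
    (fun i => g32 wdG0P i) (fun i => g96 cG0bP i) t2 (g13 t2 ((fun i => i) i)) i = true := by
  rcases Nat.lt_or_ge i 1015 with h1 | h1
  · exact lvlChk_spec _ _ _ _ _ _ _ _ _ _ lvlG0b_0 i (Nat.zero_le _) (by omega)
  rcases Nat.lt_or_ge i 2030 with h2 | h2
  · exact lvlChk_spec _ _ _ _ _ _ _ _ _ _ lvlG0b_1 i h1 (by omega)
  rcases Nat.lt_or_ge i 3045 with h3 | h3
  · exact lvlChk_spec _ _ _ _ _ _ _ _ _ _ lvlG0b_2 i h2 (by omega)
  · exact lvlChk_spec _ _ _ _ _ _ _ _ _ _ lvlG0b_3 i h3 (by omega)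


end Cfsg.Agent.Lib.Helper9.Ru
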