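import Mathlib
import Cfsg.Agent.Lib.Helper9.RuBase
import Cfsg.Agent.Lib.Helper9.RuCertA
import Cfsg.Agent.Lib.Helper9.RuCertB
import Cfsg.Agent.Lib.Helper9.RuCertC
import Cfsg.Agent.Lib.Helper9.RuCertD
import Cfsg.Agent.Lib.Helper9.RuCertE
import Cfsg.Agent.Lib.Helper9.RuCertF
import Cfsg.Agent.Lib.Helper9.RuCertG

set_option autoImplicit false

namespace Cfsg.Agent.Lib.Helper9.Ru

/-! ### The chains of subgroups -/

theorem grp_le_of_words (a b : ℕ) (ha : a < 28) (hb : b < 28) (β : ℕ) (ev : ℕ → ℕ → ℕ)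
    (hev : ∀ w x, ev w x = evalW (wordOf β w) x) (wa wb : ℕ)
    (h1 : wordChk (tabN a) ev wa = true) (h2 : wordChk (tabN b) ev wb = true) :
    grp [a, b] ≤ grp [4 * β, 4 * β + 2] := by
  rw [grp_pair a b, Subgroup.closure_le]
  rintro g (rfl | rfl)
  · rw [gperm_eq_word a ha β ev hev wa h1]
    exact wperm_decode_mem β _ _
  · rw [gperm_eq_word b hb β ev hev wb h2]
    exact wperm_decode_mem β _ _

theorem K_le : grp [4, 6] ≤ grp [0, 2] :=
  grp_le_of_words 4 6 (by norm_num) (by norm_num) 0 ev0 ev0_eq gwG1a gwG1b w4 w6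

theorem K2_le : grp [8, 10] ≤ grp [4, 6] :=
  grp_le_of_words 8 10 (by norm_num) (by norm_num) 1 ev1 ev1_eq gwG2a gwG2b w8 w10

theorem K3_le : grp [12, 14] ≤ grp [8, 10] :=
  grp_le_of_words 12 14 (by norm_num) (by norm_num) 2 ev2 ev2_eq gwG3a gwG3b w12 w14

theorem T_le : grp [16, 18] ≤ grp [4, 6] :=
  grp_le_of_words 16 18 (by norm_num) (by norm_num) 1 ev1 ev1_eq gwT0a gwT0b w16 w18

theorem T1_le : grp [20, 22] ≤ grp [16, 18] :=
  grp_le_of_words 20 22 (by norm_num) (by norm_num) 4 ev4 ev4_eq gwT1a gwT1b w20 w22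

theorem T2_le : grp [24, 26] ≤ grp [20, 22] :=
  grp_le_of_words 24 26 (by norm_num) (by norm_num) 5 ev5 ev5_eq gwT2a gwT2b w24 w26

theorem G_le_AutP : grp [0, 2] ≤ AutP := by
  apply grp_le_AutP
  intro s hs
  simp only [List.mem_cons, List.not_mem_nil, or_false] at hs
  rcases hs with rfl | rfl
  · exact aut0
  · exact aut2

theorem K_le_AutP : grp [4, 6] ≤ AutP := K_le.trans G_le_AutP

theorem T_le_AutP : grp [16, 18] ≤ AutP := T_le.trans K_le_AutP

/-- The point `2305`. -/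
def pT : Fin 4060 := ⟨2305, by norm_num⟩

/-- The point `2306`. -/
def pA : Fin 4060 := ⟨2306, by norm_num⟩

/-- The point `2308`. -/
def pB : Fin 4060 := ⟨2308, by norm_num⟩

/-- The point `1`. -/
def pC : Fin 4060 := ⟨1, by norm_num⟩

/-- The point `5`. -/
def pD : Fin 4060 := ⟨5, by norm_num⟩

theorem K_fix0 : ∀ q ∈ grp [4, 6], q (0 : Fin 4060) = 0 :=
  grp_fix 4 6 0 (gperm_fix 4 (by norm_num) 0 (by norm_num) fx4)
    (gperm_fix 6 (by norm_num) 0 (by norm_num) fx6)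

theorem K2_fix : ∀ q ∈ grp [8, 10], q pT = pT :=
  grp_fix 8 10 pT (gperm_fix 8 (by norm_num) 2305 (by norm_num) fx8)
    (gperm_fix 10 (by norm_num) 2305 (by norm_num) fx10)

theorem K3_fix : ∀ q ∈ grp [12, 14], q pC = pC :=
  grp_fix 12 14 pC (gperm_fix 12 (by norm_num) 1 (by norm_num) fx12)
    (gperm_fix 14 (by norm_num) 1 (by norm_num) fx14)

theorem T1_fix : ∀ q ∈ grp [20, 22], q pT = pT :=
  grp_fix 20 22 pT (gperm_fix 20 (by norm_num) 2305 (by norm_num) fx20)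
    (gperm_fix 22 (by norm_num) 2305 (by norm_num) fx22)

theorem T2_fix : ∀ q ∈ grp [24, 26], q pA = pA :=
  grp_fix 24 26 pA (gperm_fix 24 (by norm_num) 2306 (by norm_num) fx24)
    (gperm_fix 26 (by norm_num) 2306 (by norm_num) fx26)

theorem bot_fix (c : Fin 4060) : ∀ q ∈ (⊥ : Subgroup (Equiv.Perm (Fin 4060))), q c = c := by
  intro q hq
  rw [Subgroup.mem_bot] at hq
  rw [hq]
  rfl

theorem evQ1_perm (w : ℕ) : ∃ q ∈ grp [8, 10], ∀ x : Fin 4060, (q x).val = evQ1 w x.val := by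
  refine ⟨wperm (wordOf 2 (g32 w 0)) * wperm (wordOf 3 (g32 w 1)),
    (grp _).mul_mem (word2_mem _) (K3_le (word3_mem _)), ?_⟩
  intro x
  rw [Equiv.Perm.mul_apply, wperm_apply, wperm_apply, ← ev3_eq, ← ev2_eq]
  rfl

theorem evQ0_perm (w : ℕ) : ∃ q ∈ grp [4, 6], ∀ x : Fin 4060, (q x).val = evQ0 w x.val := by
  refine ⟨wperm (wordOf 1 (g32 w 0)) * (wperm (wordOf 2 (g32 w 1)) * wperm (wordOf 3 (g32 w 2))),
    (grp _).mul_mem (word1_mem _)
      ((grp _).mul_mem (K2_le (word2_mem _)) (K2_le (K3_le (word3_mem _)))), ?_⟩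
  intro x
  rw [Equiv.Perm.mul_apply, Equiv.Perm.mul_apply, wperm_apply, wperm_apply, wperm_apply,
    ← ev3_eq, ← ev2_eq, ← ev1_eq]
  rfl

theorem evQ4_perm (w : ℕ) : ∃ q ∈ grp [20, 22], ∀ x : Fin 4060, (q x).val = evQ4 w x.val := by
  refine ⟨wperm (wordOf 5 (g32 w 0)) * wperm (wordOf 6 (g32 w 1)),
    (grp _).mul_mem (word5_mem _) (T2_le (word6_mem _)), ?_⟩
  intro x
  rw [Equiv.Perm.mul_apply, wperm_apply, wperm_apply, ← ev6_eq, ← ev5_eq]
  rfl

/-! ### The levels of the chains and the orders -/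

theorem card_K3 : Nat.card (grp [12, 14]) = 16 := by
  have h0 := (band_iff _ _).mp bwG3
  have h := (level_fast rigid (grp [12, 14]) ⊥ (K3_le.trans (K2_le.trans K_le_AutP)) bot_le 5
    (by norm_num) (bot_fix _)
    (gperm 12) (gperm 14) (grp_pair 12 14) t12 t14 (gperm_tab 12 (by norm_num))
    (gperm_tab 14 (by norm_num)) ev3 (fun _ x => x) ev3_perm ev3_empty
    (fun _ => ⟨1, Subgroup.one_mem _, fun _ => rfl⟩)
    16 (fun i => g13 orbG3P i) (fun y => g13 posG3P y) (fun i => g32 wdG3P i) (fun _ => 0)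
    (fun _ => 0)
    (trChk_spec _ _ _ _ _ _ trG3) ⟨Nat.le_of_ble_eq_true h0.1, Nat.eq_of_beq_eq_true h0.2⟩
    lvlG3a lvlG3b).1
  rw [h, Subgroup.card_bot]

theorem card_K2 : Nat.card (grp [8, 10]) = 20480 := by
  have h0 := (band_iff _ _).mp bwG2
  have h := (level_fast rigid (grp [8, 10]) (grp [12, 14]) (K2_le.trans K_le_AutP) K3_le 1
    (by norm_num) K3_fix
    (gperm 8) (gperm 10) (grp_pair 8 10) t8 t10 (gperm_tab 8 (by norm_num))
    (gperm_tab 10 (by norm_num)) ev2 ev3 ev2_perm ev2_empty ev3_perm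
    1280 (fun i => g13 orbG2P i) (fun y => g13 posG2P y) (fun i => g32 wdG2P i)
    (fun i => g32 cG2aP i) (fun i => g32 cG2bP i)
    (trChk_spec _ _ _ _ _ _ trG2) ⟨Nat.le_of_ble_eq_true h0.1, Nat.eq_of_beq_eq_true h0.2⟩
    lvlG2a lvlG2b).1
  rw [h, card_K3]

theorem card_K : Nat.card (grp [4, 6]) = 35942400 := by
  have h0 := (band_iff _ _).mp bwG1
  have h := (level_fast rigid (grp [4, 6]) (grp [8, 10]) K_le_AutP K2_le 2305
    (by norm_num) K2_fix
    (gperm 4) (gperm 6) (grp_pair 4 6) t4 t6 (gperm_tab 4 (by norm_num))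
    (gperm_tab 6 (by norm_num)) ev1 evQ1 ev1_perm ev1_empty evQ1_perm
    1755 (fun i => g13 orbG1P i) (fun y => g13 posG1P y) (fun i => g32 wdG1P i)
    (fun i => g64 cG1aP i) (fun i => g64 cG1bP i)
    (trChk_spec _ _ _ _ _ _ trG1) ⟨Nat.le_of_ble_eq_true h0.1, Nat.eq_of_beq_eq_true h0.2⟩
    lvlG1a lvlG1b).1
  rw [h, card_K2]

theorem card_G : Nat.card (grp [0, 2]) = 145926144000 := by
  have h0 := (band_iff _ _).mp bwG0
  have h := (level_fast rigid (grp [0, 2]) (grp [4, 6]) G_le_AutP K_le 0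
    (by norm_num) K_fix0
    (gperm 0) (gperm 2) (grp_pair 0 2) t0 t2 (gperm_tab 0 (by norm_num))
    (gperm_tab 2 (by norm_num)) ev0 evQ0 ev0_perm ev0_empty evQ0_perm
    4060 (fun i => i) (fun y => y) (fun i => g32 wdG0P i)
    (fun i => g96 cG0aP i) (fun i => g96 cG0bP i)
    (trChk_spec _ _ _ _ _ _ trG0) ⟨Nat.le_of_ble_eq_true h0.1, Nat.eq_of_beq_eq_true h0.2⟩
    lvlG0a lvlG0b).1
  rw [h, card_K]

theorem lev_T2 : Nat.card (grp [24, 26]) = 10 * Nat.card (⊥ : Subgroup (Equiv.Perm (Fin 4060))) ∧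
    (∀ g ∈ grp [24, 26], ∃ i < 10, (g pB).val = g13 orbT2P i) ∧
    (∀ g ∈ grp [24, 26], g pB = pB → g ∈ (⊥ : Subgroup (Equiv.Perm (Fin 4060)))) := by
  have h0 := (band_iff _ _).mp bwT2
  exact level_fast rigid (grp [24, 26]) ⊥ (T2_le.trans (T1_le.trans T_le_AutP)) bot_le 2308
    (by norm_num) (bot_fix _)
    (gperm 24) (gperm 26) (grp_pair 24 26) t24 t26 (gperm_tab 24 (by norm_num))
    (gperm_tab 26 (by norm_num)) ev6 (fun _ x => x) ev6_perm ev6_empty
    (fun _ => ⟨1, Subgroup.one_mem _, fun _ => rfl⟩)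
    10 (fun i => g13 orbT2P i) (fun y => g13 posT2P y) (fun i => g32 wdT2P i) (fun _ => 0)
    (fun _ => 0)
    (trChk_spec _ _ _ _ _ _ trT2) ⟨Nat.le_of_ble_eq_true h0.1, Nat.eq_of_beq_eq_true h0.2⟩
    lvlT2a lvlT2b

theorem lev_T1 : Nat.card (grp [20, 22]) = 1024 * Nat.card (grp [24, 26]) ∧
    (∀ g ∈ grp [20, 22], ∃ i < 1024, (g pA).val = g13 orbT1P i) ∧
    (∀ g ∈ grp [20, 22], g pA = pA → g ∈ grp [24, 26]) := by
  have h0 := (band_iff _ _).mp bwT1
  exact level_fast rigid (grp [20, 22]) (grp [24, 26]) (T1_le.trans T_le_AutP) T2_le 2306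
    (by norm_num) T2_fix
    (gperm 20) (gperm 22) (grp_pair 20 22) t20 t22 (gperm_tab 20 (by norm_num))
    (gperm_tab 22 (by norm_num)) ev5 ev6 ev5_perm ev5_empty ev6_perm
    1024 (fun i => g13 orbT1P i) (fun y => g13 posT1P y) (fun i => g32 wdT1P i)
    (fun i => g32 cT1aP i) (fun i => g32 cT1bP i)
    (trChk_spec _ _ _ _ _ _ trT1) ⟨Nat.le_of_ble_eq_true h0.1, Nat.eq_of_beq_eq_true h0.2⟩
    lvlT1a lvlT1b

theorem lev_T0 : Nat.card (grp [16, 18]) = 1755 * Nat.card (grp [20, 22]) ∧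
    (∀ g ∈ grp [16, 18], ∃ i < 1755, (g pT).val = omF i) ∧
    (∀ g ∈ grp [16, 18], g pT = pT → g ∈ grp [20, 22]) := by
  have h0 := (band_iff _ _).mp bwT0
  exact level_fast rigid (grp [16, 18]) (grp [20, 22]) T_le_AutP T1_le 2305
    (by norm_num) T1_fix
    (gperm 16) (gperm 18) (grp_pair 16 18) t16 t18 (gperm_tab 16 (by norm_num))
    (gperm_tab 18 (by norm_num)) ev4 evQ4 ev4_perm ev4_empty evQ4_perm
    1755 (fun i => g13 orbT0P i) (fun y => g13 posT0P y) (fun i => g32 wdT0P i)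
    (fun i => g64 cT0aP i) (fun i => g64 cT0bP i)
    (trChk_spec _ _ _ _ _ _ trT0) ⟨Nat.le_of_ble_eq_true h0.1, Nat.eq_of_beq_eq_true h0.2⟩
    lvlT0a lvlT0b

theorem card_T : Nat.card (grp [16, 18]) = 17971200 := by
  rw [lev_T0.1, lev_T1.1, lev_T2.1, Subgroup.card_bot]

/-! ### Transitivity and the classes of the point stabiliser -/

theorem G_trans (i : Fin 4060) : ∃ g ∈ grp [0, 2], g 0 = i := by
  refine ⟨wperm (wordOf 0 (g32 wdG0P i.val)), word0_mem _, Fin.ext ?_⟩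
  rw [wperm_apply, ← ev0_eq]
  exact (trChk_spec _ _ _ _ _ _ trG0 i.val i.isLt).1

instance pretrans_G : MulAction.IsPretransitive ↥(grp [0, 2]) (Fin 4060) := by
  refine ⟨fun x y => ?_⟩
  obtain ⟨g, hg, hgx⟩ := G_trans x
  obtain ⟨h, hh, hhy⟩ := G_trans y
  refine ⟨⟨h * g⁻¹, (grp [0, 2]).mul_mem hh ((grp [0, 2]).inv_mem hg)⟩, ?_⟩
  show (h * g⁻¹) x = y
  rw [Equiv.Perm.mul_apply, ← hgx, show g⁻¹ (g 0) = 0 from Equiv.symm_apply_apply g 0, hhy]

theorem grep_lt (i : ℕ) (hi : i < 3) : g13 grepP i < 4060 :=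
  Nat.lt_succ_of_le (Nat.le_of_ble_eq_true ((allB_iff _ _).mp grep_ok i hi))

theorem gcls_lt (x : ℕ) (hx : x < 4060) : gclsF x < 3 :=
  (gclsChk_spec 0 4060 gcls_ok x (Nat.zero_le _) (by omega)).1

theorem gcls_word (x : Fin 4060) : ∃ k ∈ grp [4, 6], ∀ r : Fin 4060,
    r.val = g13 grepP (gclsF x.val) → k r = x := by
  refine ⟨wperm (wordOf 1 (g32 gcwP x.val)), word1_mem _, ?_⟩
  intro r hr
  apply Fin.ext
  rw [wperm_apply, ← ev1_eq, hr]
  exact (gclsChk_spec 0 4060 gcls_ok x.val (Nat.zero_le _) (by have := x.isLt; omega)).2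

/-- The number of points whose class satisfies `d`, in terms of the sizes of the classes. -/
theorem card_classes (cf : ℕ → ℕ) (n m : ℕ) (hlt : ∀ x < n, cf x < m) (d : ℕ → Prop)
    [DecidablePred d] :
    (∑ x ∈ Finset.range n, if d (cf x) then (1 : ℕ) else 0) =
      ∑ i ∈ Finset.range m, if d i then cntN cf n i else 0 := by
  have h1 : ∀ x ∈ Finset.range n, (if d (cf x) then (1 : ℕ) else 0) =
      ∑ i ∈ Finset.range m, if cf x = i then (if d i then (1 : ℕ) else 0) else 0 := by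
    intro x hx
    rw [Finset.sum_ite_eq, if_pos (Finset.mem_range.mpr (hlt x (Finset.mem_range.mp hx)))]
  have h2 : ∀ i, (∑ x ∈ Finset.range n, if cf x = i then (if d i then (1 : ℕ) else 0) else 0) =
      if d i then cntN cf n i else 0 := by
    intro i
    by_cases hd : d i
    · simp only [if_pos hd, cntN_eq]
    · simp only [if_neg hd, ite_self, Finset.sum_const_zero]
  rw [Finset.sum_congr rfl h1, Finset.sum_comm, Finset.sum_congr rfl (fun i _ => h2 i)]

theorem gcnt_vals : cntN gclsF 4060 0 = 1 ∧ cntN gclsF 4060 1 = 2304 ∧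
    cntN gclsF 4060 2 = 1755 := by
  have h := gcnt_ok
  rw [band_iff, band_iff] at h
  obtain ⟨h0, h1, h2⟩ := h
  have e0 := Nat.eq_of_beq_eq_true h0
  have e1 := Nat.eq_of_beq_eq_true h1
  have e2 := Nat.eq_of_beq_eq_true h2
  exact ⟨e0, e1, e2⟩

theorem gcard_classes (d : ℕ → Prop) [DecidablePred d] :
    (∑ x ∈ Finset.range 4060, if d (gclsF x) then (1 : ℕ) else 0) =
      (if d 0 then 1 else 0) + (if d 1 then 2304 else 0) + (if d 2 then 1755 else 0) := by
  rw [card_classes gclsF 4060 3 gcls_lt d]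
  obtain ⟨e0, e1, e2⟩ := gcnt_vals
  simp only [Finset.sum_range_succ, Finset.sum_range_zero, zero_add, e0, e1, e2]

theorem arith_G : ∀ b1 b2 : Bool,
    (1 + (if b1 = true then 2304 else 0) + (if b2 = true then 1755 else 0)) ∣ 4060 →
    (b1 = false ∧ b2 = false) ∨ (b1 = true ∧ b2 = true) := by
  intro b1 b2
  cases b1 <;> cases b2 <;> decide

/-! ### Simplicity -/

/-- A normal subgroup containing a Sylow `p`-subgroup contains every element of order
dividing `p`. -/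
theorem mem_of_pow_prime {G : Type*} [Group G] [Finite G] {p : ℕ} [Fact p.Prime]
    (N : Subgroup G) (hN : N.Normal) (Q : Sylow p G) (hQ : (Q : Subgroup G) ≤ N) (x : G)
    (hx : x ^ p = 1) : x ∈ N := by
  have hpg : IsPGroup p (Subgroup.zpowers x) := by
    rintro ⟨g, hg⟩
    obtain ⟨k, rfl⟩ := Subgroup.mem_zpowers_iff.mp hg
    refine ⟨1, Subtype.ext ?_⟩
    show (x ^ k) ^ p ^ 1 = 1
    rw [pow_one, ← zpow_natCast, ← zpow_mul, mul_comm, zpow_mul, zpow_natCast, hx, one_zpow]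
  obtain ⟨Q', hQ'⟩ := hpg.exists_le_sylow
  obtain ⟨g, hg⟩ := MulAction.exists_smul_eq G Q Q'
  have hz : x ∈ ((g • Q : Sylow p G) : Subgroup G) := by
    rw [hg]
    exact hQ' (Subgroup.mem_zpowers x)
  rw [Sylow.smul_def, Sylow.pointwise_smul_def, Subgroup.mem_smul_pointwise_iff_exists] at hz
  obtain ⟨s, hs, rfl⟩ := hz
  exact hN.conj_mem s (hQ hs) g

/-- A normal subgroup of order divisible by `p` of a group generated by two elements of order
`p`, whose order is not divisible by `p ^ 2`, is the whole group. -/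
theorem normal_eq_top (a b : ℕ) (p : ℕ) [Fact p.Prime] (ha : gperm a ^ p = 1)
    (hb : gperm b ^ p = 1) (hp2 : ¬ p ^ 2 ∣ Nat.card ↥(grp [a, b]))
    (N : Subgroup ↥(grp [a, b])) (hN : N.Normal) (hpN : p ∣ Nat.card N) : N = ⊤ := by
  have hp : p.Prime := Fact.out
  have hNpos : 0 < Nat.card N := Nat.card_pos
  have hGpos : 0 < Nat.card ↥(grp [a, b]) := Nat.card_pos
  have h1 : 1 ≤ (Nat.card N).factorization p :=
    (Nat.Prime.pow_dvd_iff_le_factorization hp hNpos.ne').mp (by rw [pow_one]; exact hpN)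
  have h2 : (Nat.card ↥(grp [a, b])).factorization p ≤ 1 := by
    by_contra hc
    exact hp2 ((Nat.Prime.pow_dvd_iff_le_factorization hp hGpos.ne').mpr (by omega))
  have h3 : (Nat.card N).factorization p ≤ (Nat.card ↥(grp [a, b])).factorization p :=
    (Nat.factorization_le_iff_dvd hNpos.ne' hGpos.ne').mpr (Subgroup.card_subgroup_dvd_card N) p
  obtain ⟨P⟩ : Nonempty (Sylow p ↥N) := inferInstance
  have hPcard : Nat.card ((P : Subgroup ↥N).map N.subtype) =
      p ^ (Nat.card ↥(grp [a, b])).factorization p := by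
    rw [Nat.card_congr ((P : Subgroup ↥N).equivMapOfInjective N.subtype
      N.subtype_injective).toEquiv.symm, Sylow.card_eq_multiplicity]
    congr 1
    omega
  have hQle : ((Sylow.ofCard ((P : Subgroup ↥N).map N.subtype) hPcard :
      Sylow p ↥(grp [a, b])) : Subgroup ↥(grp [a, b])) ≤ N := by
    rw [Sylow.coe_ofCard]
    exact Subgroup.map_subtype_le _
  have hgA : (⟨gperm a, gperm_mem_grp (by simp)⟩ : ↥(grp [a, b])) ∈ N :=
    mem_of_pow_prime N hN _ hQle _ (Subtype.ext ha)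
  have hgB : (⟨gperm b, gperm_mem_grp (by simp)⟩ : ↥(grp [a, b])) ∈ N :=
    mem_of_pow_prime N hN _ hQle _ (Subtype.ext hb)
  have hle : Subgroup.closure {gperm a, gperm b} ≤ N.map (grp [a, b]).subtype := by
    rw [Subgroup.closure_le]
    rintro σ (rfl | rfl)
    · exact ⟨⟨gperm a, gperm_mem_grp (by simp)⟩, hgA, rfl⟩
    · exact ⟨⟨gperm b, gperm_mem_grp (by simp)⟩, hgB, rfl⟩
  rw [eq_top_iff]
  rintro ⟨m, hm⟩ -
  have hm' : m ∈ Subgroup.closure {gperm a, gperm b} := by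
    rw [← grp_pair]
    exact hm
  obtain ⟨n, hn, hnm⟩ := hle hm'
  have : n = ⟨m, hm⟩ := Subtype.ext hnm
  rw [← this]
  exact hn

theorem fact29 : Fact (Nat.Prime 29) := ⟨by norm_num⟩

theorem fact13 : Fact (Nat.Prime 13) := ⟨by norm_num⟩

theorem g0_pow : gperm 0 ^ 29 = 1 := gperm_pow_of_ordChk 0 (by norm_num) 29 ord0

theorem g2_pow : gperm 2 ^ 29 = 1 := gperm_pow_of_ordChk 2 (by norm_num) 29 ord2

theorem g16_pow : gperm 16 ^ 13 = 1 := gperm_pow_of_ordChk 16 (by norm_num) 13 ord16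

theorem g18_pow : gperm 18 ^ 13 = 1 := gperm_pow_of_ordChk 18 (by norm_num) 13 ord18

theorem gcls_zero : gclsF (0 : Fin 4060).val = 0 := by
  have h := grep0
  rw [band_iff] at h
  exact Nat.eq_of_beq_eq_true h.2

theorem grep_zero : g13 grepP 0 = 0 := by
  have h := grep0
  rw [band_iff] at h
  exact Nat.eq_of_beq_eq_true h.1

theorem sum_fin_range (n : ℕ) (p : ℕ → Prop) [DecidablePred p] :
    (∑ w : Fin n, if p w.val then (1 : ℕ) else 0) =
      ∑ x ∈ Finset.range n, if p x then (1 : ℕ) else 0 :=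
  Fin.sum_univ_eq_sum_range (fun x => if p x then (1 : ℕ) else 0) n

theorem simple_G : IsSimpleGroup ↥(grp [0, 2]) := by
  have hcard := card_G
  have : Nontrivial ↥(grp [0, 2]) :=
    Finite.one_lt_card_iff_nontrivial.mp (by rw [hcard]; norm_num)
  have := fact29
  refine ⟨fun N hN => ?_⟩
  by_cases hbot : N = ⊥
  · exact Or.inl hbot
  right
  -- membership in the orbit
  have hmemO : ∀ y : Fin 4060, y ∈ MulAction.orbit N (0 : Fin 4060) ↔
      ∃ n : Equiv.Perm (Fin 4060), ∃ hn : n ∈ grp [0, 2],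
        (⟨n, hn⟩ : ↥(grp [0, 2])) ∈ N ∧ n 0 = y := by
    intro y
    constructor
    · rintro ⟨⟨⟨n, hn⟩, hnN⟩, rfl⟩
      exact ⟨n, hn, hnN, rfl⟩
    · rintro ⟨n, hn, hnN, rfl⟩
      exact ⟨⟨⟨n, hn⟩, hnN⟩, rfl⟩
  have h0O : (0 : Fin 4060) ∈ MulAction.orbit N (0 : Fin 4060) := MulAction.mem_orbit_self 0
  -- invariance under the stabiliser of 0
  have hinv : ∀ k ∈ grp [0, 2], k 0 = 0 → ∀ y ∈ MulAction.orbit N (0 : Fin 4060),
      k y ∈ MulAction.orbit N (0 : Fin 4060) := by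
    intro k hk hk0 y hy
    obtain ⟨n, hn, hnN, rfl⟩ := (hmemO y).mp hy
    refine (hmemO _).mpr ⟨k * n * k⁻¹,
      (grp [0, 2]).mul_mem ((grp [0, 2]).mul_mem hk hn) ((grp [0, 2]).inv_mem hk), ?_, ?_⟩
    · exact hN.conj_mem ⟨n, hn⟩ hnN ⟨k, hk⟩
    · have h1 : k⁻¹ 0 = 0 := Equiv.Perm.inv_eq_iff_eq.mpr hk0.symm
      rw [Equiv.Perm.mul_apply, Equiv.Perm.mul_apply, h1]
  -- the orbit is a union of classes
  have hcls : ∀ y w : Fin 4060, y ∈ MulAction.orbit N (0 : Fin 4060) →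
      gclsF w.val = gclsF y.val → w ∈ MulAction.orbit N (0 : Fin 4060) := by
    intro y w hy hc
    obtain ⟨k1, hk1, hk1'⟩ := gcls_word y
    obtain ⟨k2, hk2, hk2'⟩ := gcls_word w
    have e1 := hk1' ⟨g13 grepP (gclsF y.val), grep_lt _ (gcls_lt _ y.isLt)⟩ rfl
    have e2 := hk2' ⟨g13 grepP (gclsF y.val), grep_lt _ (gcls_lt _ y.isLt)⟩ (by rw [hc])
    have h1 := hinv (k2 * k1⁻¹)
      ((grp [0, 2]).mul_mem (K_le hk2) ((grp [0, 2]).inv_mem (K_le hk1)))
      (by rw [Equiv.Perm.mul_apply, Equiv.Perm.inv_eq_iff_eq.mpr (K_fix0 k1 hk1).symm,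
        K_fix0 k2 hk2]) y hy
    rw [Equiv.Perm.mul_apply, Equiv.Perm.inv_eq_iff_eq.mpr e1.symm, e2] at h1
    exact h1
  have hblock : MulAction.IsBlock ↥(grp [0, 2]) (MulAction.orbit N (0 : Fin 4060)) :=
    MulAction.IsBlock.orbit_of_normal 0
  have hdvd : (MulAction.orbit N (0 : Fin 4060)).ncard ∣ 4060 := by
    have h1 := MulAction.IsBlock.ncard_dvd_card hblock ⟨0, h0O⟩
    rw [Nat.card_fin] at h1
    exact h1
  classical
  -- the classes meeting the orbit
  have hOd : ∀ w : Fin 4060, w ∈ MulAction.orbit N (0 : Fin 4060) ↔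
      ∃ y ∈ MulAction.orbit N (0 : Fin 4060), gclsF y.val = gclsF w.val :=
    fun w => ⟨fun hw => ⟨w, hw, rfl⟩, fun ⟨y, hy, hc⟩ => hcls y w hy hc.symm⟩
  have hncard : (MulAction.orbit N (0 : Fin 4060)).ncard =
      ∑ x ∈ Finset.range 4060,
        if (∃ y ∈ MulAction.orbit N (0 : Fin 4060), gclsF y.val = gclsF x) then (1 : ℕ) else 0 := by
    have h1 : MulAction.orbit N (0 : Fin 4060) = ↑((Finset.univ : Finset (Fin 4060)).filter
        (fun w => ∃ y ∈ MulAction.orbit N (0 : Fin 4060), gclsF y.val = gclsF w.val)) := by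
      ext w
      rw [Finset.mem_coe, Finset.mem_filter]
      exact ⟨fun hw => ⟨Finset.mem_univ _, (hOd w).mp hw⟩, fun hw => (hOd w).mpr hw.2⟩
    exact (congrArg Set.ncard h1).trans ((Set.ncard_coe_finset _).trans
      ((Finset.card_filter _ _).trans
        (sum_fin_range 4060
          (fun x => ∃ y ∈ MulAction.orbit N (0 : Fin 4060), gclsF y.val = gclsF x))))
  rw [hncard, gcard_classes (fun i => ∃ y ∈ MulAction.orbit N (0 : Fin 4060), gclsF y.val = i)]
    at hdvd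
  have hd0 : ∃ y ∈ MulAction.orbit N (0 : Fin 4060), gclsF y.val = 0 := ⟨0, h0O, gcls_zero⟩
  rw [if_pos hd0] at hdvd
  have hkey := arith_G
    (decide (∃ y ∈ MulAction.orbit N (0 : Fin 4060), gclsF y.val = 1))
    (decide (∃ y ∈ MulAction.orbit N (0 : Fin 4060), gclsF y.val = 2))
  simp only [decide_eq_true_eq, decide_eq_false_iff_not] at hkey
  rcases hkey hdvd with ⟨n1, n2⟩ | ⟨p1, p2⟩
  · -- the orbit is a point: contradiction
    exfalso
    apply hbot
    have hfix : ∀ n : Equiv.Perm (Fin 4060), ∀ hn : n ∈ grp [0, 2],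
        (⟨n, hn⟩ : ↥(grp [0, 2])) ∈ N → n 0 = 0 := by
      intro n hn hnN
      have hy : n 0 ∈ MulAction.orbit N (0 : Fin 4060) := (hmemO _).mpr ⟨n, hn, hnN, rfl⟩
      have hc : gclsF (n 0).val = 0 := by
        have hlt := gcls_lt (n 0).val (n 0).isLt
        by_contra hne
        have h8 : gclsF (n 0).val = 1 ∨ gclsF (n 0).val = 2 := by omega
        rcases h8 with h | h
        · exact n1 ⟨_, hy, h⟩
        · exact n2 ⟨_, hy, h⟩
      obtain ⟨k, hk, hk'⟩ := gcls_word (n 0)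
      have e := hk' 0 (by rw [hc, grep_zero]; rfl)
      rw [K_fix0 k hk] at e
      exact e.symm
    rw [Subgroup.eq_bot_iff_forall]
    rintro ⟨n, hn⟩ hnN
    apply Subtype.ext
    apply Equiv.ext
    intro i
    obtain ⟨g, hg, rfl⟩ := G_trans i
    have h1 : (⟨g⁻¹ * n * g, (grp [0, 2]).mul_mem ((grp [0, 2]).mul_mem
        ((grp [0, 2]).inv_mem hg) hn) hg⟩ : ↥(grp [0, 2])) ∈ N := by
      have h2 := hN.conj_mem ⟨n, hn⟩ hnN ⟨g, hg⟩⁻¹
      rw [inv_inv] at h2
      exact h2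
    have h3 := hfix _ _ h1
    rw [Equiv.Perm.mul_apply, Equiv.Perm.mul_apply, Equiv.Perm.inv_eq_iff_eq] at h3
    show n (g 0) = g 0
    exact h3
  · -- the orbit is everything
    have huniv : ∀ w : Fin 4060, w ∈ MulAction.orbit N (0 : Fin 4060) := by
      intro w
      rw [hOd w]
      have hlt := gcls_lt w.val w.isLt
      have h8 : gclsF w.val = 0 ∨ gclsF w.val = 1 ∨ gclsF w.val = 2 := by omega
      rcases h8 with h | h | h <;> rw [h]
      · exact hd0
      · exact p1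
      · exact p2
    have hcardN : Nat.card N = 4060 * Nat.card (MulAction.stabilizer N (0 : Fin 4060)) := by
      have h1 := Subgroup.card_mul_index (MulAction.stabilizer N (0 : Fin 4060))
      rw [MulAction.index_stabilizer, Set.eq_univ_of_forall huniv, Set.ncard_univ,
        Nat.card_fin] at h1
      rw [← h1, mul_comm]
    apply normal_eq_top 0 2 29 g0_pow g2_pow _ N hN
    · rw [hcardN]
      exact Dvd.dvd.mul_right (by norm_num) _
    · rw [hcard]
      norm_num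

theorem stab_card : Nat.card (MulAction.stabilizer ↥(grp [0, 2]) (0 : Fin 4060)) = 35942400 := by
  have h1 := Subgroup.card_mul_index (MulAction.stabilizer ↥(grp [0, 2]) (0 : Fin 4060))
  have h2 : (MulAction.stabilizer ↥(grp [0, 2]) (0 : Fin 4060)).index = 4060 := by
    rw [MulAction.index_stabilizer, MulAction.orbit_eq_univ, Set.ncard_univ, Nat.card_fin]
  rw [h2, card_G] at h1
  generalize Nat.card ↥(MulAction.stabilizer ↥(grp [0, 2]) (0 : Fin 4060)) = c at h1 ⊢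
  omega

/-! ### The subgroup of the point stabiliser -/

theorem om_word (i : ℕ) (hi : i < 1755) : ∃ g ∈ grp [16, 18], (g pT).val = omF i := by
  refine ⟨wperm (wordOf 4 (g32 wdT0P i)), word4_mem _, ?_⟩
  rw [wperm_apply, ← ev4_eq]
  exact (trChk_spec _ _ _ _ _ _ trT0 i hi).1

theorem om_inj (i : ℕ) (hi : i < 1755) (j : ℕ) (hj : j < 1755) (h : omF i = omF j) : i = j := by
  have h3 : g13 posT0P (omF i) = i := (trChk_spec _ _ _ _ _ _ trT0 i hi).2
  have h4 : g13 posT0P (omF j) = j := (trChk_spec _ _ _ _ _ _ trT0 j hj).2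
  exact h3.symm.trans ((congrArg (g13 posT0P) h).trans h4)

theorem T_orb (g : Equiv.Perm (Fin 4060)) (hg : g ∈ grp [16, 18]) :
    ∃ i < 1755, (g pT).val = omF i := lev_T0.2.1 g hg

theorem om_lt (i : ℕ) (hi : i < 1755) : omF i < 4060 := by
  obtain ⟨g, -, h⟩ := om_word i hi
  rw [← h]
  exact (g pT).isLt

/-- The points of the orbit of the point `2305` under the group `T`. -/
def omP (i : Fin 1755) : Fin 4060 := ⟨omF i.val, om_lt i.val i.isLt⟩

theorem omP_inj : Function.Injective omP := by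
  intro i j h
  exact Fin.ext (om_inj i.val i.isLt j.val j.isLt (congrArg Fin.val h))

theorem orbit_T : MulAction.orbit ↥(grp [16, 18]) pT = Set.range omP := by
  ext y
  constructor
  · rintro ⟨⟨g, hg⟩, rfl⟩
    obtain ⟨i, hi, h⟩ := T_orb g hg
    exact ⟨⟨i, hi⟩, Fin.ext h.symm⟩
  · rintro ⟨i, rfl⟩
    obtain ⟨g, hg, h⟩ := om_word i.val i.isLt
    exact ⟨⟨g, hg⟩, Fin.ext h⟩

theorem card_orbit_T : Nat.card ↥(MulAction.orbit ↥(grp [16, 18]) pT) = 1755 := by
  rw [Nat.card_coe_set_eq, orbit_T, ← Set.image_univ,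
    Set.ncard_image_of_injective _ omP_inj, Set.ncard_univ, Nat.card_fin]

theorem trep_lt (i : ℕ) (hi : i < 5) : g13 trepP i < 4060 :=
  Nat.lt_succ_of_le (Nat.le_of_ble_eq_true ((allB_iff _ _).mp trep_ok i hi))

/-- The class of the point number `i` of the orbit. -/
def tcF (i : ℕ) : ℕ := tclsF (omF i)

theorem tcls_lt (i : ℕ) (hi : i < 1755) : tcF i < 5 :=
  (tclsChk_spec 0 1755 tcls_ok i (Nat.zero_le _) (by omega)).1

theorem tcls_word (i : ℕ) (hi : i < 1755) : ∃ k ∈ grp [20, 22], ∀ r : Fin 4060,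
    r.val = g13 trepP (tcF i) → (k r).val = omF i := by
  refine ⟨wperm (wordOf 5 (g32 tcwP (omF i))), word5_mem _, ?_⟩
  intro r hr
  rw [wperm_apply, ← ev5_eq, hr]
  exact (tclsChk_spec 0 1755 tcls_ok i (Nat.zero_le _) (by omega)).2

theorem tcnt_vals : cntN tcF 1755 0 = 1 ∧ cntN tcF 1755 1 = 1024 ∧ cntN tcF 1755 2 = 10 ∧
    cntN tcF 1755 3 = 640 ∧ cntN tcF 1755 4 = 80 := by
  have h := tcnt_ok
  rw [band_iff, band_iff, band_iff, band_iff] at h
  obtain ⟨h0, h1, h2, h3, h4⟩ := h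
  have e0 := Nat.eq_of_beq_eq_true h0
  have e1 := Nat.eq_of_beq_eq_true h1
  have e2 := Nat.eq_of_beq_eq_true h2
  have e3 := Nat.eq_of_beq_eq_true h3
  have e4 := Nat.eq_of_beq_eq_true h4
  exact ⟨e0, e1, e2, e3, e4⟩

theorem tcard_classes (d : ℕ → Prop) [DecidablePred d] :
    (∑ x ∈ Finset.range 1755, if d (tcF x) then (1 : ℕ) else 0) =
      (if d 0 then 1 else 0) + (if d 1 then 1024 else 0) + (if d 2 then 10 else 0) +
      (if d 3 then 640 else 0) + (if d 4 then 80 else 0) := by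
  rw [card_classes tcF 1755 5 tcls_lt d]
  obtain ⟨e0, e1, e2, e3, e4⟩ := tcnt_vals
  simp only [Finset.sum_range_succ, Finset.sum_range_zero, zero_add, e0, e1, e2, e3, e4]

theorem arith_T : ∀ b1 b2 b3 b4 : Bool,
    (1 + (if b1 = true then 1024 else 0) + (if b2 = true then 10 else 0) +
      (if b3 = true then 640 else 0) + (if b4 = true then 80 else 0)) ∣ 1755 →
    (b1 = false ∧ b2 = false ∧ b3 = false ∧ b4 = false) ∨
    (b1 = true ∧ b2 = true ∧ b3 = true ∧ b4 = true) := by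
  intro b1 b2 b3 b4
  cases b1 <;> cases b2 <;> cases b3 <;> cases b4 <;> decide

theorem trep_zero : g13 trepP 0 = 2305 := by
  have h := trep0
  rw [band_iff] at h
  exact Nat.eq_of_beq_eq_true h.1

theorem tcls_pT : tclsF 2305 = 0 := by
  have h := trep0
  rw [band_iff] at h
  exact Nat.eq_of_beq_eq_true h.2

theorem pA_mem : ∃ g ∈ grp [16, 18], g pT = pA := by
  have h := om_ok
  rw [band_iff, band_iff, band_iff] at h
  obtain ⟨g, hg, hgp⟩ := om_word (g13 posT0P 2306) (Nat.le_of_ble_eq_true h.1.1)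
  exact ⟨g, hg, Fin.ext (hgp.trans (Nat.eq_of_beq_eq_true h.1.2))⟩

theorem pB_mem : ∃ g ∈ grp [16, 18], g pT = pB := by
  have h := om_ok
  rw [band_iff, band_iff, band_iff] at h
  obtain ⟨g, hg, hgp⟩ := om_word (g13 posT0P 2308) (Nat.le_of_ble_eq_true h.2.1)
  exact ⟨g, hg, Fin.ext (hgp.trans (Nat.eq_of_beq_eq_true h.2.2))⟩

theorem exists_bool_pred (P : ℕ → Prop) : ∃ dB : ℕ → Bool, ∀ c, dB c = true ↔ P c :=
  ⟨fun c => @decide (P c) (Classical.propDecidable _),
    fun _ => @decide_eq_true_iff _ (Classical.propDecidable _)⟩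

theorem simple_T : IsSimpleGroup ↥(grp [16, 18]) := by
  have hcard := card_T
  have : Nontrivial ↥(grp [16, 18]) :=
    Finite.one_lt_card_iff_nontrivial.mp (by rw [hcard]; norm_num)
  have := fact13
  refine ⟨fun N hN => ?_⟩
  by_cases hbot : N = ⊥
  · exact Or.inl hbot
  right
  -- membership in the orbit
  have hmemO : ∀ y : Fin 4060, y ∈ MulAction.orbit N pT ↔
      ∃ n : Equiv.Perm (Fin 4060), ∃ hn : n ∈ grp [16, 18],
        (⟨n, hn⟩ : ↥(grp [16, 18])) ∈ N ∧ n pT = y := by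
    intro y
    constructor
    · rintro ⟨⟨⟨n, hn⟩, hnN⟩, rfl⟩
      exact ⟨n, hn, hnN, rfl⟩
    · rintro ⟨n, hn, hnN, rfl⟩
      exact ⟨⟨⟨n, hn⟩, hnN⟩, rfl⟩
  have hpO : pT ∈ MulAction.orbit N pT := MulAction.mem_orbit_self pT
  -- invariance under the stabiliser of the point
  have hinv : ∀ k ∈ grp [16, 18], k pT = pT → ∀ y ∈ MulAction.orbit N pT,
      k y ∈ MulAction.orbit N pT := by
    intro k hk hk0 y hy
    obtain ⟨n, hn, hnN, rfl⟩ := (hmemO y).mp hy
    refine (hmemO _).mpr ⟨k * n * k⁻¹,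
      (grp [16, 18]).mul_mem ((grp [16, 18]).mul_mem hk hn) ((grp [16, 18]).inv_mem hk), ?_, ?_⟩
    · exact hN.conj_mem ⟨n, hn⟩ hnN ⟨k, hk⟩
    · have h1 : k⁻¹ pT = pT := Equiv.Perm.inv_eq_iff_eq.mpr hk0.symm
      rw [Equiv.Perm.mul_apply, Equiv.Perm.mul_apply, h1]
  have hOΩ : ∀ y ∈ MulAction.orbit N pT, ∃ i < 1755, y.val = omF i := by
    intro y hy
    obtain ⟨n, hn, -, rfl⟩ := (hmemO y).mp hy
    exact T_orb n hn
  -- the orbit is a union of classes
  have hcls : ∀ y w : Fin 4060, y ∈ MulAction.orbit N pT → ∀ i < 1755, ∀ j < 1755,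
      y.val = omF i → w.val = omF j → tcF j = tcF i →
      w ∈ MulAction.orbit N pT := by
    intro y w hy i hi j hj hyi hwj hc
    obtain ⟨k1, hk1, hk1'⟩ := tcls_word i hi
    obtain ⟨k2, hk2, hk2'⟩ := tcls_word j hj
    have hr := trep_lt _ (tcls_lt i hi)
    have e1 : k1 ⟨g13 trepP (tcF i), hr⟩ = y :=
      Fin.ext ((hk1' ⟨g13 trepP (tcF i), hr⟩ rfl).trans hyi.symm)
    have e2 : k2 ⟨g13 trepP (tcF i), hr⟩ = w :=
      Fin.ext ((hk2' ⟨g13 trepP (tcF i), hr⟩
        (congrArg (g13 trepP) hc.symm)).trans hwj.symm)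
    have h1 := hinv (k2 * k1⁻¹)
      ((grp [16, 18]).mul_mem (T1_le hk2) ((grp [16, 18]).inv_mem (T1_le hk1)))
      (by rw [Equiv.Perm.mul_apply, Equiv.Perm.inv_eq_iff_eq.mpr (T1_fix k1 hk1).symm,
        T1_fix k2 hk2]) y hy
    rw [Equiv.Perm.mul_apply, Equiv.Perm.inv_eq_iff_eq.mpr e1.symm, e2] at h1
    exact h1
  -- the size of the orbit divides 1755
  have hdvd : (MulAction.orbit N pT).ncard ∣ 1755 := by
    have hblock : MulAction.IsBlock ↥(grp [16, 18]) (MulAction.orbit N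
        (⟨pT, MulAction.mem_orbit_self pT⟩ : MulAction.orbit ↥(grp [16, 18]) pT)) :=
      MulAction.IsBlock.orbit_of_normal _
    have h1 := MulAction.IsBlock.ncard_dvd_card hblock ⟨_, MulAction.mem_orbit_self _⟩
    rw [card_orbit_T] at h1
    have h2 : Subtype.val '' (MulAction.orbit N
        (⟨pT, MulAction.mem_orbit_self pT⟩ : MulAction.orbit ↥(grp [16, 18]) pT)) =
        MulAction.orbit N pT := by
      ext y
      constructor
      · rintro ⟨a, ha, rfl⟩
        exact MulAction.mem_subgroup_orbit_iff.mp ha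
      · intro hy
        have hy' : y ∈ MulAction.orbit ↥(grp [16, 18]) pT :=
          MulAction.mem_orbit_of_mem_orbit_subgroup hy
        exact ⟨⟨y, hy'⟩, MulAction.mem_subgroup_orbit_iff.mpr hy, rfl⟩
    rw [← h2, Set.ncard_image_of_injective _ Subtype.val_injective]
    exact h1
  -- the classes meeting the orbit
  obtain ⟨dB, hdB⟩ : ∃ dB : ℕ → Bool, ∀ c, dB c = true ↔
      ∃ w ∈ MulAction.orbit N pT, ∃ j < 1755, w.val = omF j ∧ tcF j = c :=
    exists_bool_pred _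
  have hOd : ∀ i < 1755, ∀ y : Fin 4060, y.val = omF i →
      (y ∈ MulAction.orbit N pT ↔ dB (tcF i) = true) := by
    intro i hi y hyi
    rw [hdB]
    constructor
    · intro hy
      exact ⟨y, hy, i, hi, hyi, rfl⟩
    · rintro ⟨w, hw, j, hj, hwj, hc⟩
      exact hcls w y hw j hj i hi hwj hyi hc.symm
  have hncard : (MulAction.orbit N pT).ncard =
      ∑ x ∈ Finset.range 1755, if dB (tcF x) = true then (1 : ℕ) else 0 := by
    have h1 : MulAction.orbit N pT = omP '' (↑((Finset.univ : Finset (Fin 1755)).filter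
        (fun i => dB (tcF i.val) = true))) := by
      ext y
      constructor
      · intro hy
        obtain ⟨i, hi, hyi⟩ := hOΩ y hy
        exact ⟨⟨i, hi⟩, Finset.mem_coe.mpr (Finset.mem_filter.mpr
          ⟨Finset.mem_univ _, (hOd i hi y hyi).mp hy⟩), Fin.ext hyi.symm⟩
      · rintro ⟨i, hi, rfl⟩
        exact (hOd i.val i.isLt (omP i) rfl).mpr (Finset.mem_filter.mp (Finset.mem_coe.mp hi)).2
    exact (congrArg Set.ncard h1).trans ((Set.ncard_image_of_injective _ omP_inj).trans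
      ((Set.ncard_coe_finset _).trans ((Finset.card_filter _ _).trans
        (sum_fin_range 1755 (fun x => dB (tcF x) = true)))))
  have hcc := tcard_classes (fun c => dB c = true)
  have hd0 : dB 0 = true := by
    rw [hdB]
    obtain ⟨i, hi, hpi⟩ := hOΩ pT hpO
    refine ⟨pT, hpO, i, hi, hpi, ?_⟩
    show tclsF (omF i) = 0
    rw [← hpi]
    exact tcls_pT
  rw [if_pos hd0] at hcc
  rw [hncard, hcc] at hdvd
  rcases arith_T (dB 1) (dB 2) (dB 3) (dB 4) hdvd with ⟨n1, n2, n3, n4⟩ | ⟨p1, p2, p3, p4⟩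
  · -- the orbit is a point: contradiction
    exfalso
    apply hbot
    have hfix : ∀ n : Equiv.Perm (Fin 4060), ∀ hn : n ∈ grp [16, 18],
        (⟨n, hn⟩ : ↥(grp [16, 18])) ∈ N → n pT = pT := by
      intro n hn hnN
      have hy : n pT ∈ MulAction.orbit N pT := (hmemO _).mpr ⟨n, hn, hnN, rfl⟩
      obtain ⟨i, hi, hyi⟩ := hOΩ _ hy
      have hc : tcF i = 0 := by
        have hlt := tcls_lt i hi
        by_contra hne
        have h8 : tcF i = 1 ∨ tcF i = 2 ∨ tcF i = 3 ∨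
            tcF i = 4 := by omega
        have hd : dB (tcF i) = true := (hdB _).mpr ⟨_, hy, i, hi, hyi, rfl⟩
        rcases h8 with h | h | h | h
        · rw [h, n1] at hd
          exact Bool.false_ne_true hd
        · rw [h, n2] at hd
          exact Bool.false_ne_true hd
        · rw [h, n3] at hd
          exact Bool.false_ne_true hd
        · rw [h, n4] at hd
          exact Bool.false_ne_true hd
      obtain ⟨k, hk, hk'⟩ := tcls_word i hi
      have e := hk' pT (by rw [hc]; exact trep_zero.symm)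
      rw [T1_fix k hk] at e
      exact Fin.ext (hyi.trans e.symm)
    have hfixΩ : ∀ n : Equiv.Perm (Fin 4060), ∀ hn : n ∈ grp [16, 18],
        (⟨n, hn⟩ : ↥(grp [16, 18])) ∈ N → ∀ g ∈ grp [16, 18], n (g pT) = g pT := by
      intro n hn hnN g hg
      have h1 : (⟨g⁻¹ * n * g, (grp [16, 18]).mul_mem ((grp [16, 18]).mul_mem
          ((grp [16, 18]).inv_mem hg) hn) hg⟩ : ↥(grp [16, 18])) ∈ N := by
        have h2 := hN.conj_mem ⟨n, hn⟩ hnN ⟨g, hg⟩⁻¹
        rw [inv_inv] at h2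
        exact h2
      have h3 := hfix _ _ h1
      rw [Equiv.Perm.mul_apply, Equiv.Perm.mul_apply, Equiv.Perm.inv_eq_iff_eq] at h3
      exact h3
    rw [Subgroup.eq_bot_iff_forall]
    rintro ⟨n, hn⟩ hnN
    apply Subtype.ext
    show n = 1
    obtain ⟨gA, hgA, hA⟩ := pA_mem
    obtain ⟨gB, hgB, hB⟩ := pB_mem
    have f0 : n pT = pT := hfix n hn hnN
    have fA : n pA = pA := by
      rw [← hA]
      exact hfixΩ n hn hnN gA hgA
    have fB : n pB = pB := by
      rw [← hB]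
      exact hfixΩ n hn hnN gB hgB
    have m1 : n ∈ grp [20, 22] := lev_T0.2.2 n hn f0
    have m2 : n ∈ grp [24, 26] := lev_T1.2.2 n m1 fA
    have m3 : n ∈ (⊥ : Subgroup (Equiv.Perm (Fin 4060))) := lev_T2.2.2 n m2 fB
    exact Subgroup.mem_bot.mp m3
  · -- the orbit is the whole orbit of T
    have hOcard : (MulAction.orbit N pT).ncard = 1755 := by
      rw [if_pos p1, if_pos p2, if_pos p3, if_pos p4] at hcc
      exact hncard.trans hcc
    have hcardN : Nat.card N = 1755 * Nat.card (MulAction.stabilizer N pT) := by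
      have h1 := Subgroup.card_mul_index (MulAction.stabilizer N pT)
      rw [MulAction.index_stabilizer, hOcard] at h1
      rw [← h1, mul_comm]
    apply normal_eq_top 16 18 13 g16_pow g18_pow _ N hN
    · rw [hcardN]
      exact Dvd.dvd.mul_right (by norm_num) _
    · rw [hcard]
      norm_num

/-- The Rudvalis group as a transitive group of degree 4060, with point stabiliser of order
35942400 containing a simple subgroup of order 17971200. -/
theorem exists_Ru : ∃ H : Subgroup (Equiv.Perm (Fin 4060)),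
    (IsSimpleGroup H ∧ Nat.card H = 145926144000) ∧ MulAction.IsPretransitive H (Fin 4060) ∧
      Nat.card (MulAction.stabilizer H (0 : Fin 4060)) = 35942400 ∧
      ∃ T : Subgroup (MulAction.stabilizer H (0 : Fin 4060)),
        IsSimpleGroup T ∧ Nat.card T = 17971200 := by
  refine ⟨grp [0, 2], ⟨simple_G, card_G⟩, pretrans_G, stab_card, ?_⟩
  have hTG : grp [16, 18] ≤ grp [0, 2] := T_le.trans K_le
  have hA : (grp [16, 18]).subgroupOf (grp [0, 2]) ≤
      MulAction.stabilizer ↥(grp [0, 2]) (0 : Fin 4060) := by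
    rintro ⟨g, hg⟩ hgT
    have h1 : g ∈ grp [16, 18] := Subgroup.mem_subgroupOf.mp hgT
    exact K_fix0 g (T_le h1)
  refine ⟨((grp [16, 18]).subgroupOf (grp [0, 2])).subgroupOf
    (MulAction.stabilizer ↥(grp [0, 2]) (0 : Fin 4060)), ?_, ?_⟩
  · have := simple_T
    exact ((Subgroup.subgroupOfEquivOfLe hA).trans
      (Subgroup.subgroupOfEquivOfLe hTG)).isSimpleGroup
  · rw [Nat.card_congr ((Subgroup.subgroupOfEquivOfLe hA).trans
      (Subgroup.subgroupOfEquivOfLe hTG)).toEquiv, card_T]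

end Cfsg.Agent.Lib.Helper9.Ru
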