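import Cfsg.Agent.Lib.Helper9.U33Data
import Cfsg.Agent.Lib.Helper9.FCBase

/-!
# Kernel checks of the generated data for `PSU(3,3) < J2`
-/

set_option autoImplicit false
set_option maxRecDepth 100000

namespace Cfsg.Agent.Lib.Helper9.U33

open Cfsg.Agent.Lib.Helper9.FC Cfsg.Agent.Lib.Helper99.G22

/-- A bounded existential quantifier, as a loop. -/
def exB (n : ℕ) (f : ℕ → Bool) : Bool := Nat.rec false (fun k ih => bor (f k) ih) n

theorem exB_succ (n : ℕ) (f : ℕ → Bool) : exB (n + 1) f = bor (f n) (exB n f) := rfl

theorem exB_spec (n : ℕ) (f : ℕ → Bool) (h : exB n f = true) : ∃ k < n, f k = true := by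
  induction n with
  | zero => exact absurd h Bool.false_ne_true
  | succ n ih =>
    rw [exB_succ, bor_iff] at h
    rcases h with h | h
    · exact ⟨n, Nat.lt_succ_self n, h⟩
    · obtain ⟨k, hk, hf⟩ := ih h
      exact ⟨k, Nat.lt_succ_of_lt hk, hf⟩

/-- the four tables permute the hundred sets -/
def chkA : Bool := allB 4 (fun i => allB 100 (fun k => band (Nat.blt (sgP i k) 100)
    (allB 315 (fun p => Nat.beq (bitN (sgP i k) (sN i p)) (bitN k p)))))

theorem chkA_ok : chkA = true := by decide +kernel

/-- the four letters permute the hundred sets -/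
def chkH : Bool := allB 4 (fun l => allB 100 (fun k => band (Nat.blt (sgH l k) 100)
    (allB 315 (fun p => Nat.beq (bitN (sgH l k) (fP l p)) (bitN k p)))))

theorem chkH_ok : chkH = true := by decide +kernel

/-- the four letters fix the set `T 0` -/
def chkFix : Bool := allB 4 (fun l => Nat.beq (sgH l 0) 0)

theorem chkFix_ok : chkFix = true := by decide +kernel

/-- the hundred sets are distinct -/
def chkInj : Bool := allB 100 (fun k => allB 100 (fun k' => bor (Nat.beq k k')
    (exB 315 (fun p => Bool.xor (Nat.beq (bitN k p) 1) (Nat.beq (bitN k' p) 1)))))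

theorem chkInj_ok : chkInj = true := by decide +kernel

/-- the numbering of the points of `T 0`: from numbers to points -/
def chkEmb : Bool := allB 63 (fun c => band (Nat.blt (emb c) 315)
    (band (Nat.beq (bitN 0 (emb c)) 1) (Nat.beq (proj (emb c)) c)))

theorem chkEmb_ok : chkEmb = true := by decide +kernel

/-- the numbering of the points of `T 0`: from points to numbers -/
def chkProj : Bool := allB 315 (fun p => bor (Bool.not (Nat.beq (bitN 0 p) 1))
    (band (Nat.blt (proj p) 63) (Nat.beq (emb (proj p)) p)))

theorem chkProj_ok : chkProj = true := by decide +kernel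

/-- the letters act on the numbers below 63 -/
def chkCl : Bool := allB 4 (fun l => allB 63 (fun c => Nat.blt (fL l c) 63))

theorem chkCl_ok : chkCl = true := by decide +kernel

/-- the numbering of helper99's points -/
def chkPt : Bool := allB 63 (fun c => Nat.beq (ptN (ptOf c)) c)

theorem chkPt_ok : chkPt = true := by decide +kernel

/-- the words give helper99's permutations -/
def chkW : Bool := allB 57 (fun j => allB 63 (fun c =>
    Nat.beq (evalW (wordL j) c) (ptN (permT (ixOf j) (ptOf c)))))

theorem chkW_ok : chkW = true := by decide +kernel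

/-- the spanning tree of the orbit `T 1 … T 36` -/
def chkT1 : Bool := allB 37 (fun k => bor (Nat.ble k 1) (band (Nat.ble 1 (parH k))
    (band (Nat.blt (parH k) k) (band (Nat.blt (letH k) 4) (Nat.beq (sgH (letH k) (parH k)) k)))))

theorem chkT1_ok : chkT1 = true := by decide +kernel

/-- the spanning tree of the orbit `T 37 … T 99` -/
def chkT2 : Bool := allB 100 (fun k => bor (Nat.ble k 37) (band (Nat.ble 37 (parH k))
    (band (Nat.blt (parH k) k) (band (Nat.blt (letH k) 4) (Nat.beq (sgH (letH k) (parH k)) k)))))

theorem chkT2_ok : chkT2 = true := by decide +kernel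

theorem ch37 : sgP 2 0 = 37 := by decide +kernel

theorem ch1 : sgP 3 37 = 1 := by decide +kernel

end Cfsg.Agent.Lib.Helper9.U33
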